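import Mathlib
import Cfsg.Agent.AutPSU.Torus
import Cfsg.Agent.Classical.Unitary.Order
import Cfsg.Agent.SchurClassical.Lifts

/-!
Radical lifts in central extensions of `SU_n(q)` by `p`-groups and the descent along the stabilisers
of isotropic vectors.
-/

set_option autoImplicit false

namespace CfsgLib.SchurClassical.Un

open Matrix CfsgLib.Unitary CfsgLib.AutPSU
open scoped commutatorElement

universe u

section General

variable {F : Type u} [Field F] {n q : ℕ}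

/-- The unipotent radical of the stabiliser of `v`, intrinsically. -/
def qAt (v : Fin n → F) : Subgroup ↥(Cfsg.SU n F q) where
  carrier := {g | sv g v = v ∧ ∀ y, Cfsg.hermForm n F q y v = 0 → ∃ t : F, sv g y = y + t • v}
  one_mem' := ⟨sv_one v, fun y _ => ⟨0, by rw [sv_one, zero_smul, add_zero]⟩⟩
  mul_mem' := by
    rintro a b ⟨ha, ha'⟩ ⟨hb, hb'⟩
    refine ⟨by rw [sv_mul, hb, ha], fun y hy => ?_⟩
    obtain ⟨s, hs⟩ := hb' y hy
    obtain ⟨t, ht⟩ := ha' y hy
    exact ⟨t + s, by rw [sv_mul, hs, sv_add, sv_smul, ha, ht]; module⟩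
  inv_mem' := by
    rintro a ⟨ha, ha'⟩
    have hi : sv a⁻¹ v = v := by conv_lhs => rw [← ha, sv_inv_sv]
    refine ⟨hi, fun y hy => ?_⟩
    obtain ⟨t, ht⟩ := ha' y hy
    refine ⟨-t, ?_⟩
    have h := congrArg (sv a⁻¹) ht
    rw [sv_inv_sv, sv_add, sv_smul, hi] at h
    rw [neg_smul, ← sub_eq_add_neg, eq_sub_iff_add_eq, ← h]

theorem mem_qAt {v : Fin n → F} {g : ↥(Cfsg.SU n F q)} :
    g ∈ qAt v ↔ sv g v = v ∧ ∀ y, Cfsg.hermForm n F q y v = 0 → ∃ t : F, sv g y = y + t • v :=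
  Iff.rfl

theorem conj_mem_qAt {v : Fin n → F} (s : ↥(Cfsg.SU n F q)) {g : ↥(Cfsg.SU n F q)} (hg : g ∈ qAt v) :
    s * g * s⁻¹ ∈ qAt (sv s v) := by
  obtain ⟨h1, h2⟩ := hg
  refine ⟨by rw [sv_mul, sv_mul, sv_inv_sv, h1], fun y hy => ?_⟩
  obtain ⟨t, ht⟩ := h2 (sv s⁻¹ y) (by rw [← sv_herm s, sv_sv_inv, hy])
  exact ⟨t, by rw [sv_mul, sv_mul, ht, sv_add, sv_sv_inv, sv_smul]⟩

variable {Γ : Type u} [Group Γ]

/-- The radicals of all isotropic vectors lift to subgroups meeting the kernel trivially, normalised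
by the preimages of the stabilisers. -/
def HasRad (σ : Γ →* ↥(Cfsg.SU n F q)) : Prop :=
  ∀ v : Fin n → F, v ≠ 0 → Cfsg.hermForm n F q v v = 0 →
    ∃ N : Subgroup Γ, N.map σ = qAt v ∧ σ.ker ⊓ N = ⊥ ∧
      ∀ g : Γ, sv (σ g) v = v → ∀ x ∈ N, g * x * g⁻¹ ∈ N

end General

variable {F : Type u} [Field F] [Fintype F] {m q : ℕ}

local notation "Vm" => Fin m → F
local notation "Vn" => Fin (m + 2) → F
local notation "h[" u "," v "]" => Cfsg.hermForm (m + 2) F q u v
set_option quotPrecheck false in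
local notation "SUn" => ↥(Cfsg.SU (m + 2) F q)

variable (hF : Fintype.card F = q ^ 2)

theorem qsub_eq_qAt (T : Frame F m q) : T.qsub hF = qAt T.e :=
  SetLike.ext fun _ => T.mem_qsub_iff hF

include hF in
theorem adm_smat (g : ↥(Cfsg.SU m F q)) :
    Adm q (1 : F) ((g : Matrix.SpecialLinearGroup (Fin m) F) : Matrix (Fin m) (Fin m) F) :=
  ⟨one_ne_zero, fun u v => g.2 u v, by rw [one_pow, inv_one, one_mul, one_mul]; exact g.1.2⟩

/-- The embedding of the unitary group of `⟨e, f⟩^⊥`. -/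
noncomputable def emb (T : Frame F m q) : ↥(Cfsg.SU m F q) →* SUn :=
  MonoidHom.mk' (fun g => T.tor hF (adm_smat hF g)) fun a b => by
    refine T.sv_ext_frame hF ?_ ?_ fun w => ?_ <;> simp only [sv_mul, T.sv_tor hF]
    · rw [T.lin_e hF, T.lin_e hF, one_smul, T.lin_e hF, one_smul]
    · rw [T.lin_f hF, T.lin_f hF, one_pow, inv_one, one_smul, T.lin_f hF, one_pow, inv_one, one_smul]
    · rw [T.lin_eta, T.lin_eta, T.lin_eta]
      exact congrArg eta (sv_mul a b w)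

theorem emb_e (T : Frame F m q) (g : ↥(Cfsg.SU m F q)) : sv (emb hF T g) T.e = T.e := by
  show sv (T.tor hF (adm_smat hF g)) T.e = _
  rw [T.sv_tor hF, T.lin_e hF, one_smul]

theorem emb_f (T : Frame F m q) (g : ↥(Cfsg.SU m F q)) : sv (emb hF T g) T.f = T.f := by
  show sv (T.tor hF (adm_smat hF g)) T.f = _
  rw [T.sv_tor hF, T.lin_f hF, one_pow, inv_one, one_smul]

theorem emb_eta (T : Frame F m q) (g : ↥(Cfsg.SU m F q)) (w : Vm) :
    sv (emb hF T g) (eta w) = eta (sv g w) := by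
  show sv (T.tor hF (adm_smat hF g)) _ = _
  rw [T.sv_tor hF, T.lin_eta]
  rfl

theorem emb_injective (T : Frame F m q) : Function.Injective (emb hF T) := fun a b h =>
  sv_ext fun w => eta_injective (by rw [← emb_eta hF T, ← emb_eta hF T, h])

include hF in
theorem eq_one_of_mem_qAt (T : Frame F m q) {g : SUn} (hg : g ∈ qAt T.e) (hf : sv g T.f = T.f) :
    g = 1 := by
  refine T.sv_ext_frame hF ?_ ?_ fun w => ?_ <;> rw [sv_one]
  · exact hg.1
  · exact hf
  · obtain ⟨t, ht⟩ := hg.2 (eta w) (T.ew w)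
    have h := sv_herm g (eta w) T.f
    rw [ht, hf, herm_add_left, herm_smul_left, T.fw, T.hef, zero_add, mul_one] at h
    rw [ht, h, zero_smul, add_zero]

include hF in
/-- The stabiliser of `e` is the radical times the small group. -/
theorem exists_decomp (T : Frame F m q) {s : SUn} (hs : sv s T.e = T.e) :
    ∃ h ∈ qAt T.e, ∃ g : ↥(Cfsg.SU m F q), h⁻¹ * s = emb hF T g := by
  set w0 : Vm := proj (sv s T.f)
  set c : F := h[sv s T.f, T.f]
  have h1 : h[sv s T.f, T.e] = 1 := by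
    conv_lhs => rw [← hs]
    rw [sv_herm, T.hfe hF]
  have hsf : sv s T.f = c • T.e + T.f + eta w0 := by
    conv_lhs => rw [T.decomp hF (sv s T.f)]
    rw [h1, one_smul]
  have hc : Frame.HCond q w0 c := by
    have h := sv_herm s T.f T.f
    rw [hsf, T.hf] at h
    simp only [herm_add_left, herm_add_right hF, herm_smul_left, herm_smul_right, T.he, T.hf, T.hef,
      T.hfe hF, T.ew, T.fw, T.we hF, T.wf hF, herm_eta hF] at h
    unfold Frame.HCond
    linear_combination h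
  refine ⟨T.heis hF w0 c hc, by rw [← qsub_eq_qAt hF T]; exact T.heis_mem_qsub hF hc, ?_⟩
  have hhf : sv (T.heis hF w0 c hc) T.f = sv s T.f := by
    rw [T.sv_heis hF, T.heisLin_f hF, hsf]; abel
  have e1 : sv ((T.heis hF w0 c hc)⁻¹ * s) T.e = (1 : F) • T.e := by
    rw [sv_mul, hs, one_smul]
    conv_lhs => rw [← (show sv (T.heis hF w0 c hc) T.e = T.e by rw [T.sv_heis hF, T.heisLin_e hF]),
      sv_inv_sv]
  have e2 : sv ((T.heis hF w0 c hc)⁻¹ * s) T.f = (1 : F) • T.f := by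
    rw [sv_mul, ← hhf, sv_inv_sv, one_smul]
  obtain ⟨l, R, hA, e⟩ := T.exists_tor_of_fix hF one_ne_zero e1 e2
  have hl : l = 1 := by
    have h := e1
    rw [e, T.sv_tor hF, T.lin_e hF] at h
    exact smul_left_injective F (T.e_ne_zero hF) h
  subst hl
  have hdet : R.det = 1 := by simpa using hA.2.2
  exact ⟨⟨⟨R, hdet⟩, mem_SU.2 hA.2.1⟩, e⟩

variable (p : ℕ) [Fact p.Prime] [CharP F p]

include hF in
theorem not_dvd_index_vecStab_zero (T : Frame F 0 q) : ¬ p ∣ (vecStab F 0 q T.e).index := by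
  have hS : vecStab F 0 q T.e = T.qsub hF := by
    rw [qsub_eq_qAt hF T]
    ext s
    constructor
    · intro hs
      obtain ⟨h, hh, g, hg⟩ := exists_decomp hF T hs
      have : g = 1 := sv_ext fun x => funext fun i => Fin.elim0 i
      rw [this, map_one, inv_mul_eq_one] at hg
      exact hg ▸ hh
    · exact fun h => h.1
  let φ : {c : F // c + c ^ q = 0} → ↥(T.qsub hF) := fun c =>
    ⟨T.heis hF 0 c.1 (Frame.hcond_zero_iff.2 c.2), T.heis_mem_qsub hF _⟩
  have hφ : Function.Bijective φ := by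
    refine ⟨fun a b h => Subtype.ext (T.heis_inj hF (hc := Frame.hcond_zero_iff.2 a.2)
      (hc' := Frame.hcond_zero_iff.2 b.2) (congrArg Subtype.val h)).2, ?_⟩
    rintro ⟨_, w, c, hc, rfl⟩
    obtain rfl : w = 0 := Subsingleton.elim _ _
    exact ⟨⟨c, Frame.hcond_zero_iff.1 hc⟩, rfl⟩
  have hcard : Nat.card ↥(vecStab F 0 q T.e) = q := by
    rw [hS, ← Nat.card_congr (Equiv.ofBijective φ hφ), card_trace_zero hF]
  have h1 := card_SU hF 2 (by norm_num)
  simp only [Finset.prod_range_succ, Finset.prod_range_zero, Even.zero, Nat.not_even_one, if_true,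
    if_false, pow_one, zero_add, one_mul, show (1 : ℕ) + 1 = 2 from rfl,
    show 2 * (2 - 1) / 2 = 1 from rfl] at h1
  have h2 := Subgroup.card_mul_index (vecStab F 0 q T.e)
  rw [hcard] at h2
  have hq := two_le_q hF
  have e : (vecStab F 0 q T.e).index = q ^ 2 - 1 := by
    refine Nat.eq_of_mul_eq_mul_left (show 0 < (q + 1) * q by positivity) ?_
    rw [mul_assoc, h2]
    refine h1.trans ?_
    ring
  rw [e]
  obtain ⟨k, hk, hqk⟩ := exists_pow_eq hF p
  intro hd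
  have h3 : p ∣ q ^ 2 := by
    rw [hqk, ← pow_mul]; exact dvd_pow_self p (by positivity)
  have h4 : 1 ≤ q ^ 2 := Nat.one_le_pow _ _ (by omega)
  have h5 := Nat.dvd_sub h3 hd
  rw [Nat.sub_sub_self h4] at h5
  exact (Fact.out : p.Prime).one_lt.ne' (Nat.dvd_one.1 h5)

variable {Γ : Type u} [Group Γ] [Finite Γ]

/-- The restriction of an extension to the small group. -/
noncomputable def smallHom (T : Frame F m q) (σ : Γ →* SUn) :
    ↥((emb hF T).range.comap σ) →* ↥(Cfsg.SU m F q) :=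
  (MonoidHom.ofInjective (emb_injective hF T)).symm.toMonoidHom.comp (resHom σ _)

omit [Finite Γ] in
theorem emb_smallHom (T : Frame F m q) (σ : Γ →* SUn) (x : ↥((emb hF T).range.comap σ)) :
    emb hF T (smallHom hF T σ x) = σ x := by
  show emb hF T ((MonoidHom.ofInjective (emb_injective hF T)).symm (resHom σ _ x)) = _
  rw [← MonoidHom.ofInjective_apply (emb_injective hF T), MulEquiv.apply_symm_apply]
  rfl

omit [Finite Γ] in
theorem mem_smallHom_ker (T : Frame F m q) (σ : Γ →* SUn) {x : ↥((emb hF T).range.comap σ)} :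
    x ∈ (smallHom hF T σ).ker ↔ (x : Γ) ∈ σ.ker := by
  rw [MonoidHom.mem_ker, MonoidHom.mem_ker, ← emb_smallHom hF T σ x]
  exact ⟨fun h => by rw [h, map_one], fun h => emb_injective hF T (by rw [h, map_one])⟩

omit [Finite Γ] in
theorem hasRad_smallHom (T : Frame F m q) {σ : Γ →* SUn} (hs : Function.Surjective σ) (h : HasRad σ) :
    HasRad (smallHom hF T σ) := by
  intro v hv0 hv
  obtain ⟨N, hN, hint, hnorm⟩ := h (eta v) (fun e => hv0 (eta_injective (e.trans eta_zero.symm)))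
    (by rw [herm_eta hF, hv])
  have hq : ∀ g : ↥(Cfsg.SU m F q), g ∈ qAt v ↔ emb hF T g ∈ qAt (eta v) := by
    intro g
    constructor
    · rintro ⟨h1, h2⟩
      refine ⟨by rw [emb_eta, h1], fun y hy => ?_⟩
      rw [T.decomp hF y] at hy ⊢
      simp only [herm_add_left, herm_smul_left, T.we hF, T.wf hF, mul_zero, zero_add, herm_eta hF] at hy
      obtain ⟨t, ht⟩ := h2 _ hy
      refine ⟨t, ?_⟩
      simp only [sv_add, sv_smul, emb_e, emb_f, emb_eta, ht, eta_add, eta_smul]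
      abel
    · rintro ⟨h1, h2⟩
      refine ⟨eta_injective (by rw [← emb_eta hF T, h1]), fun y hy => ?_⟩
      obtain ⟨t, ht⟩ := h2 (eta y) (by rw [herm_eta hF, hy])
      exact ⟨t, eta_injective (by rw [← emb_eta hF T, ht, eta_add, eta_smul])⟩
  refine ⟨N.subgroupOf _, le_antisymm ?_ fun g hg => ?_, ?_, fun g hg x hx => ?_⟩
  · rintro _ ⟨x, hx, rfl⟩
    rw [hq, emb_smallHom, ← hN]
    exact Subgroup.mem_map_of_mem _ hx
  · rw [hq, ← hN] at hg
    obtain ⟨x, hx, e⟩ := hg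
    have hxm : x ∈ (emb hF T).range.comap σ := ⟨g, e.symm⟩
    exact ⟨⟨x, hxm⟩, hx, emb_injective hF T (by rw [emb_smallHom]; exact e)⟩
  · rw [eq_bot_iff]
    rintro x ⟨h1, h2⟩
    exact Subgroup.mem_bot.2 (Subtype.ext (Subgroup.mem_bot.1
      (hint.le ⟨(mem_smallHom_ker hF T σ).1 h1, h2⟩)))
  · exact hnorm g (by rw [← emb_smallHom hF T σ g, emb_eta, hg]) _ hx

include hF in
/-- One step of the descent. -/
theorem ker_inf_commutator_step (T : Frame F m q) (σ : Γ →* SUn) (hs : Function.Surjective σ)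
    (hc : σ.ker ≤ Subgroup.center Γ) (hA : IsPGroup p σ.ker) (hrad : HasRad σ)
    (ih : σ.ker ⊓ ⁅(emb hF T).range.comap σ, (emb hF T).range.comap σ⁆ = ⊥) :
    σ.ker ⊓ commutator Γ = ⊥ := by
  obtain ⟨N, hN, hint, hnorm⟩ := hrad T.e (T.e_ne_zero hF) T.he
  have hidx : ¬ p ∣ (vecStab F m q T.e).index := by
    rcases Nat.eq_zero_or_pos m with h | h
    · subst h; exact not_dvd_index_vecStab_zero hF p T
    · exact not_dvd_index_vecStab hF p h (T.e_ne_zero hF) T.he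
  refine ker_inf_commutator_of_index Fact.out hs hc hA _ hidx ?_
  set Sh := (vecStab F m q T.e).comap σ with hSh
  set G2 := (emb hF T).range.comap σ with hG2
  set C := ⁅G2, G2⁆ with hC
  have hG2S : G2 ≤ Sh := by
    rintro x ⟨g, hg⟩
    show sv (σ x) T.e = T.e
    rw [← hg, emb_e]
  have hCS : C ≤ Sh := (Subgroup.commutator_le_self G2).trans hG2S
  let M : Subgroup Γ :=
    { carrier := {z | ∃ x ∈ N, ∃ c ∈ C, z = x * c}
      one_mem' := ⟨1, N.one_mem, 1, C.one_mem, (one_mul 1).symm⟩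
      mul_mem' := by
        rintro _ _ ⟨x, hx, c, hc', rfl⟩ ⟨y, hy, d, hd, rfl⟩
        exact ⟨x * (c * y * c⁻¹), N.mul_mem hx (hnorm c (hCS hc') y hy), c * d, C.mul_mem hc' hd,
          by group⟩
      inv_mem' := by
        rintro _ ⟨x, hx, c, hc', rfl⟩
        refine ⟨c⁻¹ * x⁻¹ * c, ?_, c⁻¹, C.inv_mem hc', by group⟩
        simpa using hnorm c⁻¹ (hCS (C.inv_mem hc')) x⁻¹ (N.inv_mem hx) }
  have hNM : N ≤ M := fun x hx => ⟨x, hx, 1, C.one_mem, (mul_one x).symm⟩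
  have hCM : C ≤ M := fun c hc' => ⟨1, N.one_mem, c, hc', (one_mul c).symm⟩
  have hle : ⁅Sh, Sh⁆ ≤ M := by
    rw [Subgroup.commutator_le]
    have hdec : ∀ x ∈ Sh, ∃ n ∈ N, n⁻¹ * x ∈ G2 := by
      intro x hx
      obtain ⟨h, hh, g, hg⟩ := exists_decomp hF T (s := σ x) hx
      rw [← hN] at hh
      obtain ⟨n, hn, rfl⟩ := hh
      exact ⟨n, hn, g, by rw [map_mul, map_inv, hg]⟩
    intro x hx y hy
    obtain ⟨n, hn, hu⟩ := hdec x hx
    obtain ⟨k, hk, hv⟩ := hdec y hy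
    obtain ⟨u, rfl⟩ : ∃ u, x = n * u := ⟨n⁻¹ * x, by group⟩
    obtain ⟨v, rfl⟩ : ∃ v, y = k * v := ⟨k⁻¹ * y, by group⟩
    rw [inv_mul_cancel_left] at hu hv
    have e1 : ⁅n * u, k * v⁆ = n * ⁅u, k⁆ * k * ⁅u, v⁆ * k⁻¹ * n⁻¹ * ⁅n, k * v⁆ := by
      simp only [commutatorElement_def]; group
    rw [e1]
    have m1 : ⁅u, k⁆ ∈ N := by
      rw [commutatorElement_def]; exact N.mul_mem (hnorm u (hG2S hu) k hk) (N.inv_mem hk)
    have m2 : ⁅n, k * v⁆ ∈ N := by
      rw [commutatorElement_def, mul_assoc, mul_assoc, ← mul_assoc (k * v) n⁻¹]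
      exact N.mul_mem hn (hnorm _ hy _ (N.inv_mem hn))
    exact M.mul_mem (M.mul_mem (M.mul_mem (M.mul_mem (M.mul_mem (M.mul_mem (hNM hn) (hNM m1))
      (hNM hk)) (hCM (Subgroup.commutator_mem_commutator hu hv))) (M.inv_mem (hNM hk)))
      (M.inv_mem (hNM hn))) (hNM m2)
  rw [eq_bot_iff]
  rintro a ⟨ha, haC⟩
  obtain ⟨x, hx, c, hc', rfl⟩ := hle haC
  have hxq : σ x ∈ qAt T.e := hN ▸ Subgroup.mem_map_of_mem _ hx
  have hx1 : σ x = 1 := by
    refine eq_one_of_mem_qAt hF T hxq ?_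
    obtain ⟨g, hg⟩ := (Subgroup.commutator_le_self G2) hc'
    have e : σ x = (emb hF T g)⁻¹ := eq_inv_of_mul_eq_one_left (by
      rw [hg, ← map_mul]; exact MonoidHom.mem_ker.1 ha)
    rw [e]
    conv_lhs => rw [← emb_f hF T g, sv_inv_sv]
  have hx0 : x = 1 := Subgroup.mem_bot.1 (hint.le ⟨hx1, hx⟩)
  subst hx0
  rw [one_mul] at ha ⊢
  exact ih.le ⟨ha, hc'⟩

include hF in
/-- Radical lifts kill the `p`-part of the multiplier. -/
theorem ker_inf_commutator_of_hasRad : ∀ (n : ℕ) (Γ : Type u) [Group Γ] [Finite Γ]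
    (σ : Γ →* ↥(Cfsg.SU n F q)), Function.Surjective σ → σ.ker ≤ Subgroup.center Γ →
    IsPGroup p σ.ker → HasRad σ → σ.ker ⊓ commutator Γ = ⊥ := by
  intro n
  induction n using Nat.strong_induction_on with
  | _ n ih =>
    intro Γ _ _ σ hs hc hA hrad
    rcases n with _ | _ | m
    · have : Subsingleton ↥(Cfsg.SU 0 F q) := ⟨fun a b => sv_ext fun x => funext fun i => Fin.elim0 i⟩
      rw [_root_.commutator_def, Schur.commutator_eq_bot_of_commute, inf_bot_eq]
      intro x _ y _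
      exact (Subgroup.mem_center_iff.1 (hc (show x ∈ σ.ker from Subsingleton.elim _ _)) y).symm
    · have : Subsingleton ↥(Cfsg.SU 1 F q) := ⟨fun a b => by
        refine Subtype.ext (Subtype.ext (Matrix.ext fun i j => ?_))
        have ha := a.1.2
        have hb := b.1.2
        rw [Matrix.det_fin_one] at ha hb
        rw [Fin.fin_one_eq_zero i, Fin.fin_one_eq_zero j, ha, hb]⟩
      rw [_root_.commutator_def, Schur.commutator_eq_bot_of_commute, inf_bot_eq]
      intro x _ y _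
      exact (Subgroup.mem_center_iff.1 (hc (show x ∈ σ.ker from Subsingleton.elim _ _)) y).symm
    · obtain ⟨T⟩ := exists_frame (m := m) hF
      refine ker_inf_commutator_step hF p T σ hs hc hA hrad ?_
      have hs' : Function.Surjective (smallHom hF T σ) := fun g => by
        obtain ⟨x, hx⟩ := hs (emb hF T g)
        exact ⟨⟨x, g, hx.symm⟩, emb_injective hF T (by rw [emb_smallHom]; exact hx)⟩
      have hc' : (smallHom hF T σ).ker ≤ Subgroup.center ↥((emb hF T).range.comap σ) := fun x hx =>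
        Subgroup.mem_center_iff.2 fun y =>
          Subtype.ext (Subgroup.mem_center_iff.1 (hc ((mem_smallHom_ker hF T σ).1 hx)) y)
      have hA' : IsPGroup p (smallHom hF T σ).ker := by
        rintro ⟨x, hx⟩
        obtain ⟨k, hk⟩ := hA ⟨x, (mem_smallHom_ker hF T σ).1 hx⟩
        exact ⟨k, Subtype.ext (Subtype.ext (congrArg (fun t : σ.ker => (t : Γ)) hk))⟩
      have h := ih m (by omega) _ (smallHom hF T σ) hs' hc' hA' (hasRad_smallHom hF T hs hrad)
      rw [eq_bot_iff]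
      rintro z ⟨hz, hd⟩
      rw [← Subgroup.map_subtype_commutator] at hd
      obtain ⟨y, hy, rfl⟩ := hd
      have h1 := Subgroup.mem_bot.1 (h.le ⟨(mem_smallHom_ker hF T σ).2 hz, hy⟩)
      rw [h1, map_one]
      exact Subgroup.one_mem _

include hF in
/-- A radical lift at one vector gives all, `n ≥ 3`. -/
theorem hasRad_of_one (hm : 1 ≤ m) (T : Frame F m q) {σ : Γ →* SUn} (hs : Function.Surjective σ)
    (hc : σ.ker ≤ Subgroup.center Γ) {N : Subgroup Γ} (hN : N.map σ = T.qsub hF) (hint : σ.ker ⊓ N = ⊥)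
    (hnorm : ∀ g : Γ, sv (σ g) T.e = T.e → ∀ x ∈ N, g * x * g⁻¹ ∈ N) : HasRad σ := by
  intro v hv0 hv
  obtain ⟨k, hk⟩ := exists_SU_map_isotropic hF (by omega) (T.e_ne_zero hF) hv0 T.he hv
  obtain ⟨γ, rfl⟩ := hs k
  refine ⟨N.map (MulAut.conj γ).toMonoidHom, le_antisymm ?_ fun g hg => ?_, ?_, fun g hg x hx => ?_⟩
  · rintro _ ⟨_, ⟨x, hx, rfl⟩, rfl⟩
    show σ (γ * x * γ⁻¹) ∈ qAt v
    rw [map_mul, map_mul, map_inv, ← hk]
    exact conj_mem_qAt _ (by rw [← qsub_eq_qAt hF T, ← hN]; exact Subgroup.mem_map_of_mem _ hx)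
  · have h := conj_mem_qAt (σ γ)⁻¹ hg
    rw [← hk, sv_inv_sv, ← qsub_eq_qAt hF T, ← hN] at h
    obtain ⟨x, hx, e⟩ := h
    refine ⟨γ * x * γ⁻¹, ⟨x, hx, rfl⟩, ?_⟩
    rw [map_mul, map_mul, map_inv, e]
    group
  · rw [eq_bot_iff]
    rintro _ ⟨ha, x, hx, rfl⟩
    change γ * x * γ⁻¹ ∈ σ.ker at ha
    have hxk : x ∈ σ.ker := by
      have h := (MonoidHom.normal_ker σ).conj_mem _ ha γ⁻¹
      rwa [show γ⁻¹ * (γ * x * γ⁻¹) * γ⁻¹⁻¹ = x by group] at h
    rw [Subgroup.mem_bot.1 (hint.le ⟨hxk, hx⟩), map_one]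
    exact Subgroup.one_mem _
  · obtain ⟨x, hx, rfl⟩ := hx
    refine ⟨(γ⁻¹ * g * γ) * x * (γ⁻¹ * g * γ)⁻¹, hnorm _ ?_ x hx, ?_⟩
    · rw [map_mul, map_mul, map_inv, sv_mul, sv_mul, hk, hg, ← hk, sv_inv_sv]
    · show γ * _ * γ⁻¹ = g * (γ * x * γ⁻¹) * g⁻¹
      group

end CfsgLib.SchurClassical.Un
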