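import Mathlib
import Cfsg.Agent.Classical.Unitary.Parabolic
import Cfsg.Agent.SchurClassical.UnitRadical

/-!
Commutators of the lifts of the Heisenberg group of `SU_n(q)`: they do not meet the kernel.
-/

set_option autoImplicit false

namespace CfsgLib.SchurClassical.Un

open Matrix CfsgLib.Unitary CfsgLib.AutPSU CfsgLib.AutPSU.Frame
open scoped commutatorElement

universe u

variable {F : Type u} [Field F] [Fintype F] {m q : ℕ} (hF : Fintype.card F = q ^ 2)
  (T : Frame F m q)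

local notation "Vm" => Fin m → F
local notation "hm[" u "," v "]" => Cfsg.hermForm m F q u v
set_option quotPrecheck false in
local notation "SUn" => ↥(Cfsg.SU (m + 2) F q)

/-- A central element of the Heisenberg group. -/
noncomputable abbrev ctr (r : F) (hr : r + r ^ q = 0) : SUn :=
  T.heis hF 0 r (hcond_zero_iff.2 hr)

include hF in
theorem trace_comm (w w' : Vm) :
    hm[w, w'] - hm[w', w] + (hm[w, w'] - hm[w', w]) ^ q = 0 := by
  rw [sub_pow_q hF, ← herm_conj hF w' w, ← herm_conj hF w w']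
  ring

theorem ctr_eq_one {r : F} (hr : r + r ^ q = 0) (h : r = 0) : ctr hF T r hr = 1 := by
  refine T.sv_ext_frame hF ?_ ?_ fun y => ?_ <;> rw [sv_one, T.sv_heis hF]
  · rw [T.heisLin_e hF]
  · rw [T.heisLin_f hF, eta_zero, h]; simp
  · rw [T.heisLin_eta hF, herm_zero_right hF]; simp

theorem heis_comm {w w' : Vm} {c c' : F} (hc : HCond q w c) (hc' : HCond q w' c') :
    ⁅T.heis hF w c hc, T.heis hF w' c' hc'⁆ =
      ctr hF T (hm[w, w'] - hm[w', w]) (trace_comm hF w w') := by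
  rw [commutatorElement_def, mul_inv_eq_iff_eq_mul, mul_inv_eq_iff_eq_mul, mul_assoc, T.heis_mul hF,
    T.heis_mul hF, T.heis_mul hF]
  refine T.heis_congr hF _ _ (by abel) ?_
  rw [herm_zero_right hF]
  ring

theorem heis_comm_ctr {w : Vm} {c : F} (hc : HCond q w c) {r : F} (hr : r + r ^ q = 0) :
    ctr hF T r hr * T.heis hF w c hc = T.heis hF w c hc * ctr hF T r hr := by
  rw [T.heis_mul hF, T.heis_mul hF]
  refine T.heis_congr hF _ _ (by abel) ?_
  rw [herm_zero_right hF, herm_zero_left]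
  ring

theorem heis_split {w : Vm} {c c' : F} (hc : HCond q w c) (hc' : HCond q w c') :
    ∃ hr : c - c' + (c - c') ^ q = 0,
      T.heis hF w c hc = T.heis hF w c' hc' * ctr hF T (c - c') hr := by
  have hr : c - c' + (c - c') ^ q = 0 := by
    unfold HCond at hc hc'
    rw [sub_pow_q hF]
    linear_combination hc - hc'
  refine ⟨hr, ?_⟩
  rw [T.heis_mul hF]
  exact T.heis_congr hF _ _ (add_zero w).symm (by rw [herm_zero_left]; ring)

include hF in
theorem exists_pow_sub_eq {r : F} (hr : r + r ^ q = 0) : ∃ t : F, t ^ q - t = r := by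
  obtain ⟨w, hw, hwq, -⟩ := exists_not_fixed hF
  have hd : w ^ q - w ≠ 0 := sub_ne_zero.2 hwq
  have hr' : r ^ q = -r := (neg_eq_of_add_eq_zero_right hr).symm
  have hk : (r / (w ^ q - w)) ^ q = r / (w ^ q - w) := by
    rw [div_pow, sub_pow_q hF, pow_q_q hF, hr', ← neg_sub (w ^ q) w, neg_div_neg_eq]
  exact ⟨r / (w ^ q - w) * w, by rw [mul_pow, hk, ← mul_sub, div_mul_cancel₀ r hd]⟩

include hF in
theorem exists_ctr_eq_comm (hm : 1 ≤ m) {r : F} (hr : r + r ^ q = 0) :
    ∃ w w' : Vm, hm[w, w'] - hm[w', w] = r := by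
  obtain ⟨t, ht⟩ := exists_pow_sub_eq hF hr
  refine ⟨Pi.single ⟨0, hm⟩ 1, t • Pi.single ⟨0, hm⟩ 1, ?_⟩
  rw [herm_smul_left, herm_smul_right, herm_single_single hF, if_pos rfl, mul_one, mul_one, ht]

theorem heis_conj_tor {l : F} {R : Matrix (Fin m) (Fin m) F} (h : Adm q l R) {r : F}
    (hr : r + r ^ q = 0) (hl : l ^ (q + 1) = 1) :
    T.tor hF h * ctr hF T r hr * (T.tor hF h)⁻¹ = ctr hF T r hr := by
  rw [T.conj_tor_heis hF h]
  exact T.heis_congr hF _ _ (by rw [act, Matrix.mulVec_zero, smul_zero]) (by rw [hl, one_mul])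

variable {Γ : Type u} [Group Γ] (σ : Γ →* ↥(Cfsg.SU (m + 2) F q)) (hs : Function.Surjective σ)
  (hc : σ.ker ≤ Subgroup.center Γ)

/-- A chosen parameter over `w`. -/
noncomputable def cw (w : Vm) : F := (exists_hcond hF w).choose

theorem hcond_cw (w : Vm) : HCond q w (cw hF w) := (exists_hcond hF w).choose_spec

/-- A chosen lift over `w`. -/
noncomputable def qlift (w : Vm) : Γ := (hs (T.heis hF w _ (hcond_cw hF w))).choose

theorem sigma_qlift (w : Vm) : σ (qlift hF T σ hs w) = T.heis hF w _ (hcond_cw hF w) :=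
  (hs (T.heis hF w _ (hcond_cw hF w))).choose_spec

include hs hc in
/-- The lifts of the centre commute with the lifts of the Heisenberg group. -/
theorem ctr_commute (hm : 1 ≤ m) (h1 : m = 1 → q ≠ 2) {x y : Γ} {r : F} (hr : r + r ^ q = 0)
    (hx : σ x = ctr hF T r hr) (hy : σ y ∈ T.qsub hF) : x * y = y * x := by
  set Qh := (T.qsub hF).comap σ with hQh
  have hk : ∀ y ∈ Qh, ⁅x, y⁆ ∈ σ.ker := by
    intro y hy
    obtain ⟨w, c, hwc, e⟩ := hy
    rw [MonoidHom.mem_ker, map_commutatorElement, commutatorElement_eq_one_iff_mul_comm, hx, e]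
    exact heis_comm_ctr hF T hwc hr
  have hmul : ∀ a ∈ Qh, ∀ b ∈ Qh, ⁅x, a * b⁆ = ⁅x, a⁆ * ⁅x, b⁆ := by
    intro a _ b hb
    rw [show ⁅x, a * b⁆ = ⁅x, a⁆ * (a * ⁅x, b⁆ * a⁻¹) by simp only [commutatorElement_def]; group,
      Subgroup.mem_center_iff.1 (hc (hk b hb)) a, mul_inv_cancel_right]
  have hctr : ∀ (z : Γ) (s : F) (hs' : s + s ^ q = 0), σ z = ctr hF T s hs' → ⁅x, z⁆ = 1 := by
    intro z s hs' hz
    obtain ⟨w, w', e⟩ := exists_ctr_eq_comm hF hm hs'
    have hz' : σ z = σ ⁅qlift hF T σ hs w, qlift hF T σ hs w'⁆ := by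
      rw [map_commutatorElement, sigma_qlift, sigma_qlift, heis_comm hF T, hz]
      exact T.heis_congr hF _ _ rfl e.symm
    rw [Schur.commutator_congr hc (rfl : σ x = σ x) hz']
    let ψ : Qh →* Subgroup.center Γ := MonoidHom.mk' (fun y => ⟨⁅x, (y : Γ)⁆, hc (hk _ y.2)⟩)
      fun a b => Subtype.ext (hmul _ a.2 _ b.2)
    have ha : qlift hF T σ hs w ∈ Qh := by
      rw [hQh, Subgroup.mem_comap, sigma_qlift]; exact T.heis_mem_qsub hF _
    have hb : qlift hF T σ hs w' ∈ Qh := by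
      rw [hQh, Subgroup.mem_comap, sigma_qlift]; exact T.heis_mem_qsub hF _
    have h : ψ ⁅(⟨_, ha⟩ : Qh), ⟨_, hb⟩⁆ = 1 := by
      open scoped IsMulCommutative in
      rw [map_commutatorElement, commutatorElement_eq_one_iff_mul_comm]
      exact mul_comm _ _
    exact congrArg Subtype.val h
  -- the induced character of the parameters
  set χ : Vm → Γ := fun w => ⁅x, qlift hF T σ hs w⁆ with hχdef
  have hχ : ∀ (y : Γ) (w : Vm) (c : F) (hwc : HCond q w c), σ y = T.heis hF w c hwc → ⁅x, y⁆ = χ w := by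
    intro y w c hwc hy
    obtain ⟨hr', e⟩ := heis_split hF T hwc (hcond_cw hF w)
    obtain ⟨z, hz⟩ := hs (ctr hF T _ hr')
    have hl : qlift hF T σ hs w ∈ Qh := by
      rw [hQh, Subgroup.mem_comap, sigma_qlift]; exact T.heis_mem_qsub hF _
    rw [Schur.commutator_congr hc (rfl : σ x = σ x)
      (show σ y = σ (qlift hF T σ hs w * z) by rw [map_mul, sigma_qlift, hz, hy, e]),
      hmul _ hl _ (by rw [hQh, Subgroup.mem_comap, hz]; exact T.heis_mem_qsub hF _),
      hctr z _ hr' hz, mul_one]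
  have hχmem : ∀ w, χ w ∈ Subgroup.center Γ := fun w => hc (hk _ (by
    rw [hQh, Subgroup.mem_comap, sigma_qlift]; exact T.heis_mem_qsub hF _))
  have hadd : ∀ w w', χ (w + w') = χ w * χ w' := by
    intro w w'
    have hl : ∀ w, qlift hF T σ hs w ∈ Qh := fun w => by
      rw [hQh, Subgroup.mem_comap, sigma_qlift]; exact T.heis_mem_qsub hF _
    rw [← hχ _ _ _ (hcond_mul hF (hcond_cw hF w) (hcond_cw hF w'))
      (show σ (qlift hF T σ hs w * qlift hF T σ hs w') = _ by
        rw [map_mul, sigma_qlift, sigma_qlift, T.heis_mul hF])]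
    exact hmul _ (hl w) _ (hl w')
  have hzero : χ 0 = 1 := by
    have h := hadd 0 0
    rw [add_zero] at h
    exact mul_eq_left.1 h.symm
  have hinv : ∀ (l : F) (R : Matrix (Fin m) (Fin m) F) (h : Adm q l R), l ^ (q + 1) = 1 →
      ∀ w, χ (act q l R w) = χ w := by
    intro l R h hl w
    obtain ⟨g, hg⟩ := hs (T.tor hF h)
    have e1 : σ (g * x * g⁻¹) = σ x := by
      rw [map_mul, map_mul, map_inv, hg, hx, heis_conj_tor hF T h hr hl]
    have e2 : g * χ w * g⁻¹ = χ w := by
      rw [Subgroup.mem_center_iff.1 (hχmem w) g, mul_inv_cancel_right]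
    rw [← e2, hχdef]
    simp only
    rw [show g * ⁅x, qlift hF T σ hs w⁆ * g⁻¹ = ⁅g * x * g⁻¹, g * qlift hF T σ hs w * g⁻¹⁆ by
      simp only [commutatorElement_def]; group, Schur.commutator_congr hc e1 rfl]
    exact (hχ _ (act q l R w) _ (hcond_twist hF (hcond_cw hF w) l h.2.1) (by
      rw [map_mul, map_mul, map_inv, hg, sigma_qlift, T.conj_tor_heis hF h])).symm
  have hsingle : ∀ (i : Fin m) (c : F), χ (Pi.single i c) = 1 := by
    intro i c
    obtain ⟨l, R, k, hA, hl, hk1, hact⟩ := exists_adm_moving hF h1 i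
    obtain ⟨d, rfl⟩ : ∃ d, (k - 1) * d = c := ⟨(k - 1)⁻¹ * c, mul_inv_cancel_left₀ (sub_ne_zero.2 hk1) c⟩
    have h := hinv l R hA hl (Pi.single i d)
    rw [hact, show k * d = (k - 1) * d + d by ring, Pi.single_add, hadd] at h
    exact mul_eq_right.1 h
  have hall : ∀ w, χ w = 1 := fun w => by
    rw [← Finset.univ_sum_single w]
    exact Finset.sum_induction _ (fun v => χ v = 1) (fun a b ha hb => by rw [hadd, ha, hb, one_mul])
      hzero fun i _ => hsingle i _
  obtain ⟨w, c, hwc, e⟩ := hy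
  rw [← commutatorElement_eq_one_iff_mul_comm, hχ y w c hwc e]
  exact hall w

/-- The commutator pairing. -/
noncomputable def pair (w w' : Vm) : Γ := ⁅qlift hF T σ hs w, qlift hF T σ hs w'⁆

theorem sigma_pair (w w' : Vm) :
    σ (pair hF T σ hs w w') = ctr hF T (hm[w, w'] - hm[w', w]) (trace_comm hF w w') := by
  rw [pair, map_commutatorElement, sigma_qlift, sigma_qlift, heis_comm hF T]

theorem pair_swap (w w' : Vm) : pair hF T σ hs w' w = (pair hF T σ hs w w')⁻¹ :=
  (commutatorElement_inv _ _).symm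

theorem pair_self (w : Vm) : pair hF T σ hs w w = 1 := commutatorElement_self _

variable (hm : 1 ≤ m) (h1 : m = 1 → q ≠ 2)

include hc hm h1 in
theorem pair_commute (w w' : Vm) {y : Γ} (hy : σ y ∈ T.qsub hF) :
    pair hF T σ hs w w' * y = y * pair hF T σ hs w w' :=
  ctr_commute hF T σ hs hc hm h1 (trace_comm hF w w') (sigma_pair hF T σ hs w w') hy

include hc hm h1 in
theorem pair_congr {x y : Γ} {w w' : Vm} {c c' : F} (hwc : HCond q w c) (hwc' : HCond q w' c')
    (hx : σ x = T.heis hF w c hwc) (hy : σ y = T.heis hF w' c' hwc') :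
    ⁅x, y⁆ = pair hF T σ hs w w' := by
  obtain ⟨ha, ea⟩ := heis_split hF T hwc (hcond_cw hF w)
  obtain ⟨hb, eb⟩ := heis_split hF T hwc' (hcond_cw hF w')
  obtain ⟨za, hza⟩ := hs (ctr hF T _ ha)
  obtain ⟨zb, hzb⟩ := hs (ctr hF T _ hb)
  have hl : ∀ w, σ (qlift hF T σ hs w) ∈ T.qsub hF := fun w => by
    rw [sigma_qlift]; exact T.heis_mem_qsub hF _
  rw [← Schur.commutator_congr hc
    (show σ (qlift hF T σ hs w * za) = σ x by rw [map_mul, sigma_qlift, hza, hx, ea])
    (show σ (qlift hF T σ hs w' * zb) = σ y by rw [map_mul, sigma_qlift, hzb, hy, eb])]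
  have hau := ctr_commute hF T σ hs hc hm h1 ha hza (hl w')
  have hbu := ctr_commute hF T σ hs hc hm h1 hb hzb (hl w)
  have hab := ctr_commute hF T σ hs hc hm h1 ha hza (y := zb) (by rw [hzb]; exact T.heis_mem_qsub hF _)
  have e1 : ⁅za, qlift hF T σ hs w' * zb⁆ = 1 := by
    rw [commutatorElement_eq_one_iff_mul_comm, ← mul_assoc, hau, mul_assoc, hab, mul_assoc]
  have e2 : ⁅qlift hF T σ hs w, zb⁆ = 1 := commutatorElement_eq_one_iff_mul_comm.2 hbu.symm
  rw [Schur.commutator_mul_left' (by rw [e1, mul_one, one_mul]), e1, one_mul,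
    Schur.commutator_mul_right' (by rw [e2, mul_one, one_mul]), e2, mul_one]
  rfl

include hc hm h1 in
theorem pair_add_left (u u' v : Vm) :
    pair hF T σ hs (u + u') v = pair hF T σ hs u' v * pair hF T σ hs u v := by
  rw [← pair_congr hF T σ hs hc hm h1 (x := qlift hF T σ hs u * qlift hF T σ hs u')
    (hcond_mul hF (hcond_cw hF u) (hcond_cw hF u')) (hcond_cw hF v)
    (by rw [map_mul, sigma_qlift, sigma_qlift, T.heis_mul hF]) (sigma_qlift hF T σ hs v)]
  exact Schur.commutator_mul_left'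
    (pair_commute hF T σ hs hc hm h1 u' v (by rw [sigma_qlift]; exact T.heis_mem_qsub hF _)).symm

include hc hm h1 in
theorem pair_add_right (u v v' : Vm) :
    pair hF T σ hs u (v + v') = pair hF T σ hs u v * pair hF T σ hs u v' := by
  rw [← pair_congr hF T σ hs hc hm h1 (y := qlift hF T σ hs v * qlift hF T σ hs v')
    (hcond_cw hF u) (hcond_mul hF (hcond_cw hF v) (hcond_cw hF v'))
    (sigma_qlift hF T σ hs u) (by rw [map_mul, sigma_qlift, sigma_qlift, T.heis_mul hF])]
  exact Schur.commutator_mul_right'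
    (pair_commute hF T σ hs hc hm h1 u v' (by rw [sigma_qlift]; exact T.heis_mem_qsub hF _)).symm

include hc hm h1 in
theorem pair_zero_right (u : Vm) : pair hF T σ hs u 0 = 1 := by
  have := pair_add_right hF T σ hs hc hm h1 u 0 0
  rw [add_zero] at this
  exact mul_eq_left.1 this.symm

include hc hm h1 in
theorem pair_zero_left (v : Vm) : pair hF T σ hs 0 v = 1 := by
  have := pair_add_left hF T σ hs hc hm h1 0 0 v
  rw [add_zero] at this
  exact mul_eq_left.1 this.symm

include hc hm h1 in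
theorem pair_conj {g : Γ} {l : F} {R : Matrix (Fin m) (Fin m) F} (h : Adm q l R)
    (hg : σ g = T.tor hF h) (w w' : Vm) :
    g * pair hF T σ hs w w' * g⁻¹ = pair hF T σ hs (act q l R w) (act q l R w') := by
  have hl : ∀ w, σ (g * qlift hF T σ hs w * g⁻¹) =
      T.heis hF (act q l R w) _ (hcond_twist hF (hcond_cw hF w) l h.2.1) := fun w => by
    rw [map_mul, map_mul, map_inv, hg, sigma_qlift, T.conj_tor_heis hF h]
  rw [← pair_congr hF T σ hs hc hm h1 _ _ (hl w) (hl w')]
  simp only [pair, commutatorElement_def]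
  group

include hc hm h1 in
theorem commutator_comap_le {H : Subgroup Γ} (h : ∀ u v : Vm, pair hF T σ hs u v ∈ H) :
    ⁅(T.qsub hF).comap σ, (T.qsub hF).comap σ⁆ ≤ H := by
  rw [Subgroup.commutator_le]
  intro x hx y hy
  obtain ⟨u, a, ha, hu⟩ := hx
  obtain ⟨v, b, hb, hv⟩ := hy
  rw [pair_congr hF T σ hs hc hm h1 ha hb hu hv]
  exact h u v

include hF in
theorem exists_perp_not_perp {a v : Vm} (hv : v ∉ Submodule.span F {a}) :
    ∃ x : Vm, hm[x, a] = 0 ∧ hm[x, v] ≠ 0 := by
  by_contra hcon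
  push Not at hcon
  refine hv ?_
  rw [← perp_perp hF (Submodule.span F {a})]
  exact fun x hx => herm_eq_zero_comm hF (hcon x (hx a (Submodule.mem_span_singleton_self a)))

include hc hm h1 in
/-- Orthogonal vectors pair trivially, the second being isotropic. -/
theorem pair_eq_one_of_isotropic (h3 : 3 ≤ m) {a v : Vm} (hv : hm[v, v] = 0) (hav : hm[a, v] = 0) :
    pair hF T σ hs a v = 1 := by
  by_cases hv0 : v = 0
  · rw [hv0]; exact pair_zero_right hF T σ hs hc hm h1 a
  have key : ∀ a, hm[a, v] = 0 → a ∉ Submodule.span F {v} → pair hF T σ hs a v = 1 := by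
    intro a hav hna
    by_cases ha : a = 0
    · rw [ha]; exact pair_zero_left hF T σ hs hc hm h1 v
    have hnv : v ∉ Submodule.span F {a} := fun h => by
      obtain ⟨t, ht⟩ := Submodule.mem_span_singleton.1 h
      have ht0 : t ≠ 0 := fun e => hv0 (by rw [← ht, e, zero_smul])
      exact hna (Submodule.mem_span_singleton.2 ⟨t⁻¹, by rw [← ht, inv_smul_smul₀ ht0]⟩)
    obtain ⟨x, hxa, hxv⟩ := exists_perp_not_perp hF hnv
    obtain ⟨δ, hδ0, hδ⟩ := exists_trace_zero_ne_zero hF
    -- `x` is moved by a transvection fixing `a`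
    obtain ⟨s, hsd⟩ : ∃ s, s * (δ * hm[x, v]) = 1 :=
      ⟨_, inv_mul_cancel₀ (mul_ne_zero hδ0 hxv)⟩
    obtain ⟨x', hx'⟩ : ∃ x', s • x = x' := ⟨_, rfl⟩
    have hax : hm[a, x'] = 0 := by
      rw [← hx', herm_smul_right, herm_eq_zero_comm hF hxa, mul_zero]
    have hx'v : δ * hm[x', v] = 1 := by
      rw [← hx', herm_smul_left, ← hsd]; ring
    let t := transvSU hF v δ hv hδ
    obtain ⟨g, hg⟩ := hs (T.tor hF (adm_smat hF t))
    have h := pair_conj hF T σ hs hc hm h1 (adm_smat hF t) hg a x'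
    have hact : ∀ w, act q (1 : F) ((t : Matrix.SpecialLinearGroup (Fin m) F) : Matrix (Fin m) (Fin m) F) w =
        sv t w := fun w => by rw [act, one_pow, one_smul]; rfl
    rw [hact, hact, sv_transvSU, sv_transvSU, hav, mul_zero, zero_smul, add_zero, hx'v, one_smul,
      pair_add_right hF T σ hs hc hm h1] at h
    have hk : pair hF T σ hs a x' ∈ σ.ker := by
      rw [MonoidHom.mem_ker, sigma_pair]
      exact ctr_eq_one hF T _ (by rw [hax, herm_eq_zero_comm hF hax, sub_zero])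
    rw [Subgroup.mem_center_iff.1 (hc hk) g, mul_inv_cancel_right] at h
    exact mul_eq_left.1 h.symm
  by_cases hna : a ∈ Submodule.span F {v}
  swap
  · exact key a hav hna
  obtain ⟨r, hr, hnr⟩ : ∃ r : Vm, hm[r, v] = 0 ∧ r ∉ Submodule.span F {v} := by
    by_contra hcon
    push Not at hcon
    have h2 := Submodule.finrank_mono (fun r hr => hcon r (hr v (Submodule.mem_span_singleton_self v)) :
      perp q (Submodule.span F {v}) ≤ Submodule.span F {v})
    have h3' := finrank_perp_add hF (Submodule.span F {v})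
    have h4 := finrank_span_singleton (K := F) hv0
    omega
  rw [show a = r + (a - r) by abel, pair_add_left hF T σ hs hc hm h1, key r hr hnr,
    key (a - r) (by rw [herm_sub_left, hav, hr, sub_zero]) fun h => hnr (by
      simpa using Submodule.sub_mem _ hna h), one_mul]

include hc hm h1 in
theorem pair_eq_one_of_perp (h3 : 3 ≤ m) {a b : Vm} (hab : hm[a, b] = 0) :
    pair hF T σ hs a b = 1 := by
  by_cases hb : hm[b, b] = 0
  · exact pair_eq_one_of_isotropic hF T σ hs hc hm h1 h3 hb hab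
  by_cases ha : hm[a, a] = 0
  · rw [pair_swap, pair_eq_one_of_isotropic hF T σ hs hc hm h1 h3 ha (herm_eq_zero_comm hF hab), inv_one]
  have hnorm : ∀ a : Vm, hm[a, a] ≠ 0 → ∃ (s : F) (u : Vm), a = s • u ∧ hm[u, u] = 1 ∧ s ≠ 0 := by
    intro a ha
    obtain ⟨s, hs'⟩ := exists_norm_eq hF (herm_self_fixed hF a)
    have hs0 : s ≠ 0 := fun e => ha (by rw [← hs', e, zero_pow (Nat.succ_ne_zero q)])
    refine ⟨s, s⁻¹ • a, by rw [smul_inv_smul₀ hs0], ?_, hs0⟩
    rw [herm_self_smul, inv_pow, hs', inv_mul_cancel₀ ha]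
  obtain ⟨s, u1, rfl, hu1, hs0⟩ := hnorm a ha
  obtain ⟨s', u2, rfl, hu2, hs0'⟩ := hnorm b hb
  have h12 : hm[u1, u2] = 0 := by
    rw [herm_smul_left, herm_smul_right] at hab
    simpa [hs0, hs0', pow_ne_zero q hs0'] using hab
  have h21 := herm_eq_zero_comm hF h12
  have hf : Orthonorm q ![u1, u2] := by
    intro i j
    fin_cases i <;> fin_cases j <;> simp [hu1, hu2, h12, h21]
  obtain ⟨u3, -, hu3, hu3f⟩ := exists_orthonorm_next hF (isNondeg_top hF) hf (fun _ => trivial)
    (by simp; omega)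
  have h31 : hm[u3, u1] = 0 := hu3f 0
  have h32 : hm[u3, u2] = 0 := hu3f 1
  obtain ⟨t, ht⟩ := exists_norm_eq hF (a := (-1 : F)) (by rw [neg_pow_q hF, one_pow])
  obtain ⟨z, hz, -, hz1⟩ := exists_not_fixed hF
  have hiso : ∀ c : F, c ^ (q + 1) = 1 → hm[u2 + (c * t) • u3, u2 + (c * t) • u3] = 0 := fun c hc' => by
    rw [herm_add_left, herm_add_right hF, herm_add_right hF, herm_smul_left, herm_smul_left,
      herm_smul_right, herm_smul_right, hu2, h32, herm_eq_zero_comm hF h32, hu3]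
    have : (c * t) ^ (q + 1) = -1 := by rw [mul_pow, hc', ht, one_mul]
    rw [pow_succ] at this
    linear_combination this
  have hperp : ∀ c : F, hm[u1, u2 + c • u3] = 0 := fun c => by
    rw [herm_add_right hF, herm_smul_right, h12, herm_eq_zero_comm hF h31, mul_zero, add_zero]
  -- `u2` is a combination of two isotropic vectors orthogonal to `u1`
  have hone : ∀ c k : F, c ^ (q + 1) = 1 → pair hF T σ hs (s • u1) (k • (u2 + (c * t) • u3)) = 1 :=
    fun c k hc' => pair_eq_one_of_isotropic hF T σ hs hc hm h1 h3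
      (by rw [herm_self_smul, hiso c hc', mul_zero])
      (by rw [herm_smul_left, herm_smul_right, hperp, mul_zero, mul_zero])
  have hdec : s' • u2 = (-(s' / (z - 1))) • (u2 + (z * t) • u3) +
      (s' + s' / (z - 1)) • (u2 + (1 * t) • u3) := by
    have : z - 1 ≠ 0 := sub_ne_zero.2 hz1
    match_scalars <;> field_simp <;> ring
  rw [hdec, pair_add_right hF T σ hs hc hm h1, hone z _ hz, hone 1 _ (one_pow _), one_mul]

include hc hm h1 in
/-- The pairing only depends on the form. -/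
theorem pair_eq_of_form (h3 : 3 ≤ m) {x y x' y' : Vm} (he : hm[x, y] = hm[x', y']) :
    pair hF T σ hs x y = pair hF T σ hs x' y' := by
  by_cases h0 : hm[x, y] = 0
  · rw [pair_eq_one_of_perp hF T σ hs hc hm h1 h3 h0,
      pair_eq_one_of_perp hF T σ hs hc hm h1 h3 (he.symm.trans h0)]
  have indep : ∀ {x y x' y' : Vm}, hm[x, y] = hm[x', y'] → x ∉ Submodule.span F {x'} →
      x' ∉ Submodule.span F {x} → pair hF T σ hs x y = pair hF T σ hs x' y' := by
    intro x y x' y' he hn hn'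
    obtain ⟨ya, ha1, ha2⟩ := exists_perp_not_perp hF hn
    obtain ⟨yb, hb1, hb2⟩ := exists_perp_not_perp hF hn'
    have hget : ∀ (a z : Vm), hm[z, a] ≠ 0 → ∃ s : F, hm[a, s • z] = hm[x, y] := fun a z hne => by
      have hne' : hm[a, z] ≠ 0 := fun e => hne (herm_eq_zero_comm hF e)
      exact ⟨(hm[x, y] / hm[a, z]) ^ q, by rw [herm_smul_right, pow_q_q hF, div_mul_cancel₀ _ hne']⟩
    obtain ⟨sa, hsa⟩ := hget x ya ha2
    obtain ⟨sb, hsb⟩ := hget x' yb hb2
    let y1 := sa • ya + sb • yb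
    have e1 : hm[x, y1] = hm[x, y] := by
      rw [herm_add_right hF, hsa, herm_smul_right, herm_eq_zero_comm hF hb1, mul_zero, add_zero]
    have e2 : hm[x', y1] = hm[x', y'] := by
      rw [herm_add_right hF, hsb, herm_smul_right, herm_eq_zero_comm hF ha1, mul_zero, zero_add, he]
    have p1 : pair hF T σ hs x y = pair hF T σ hs x y1 := by
      rw [show y = y1 + (y - y1) by abel, pair_add_right hF T σ hs hc hm h1,
        pair_eq_one_of_perp hF T σ hs hc hm h1 h3 (a := x) (b := y - y1)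
          (by rw [herm_sub_right hF, e1, sub_self]), mul_one]
    have p2 : pair hF T σ hs x' y' = pair hF T σ hs x' y1 := by
      rw [show y' = y1 + (y' - y1) by abel, pair_add_right hF T σ hs hc hm h1,
        pair_eq_one_of_perp hF T σ hs hc hm h1 h3 (a := x') (b := y' - y1)
          (by rw [herm_sub_right hF, e2, sub_self]), mul_one]
    rw [p1, p2, show x = x' + (x - x') by abel, pair_add_left hF T σ hs hc hm h1,
      pair_eq_one_of_perp hF T σ hs hc hm h1 h3 (a := x - x') (b := y1)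
        (by rw [herm_sub_left, e1, e2, he, sub_self]), one_mul]
  have hx : x ≠ 0 := fun e => h0 (by rw [e, herm_zero_left])
  have hx' : x' ≠ 0 := fun e => h0 (by rw [he, e, herm_zero_left])
  by_cases hn : x ∈ Submodule.span F {x'}
  · obtain ⟨z, hz⟩ : ∃ z : Vm, z ∉ Submodule.span F {x'} := by
      by_contra hcon
      push Not at hcon
      have h2 := Submodule.finrank_mono (fun r _ => hcon r : (⊤ : Submodule F Vm) ≤ _)
      have h4 := finrank_span_singleton (K := F) hx'
      rw [finrank_top, Module.finrank_fin_fun] at h2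
      omega
    have hz0 : z ≠ 0 := fun e => hz (by rw [e]; exact Submodule.zero_mem _)
    obtain ⟨t, ht⟩ := Submodule.mem_span_singleton.1 hn
    have ht0 : t ≠ 0 := fun e => hx (by rw [← ht, e, zero_smul])
    obtain ⟨f, hf⟩ : ∃ f : Vm, hm[z, f] = hm[x, y] := by
      obtain ⟨g, hg⟩ : ∃ g, hm[z, g] ≠ 0 := by
        by_contra hcon
        push Not at hcon
        exact hz0 (herm_nondeg hF z hcon)
      exact ⟨(hm[x, y] / hm[z, g]) ^ q • g, by rw [herm_smul_right, pow_q_q hF, div_mul_cancel₀ _ hg]⟩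
    have hsym : ∀ {a : Vm}, a ≠ 0 → z ∉ Submodule.span F {a} → a ∉ Submodule.span F {z} := fun {a} ha h hm' => by
      obtain ⟨c, hc'⟩ := Submodule.mem_span_singleton.1 hm'
      have hc0 : c ≠ 0 := fun e => ha (by rw [← hc', e, zero_smul])
      exact h (Submodule.mem_span_singleton.2 ⟨c⁻¹, by rw [← hc', inv_smul_smul₀ hc0]⟩)
    have hzx : z ∉ Submodule.span F {x} := by
      intro h
      obtain ⟨c, rfl⟩ := Submodule.mem_span_singleton.1 h
      exact hz (Submodule.smul_mem _ _ hn)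
    rw [indep (y := y) (y' := f) hf.symm (hsym hx hzx) hzx,
      ← indep (y := y') (y' := f) (he.symm.trans hf.symm) (hsym hx' hz) hz]
  · refine indep he hn fun h => hn ?_
    obtain ⟨c, hc'⟩ := Submodule.mem_span_singleton.1 h
    have hc0 : c ≠ 0 := fun e => hx' (by rw [← hc', e, zero_smul])
    exact Submodule.mem_span_singleton.2 ⟨c⁻¹, by rw [← hc', inv_smul_smul₀ hc0]⟩

include hs hc hm h1 in
/-- `n ≥ 5`: the commutator of the lift of the Heisenberg group misses the kernel. -/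
theorem ker_inf_commutator_qsub (h3 : 3 ≤ m) :
    σ.ker ⊓ ⁅(T.qsub hF).comap σ, (T.qsub hF).comap σ⁆ = ⊥ := by
  obtain ⟨u, hu⟩ : ∃ u : Vm, hm[u, u] = 1 :=
    ⟨Pi.single ⟨0, hm⟩ 1, by rw [herm_single_single hF, if_pos rfl]⟩
  have hform : ∀ l : F, hm[u, l ^ q • u] = l := fun l => by
    rw [herm_smul_right, hu, pow_q_q hF, mul_one]
  let φ : Multiplicative F →* Γ := MonoidHom.mk' (fun l => pair hF T σ hs u (l.toAdd ^ q • u))
    fun a b => by rw [toAdd_mul, add_pow_q hF, add_smul, pair_add_right hF T σ hs hc hm h1]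
  rw [eq_bot_iff]
  rintro z ⟨hz, hzK⟩
  obtain ⟨l, rfl⟩ : z ∈ φ.range := commutator_comap_le hF T σ hs hc hm h1 (H := φ.range) (fun a b =>
    MonoidHom.mem_range.2 ⟨Multiplicative.ofAdd hm[a, b],
      pair_eq_of_form hF T σ hs hc hm h1 h3 (hform _)⟩) hzK
  obtain ⟨l, rfl⟩ := Multiplicative.ofAdd.surjective l
  have hfix : l ^ q = l := by
    have h : σ (pair hF T σ hs u (l ^ q • u)) = 1 := hz
    rw [sigma_pair] at h
    have h0 : ctr hF T 0 (by rw [zero_add, zero_pow_q hF]) = (1 : SUn) := ctr_eq_one hF T _ rfl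
    have h' := (T.heis_inj hF (h.trans h0.symm)).2
    rw [hform, herm_smul_left, hu, mul_one, sub_eq_zero] at h'
    exact h'.symm
  obtain ⟨s, hs'⟩ := exists_norm_eq hF hfix
  show pair hF T σ hs u (l ^ q • u) ∈ (⊥ : Subgroup Γ)
  rw [pair_eq_of_form hF T σ hs hc hm h1 h3 (x' := s • u) (y' := s • u)
    (by rw [hform, herm_self_smul, hs', hu, mul_one]), pair_self]
  exact Subgroup.one_mem _

/-- Products of conjugates. -/
noncomputable def avg (γ : Γ) : ℕ → Γ → Γ
  | 0, _ => 1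
  | d + 1, z => z * avg γ d (γ * z * γ⁻¹)

include hs hc hm h1 in
/-- Small ranks: two torus elements with scalar action kill the kernel part. -/
theorem ker_inf_commutator_qsub_of_scalar {p : ℕ} [Fact p.Prime] [CharP F p] (hA : IsPGroup p σ.ker)
    {l₀ ρ₀ : F} (h₀ : Adm q l₀ (ρ₀ • (1 : Matrix (Fin m) (Fin m) F))) (hN : l₀ ^ (q + 1) ≠ 1)
    {k : F} (hk : k ^ 2 + k + 1 ≠ 0)
    (hreal : ∀ s ∈ ({k, k + 1} : Set F), ∃ (l ρ : F) (_ : Adm q l (ρ • (1 : Matrix (Fin m) (Fin m) F))),
      l ^ q * ρ = s) :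
    σ.ker ⊓ ⁅(T.qsub hF).comap σ, (T.qsub hF).comap σ⁆ = ⊥ := by
  classical
  have hactS : ∀ (l ρ : F) (w : Vm), act q l (ρ • (1 : Matrix (Fin m) (Fin m) F)) w = (l ^ q * ρ) • w :=
    fun l ρ w => by rw [act, Matrix.smul_mulVec, Matrix.one_mulVec, smul_smul]
  obtain ⟨γ, hγ⟩ := hs (T.tor hF h₀)
  set μ := l₀ ^ q * ρ₀ with hμ
  set N := l₀ ^ (q + 1) with hNdef
  set Zh : Subgroup Γ := Subgroup.closure (Set.range (fun p : Vm × Vm => pair hF T σ hs p.1 p.2) ∪ σ.ker)
    with hZdef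
  have hγp : ∀ x y, γ * pair hF T σ hs x y * γ⁻¹ = pair hF T σ hs (μ • x) (μ • y) := fun x y => by
    rw [pair_conj hF T σ hs hc hm h1 h₀ hγ, hactS, hactS]
  have hcommgen : ∀ a ∈ Set.range (fun p : Vm × Vm => pair hF T σ hs p.1 p.2) ∪ σ.ker,
      ∀ b ∈ Set.range (fun p : Vm × Vm => pair hF T σ hs p.1 p.2) ∪ σ.ker, a * b = b * a := by
    rintro a (⟨⟨x, y⟩, rfl⟩ | ha) b hb
    · rcases hb with ⟨⟨x', y'⟩, rfl⟩ | hb
      · exact pair_commute hF T σ hs hc hm h1 x y (by rw [sigma_pair]; exact T.heis_mem_qsub hF _)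
      · exact Subgroup.mem_center_iff.1 (hc hb) _
    · exact (Subgroup.mem_center_iff.1 (hc ha) b).symm
  have hZc : ∀ a ∈ Zh, ∀ b ∈ Zh, a * b = b * a := by
    have h1' : Zh ≤ Subgroup.centralizer (Set.range (fun p : Vm × Vm => pair hF T σ hs p.1 p.2) ∪ σ.ker) :=
      (Subgroup.closure_le _).2 fun a ha b hb => hcommgen b hb a ha
    have h2' : Zh ≤ Subgroup.centralizer (Zh : Set Γ) :=
      (Subgroup.closure_le _).2 fun b hb a ha => (h1' ha b hb).symm
    exact fun a ha b hb => h2' hb a ha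
  have hZconj : ∀ a ∈ Zh, γ * a * γ⁻¹ ∈ Zh := by
    intro a ha
    refine (Subgroup.closure_le (Zh.comap (MulAut.conj γ).toMonoidHom)).2 ?_ ha
    rintro _ (⟨⟨x, y⟩, rfl⟩ | hb)
    · show γ * pair hF T σ hs x y * γ⁻¹ ∈ Zh
      rw [hγp]
      exact Subgroup.subset_closure (Or.inl ⟨(μ • x, μ • y), rfl⟩)
    · exact Subgroup.subset_closure (Or.inr ((MonoidHom.normal_ker σ).conj_mem _ hb γ))
  have havg_mem : ∀ d, ∀ z ∈ Zh, avg γ d z ∈ Zh := by
    intro d
    induction d with
    | zero => exact fun z _ => Zh.one_mem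
    | succ d ih => exact fun z hz => Zh.mul_mem hz (ih _ (hZconj z hz))
  have havg_mul : ∀ d, ∀ a ∈ Zh, ∀ b ∈ Zh, avg γ d (a * b) = avg γ d a * avg γ d b := by
    intro d
    induction d with
    | zero => exact fun a _ b _ => (one_mul 1).symm
    | succ d ih =>
      intro a ha b hb
      show a * b * avg γ d (γ * (a * b) * γ⁻¹) = a * avg γ d (γ * a * γ⁻¹) * (b * avg γ d (γ * b * γ⁻¹))
      rw [show γ * (a * b) * γ⁻¹ = γ * a * γ⁻¹ * (γ * b * γ⁻¹) by group,
        ih _ (hZconj a ha) _ (hZconj b hb)]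
      have h := hZc b hb _ (havg_mem d _ (hZconj a ha))
      calc a * b * (avg γ d (γ * a * γ⁻¹) * avg γ d (γ * b * γ⁻¹))
          = a * (b * avg γ d (γ * a * γ⁻¹)) * avg γ d (γ * b * γ⁻¹) := by group
        _ = _ := by rw [h]; group
  have havg_ker : ∀ d, ∀ a ∈ σ.ker, avg γ d a = a ^ d := by
    intro d
    induction d with
    | zero => exact fun a _ => (pow_zero a).symm
    | succ d ih =>
      intro a ha
      show a * avg γ d (γ * a * γ⁻¹) = a ^ (d + 1)
      rw [Subgroup.mem_center_iff.1 (hc ha) γ, mul_inv_cancel_right, ih a ha, pow_succ']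
  have hμN : μ ^ (q + 1) = N := by
    have hρ : ρ₀ ^ (q + 1) = 1 := by
      have := h₀.2.1 (Pi.single ⟨0, hm⟩ 1) (Pi.single ⟨0, hm⟩ 1)
      rwa [Matrix.smul_mulVec, Matrix.one_mulVec, herm_self_smul, herm_single_single hF, if_pos rfl,
        mul_one] at this
    rw [hμ, mul_pow, hρ, mul_one, ← pow_mul, mul_comm, pow_mul, hNdef, norm_pow_q hF]
  have hform : ∀ (s : F) (x y : Vm), hm[s • x, s • y] = s ^ (q + 1) * hm[x, y] := fun s x y => by
    rw [herm_smul_left, herm_smul_right, pow_succ]; ring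
  have havg_sigma : ∀ (d : ℕ) (x y : Vm), ∃ hr, σ (avg γ d (pair hF T σ hs x y)) =
      ctr hF T ((∑ i ∈ Finset.range d, N ^ i) * (hm[x, y] - hm[y, x])) hr := by
    intro d
    induction d with
    | zero =>
      intro x y
      refine ⟨by simp [zero_pow_q hF], ?_⟩
      show σ 1 = _
      rw [map_one]
      symm
      refine T.sv_ext_frame hF ?_ ?_ fun w => ?_ <;> rw [sv_one, T.sv_heis hF]
      · rw [T.heisLin_e hF]
      · rw [T.heisLin_f hF, eta_zero]; simp
      · rw [T.heisLin_eta hF, herm_zero_right hF]; simp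
    | succ d ih =>
      intro x y
      obtain ⟨hr, e⟩ := ih (μ • x) (μ • y)
      have hsum : (∑ i ∈ Finset.range (d + 1), N ^ i) * (hm[x, y] - hm[y, x]) =
          (hm[x, y] - hm[y, x]) + (∑ i ∈ Finset.range d, N ^ i) * (hm[μ • x, μ • y] - hm[μ • y, μ • x]) := by
        rw [geom_sum_succ, hform, hform, hμN]; ring
      refine ⟨by
        rw [hsum, add_pow_q hF]
        linear_combination trace_comm hF x y + hr, ?_⟩
      show σ (pair hF T σ hs x y * avg γ d (γ * pair hF T σ hs x y * γ⁻¹)) = _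
      rw [hγp, map_mul, sigma_pair, e, T.heis_mul hF]
      exact T.heis_congr hF _ _ (add_zero 0) (by rw [hsum, herm_zero_left, sub_zero])
  have hq := two_le_q hF
  set B : Vm → Vm → Γ := fun x y => avg γ (q - 1) (pair hF T σ hs x y) with hB
  have hNfix : N ^ (q - 1) = 1 := by
    have hN0 : N ≠ 0 := pow_ne_zero _ h₀.1
    refine mul_left_cancel₀ hN0 ?_
    rw [mul_one, ← pow_succ', show q - 1 + 1 = q by omega, hNdef, norm_pow_q hF]
  have hBk : ∀ x y, B x y ∈ σ.ker := fun x y => by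
    obtain ⟨hr, e⟩ := havg_sigma (q - 1) x y
    have hg : (∑ i ∈ Finset.range (q - 1), N ^ i) = 0 := by
      have := geom_sum_mul N (q - 1)
      rw [hNfix, sub_self] at this
      exact (mul_eq_zero.1 this).resolve_right (sub_ne_zero.2 hN)
    rw [MonoidHom.mem_ker, hB]
    simp only
    rw [e]
    refine T.sv_ext_frame hF ?_ ?_ fun w => ?_ <;> rw [sv_one, T.sv_heis hF]
    · rw [T.heisLin_e hF]
    · rw [T.heisLin_f hF, eta_zero, hg]; simp
    · rw [T.heisLin_eta hF, herm_zero_right hF]; simp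
  have hpZ : ∀ x y, pair hF T σ hs x y ∈ Zh := fun x y => Subgroup.subset_closure (Or.inl ⟨(x, y), rfl⟩)
  have hBl : ∀ x x' y, B (x + x') y = B x' y * B x y := fun x x' y => by
    show avg γ _ _ = avg γ _ _ * avg γ _ _
    rw [pair_add_left hF T σ hs hc hm h1, havg_mul _ _ (hpZ x' y) _ (hpZ x y)]
  have hBr : ∀ x y y', B x (y + y') = B x y * B x y' := fun x y y' => by
    show avg γ _ _ = avg γ _ _ * avg γ _ _
    rw [pair_add_right hF T σ hs hc hm h1, havg_mul _ _ (hpZ x y) _ (hpZ x y')]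
  have hBinv : ∀ (s : F), s ∈ ({k, k + 1} : Set F) → ∀ x y, B (s • x) (s • y) = B x y := by
    intro s hs' x y
    obtain ⟨l, ρ, hA', rfl⟩ := hreal s hs'
    obtain ⟨g, hg⟩ := hs (T.tor hF hA')
    have key : ∀ d x y, g * avg γ d (pair hF T σ hs x y) * g⁻¹ =
        avg γ d (pair hF T σ hs ((l ^ q * ρ) • x) ((l ^ q * ρ) • y)) := by
      intro d
      induction d with
      | zero => intro x y; show g * 1 * g⁻¹ = 1; group
      | succ d ih =>
        intro x y
        show g * (pair hF T σ hs x y * avg γ d (γ * pair hF T σ hs x y * γ⁻¹)) * g⁻¹ =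
          pair hF T σ hs _ _ * avg γ d (γ * pair hF T σ hs _ _ * γ⁻¹)
        rw [hγp, hγp, smul_comm μ (l ^ q * ρ) x, smul_comm μ (l ^ q * ρ) y, ← ih, ← hactS l ρ x,
          ← hactS l ρ y, ← pair_conj hF T σ hs hc hm h1 hA' hg]
        group
    show avg γ _ _ = avg γ _ _
    rw [← key, Subgroup.mem_center_iff.1 (hc (hBk x y)) g, mul_inv_cancel_right]
  have hBone : ∀ x y, B x y = 1 := by
    have hc2 : ∀ a b c d, B a b * B c d = B c d * B a b := fun a b c d =>
      Subgroup.mem_center_iff.1 (hc (hBk c d)) _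
    have h3' : ∀ x y, B (k • x) y * B x (k • y) * B x y = 1 := by
      intro x y
      have h := hBinv (k + 1) (Or.inr rfl) x y
      rw [add_smul, one_smul, add_smul, one_smul, hBl, hBr, hBr, hBinv k (Or.inl rfl)] at h
      calc B (k • x) y * B x (k • y) * B x y
          = (B x y)⁻¹ * (B x y * B (k • x) y * (B x (k • y) * B x y)) := by group
        _ = (B x y)⁻¹ * (B x (k • y) * B x y * (B x y * B (k • x) y)) := by
            rw [Subgroup.mem_center_iff.1 (hc (σ.ker.mul_mem (hBk x (k • y)) (hBk x y)))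
              (B x y * B (k • x) y)]
        _ = 1 := by rw [h, inv_mul_cancel]
    have h4 : ∀ x y, B ((k ^ 2 + k + 1) • x) y = 1 := by
      intro x y
      have h := h3' (k • x) y
      rw [hBinv k (Or.inl rfl), smul_smul, ← pow_two] at h
      rw [show (k ^ 2 + k + 1) • x = k ^ 2 • x + (k • x + x) by module, hBl, hBl]
      calc B x y * B (k • x) y * B (k ^ 2 • x) y
          = B x y * (B (k • x) y * B (k ^ 2 • x) y) := mul_assoc _ _ _
        _ = B x y * (B (k ^ 2 • x) y * B (k • x) y) := by rw [hc2 (k • x) y]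
        _ = B x y * B (k ^ 2 • x) y * B (k • x) y := (mul_assoc _ _ _).symm
        _ = 1 := by rw [hc2 x y, h]
    intro x y
    have h := h4 ((k ^ 2 + k + 1)⁻¹ • x) y
    rwa [smul_inv_smul₀ hk] at h
  rw [eq_bot_iff]
  rintro a ⟨ha, haK⟩
  have hker : ⁅(T.qsub hF).comap σ, (T.qsub hF).comap σ⁆ ≤
      ({ carrier := {z | z ∈ Zh ∧ avg γ (q - 1) z = 1}
         one_mem' := ⟨Zh.one_mem, by rw [havg_ker _ _ σ.ker.one_mem, one_pow]⟩
         mul_mem' := fun {a b} ha hb => ⟨Zh.mul_mem ha.1 hb.1, by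
           rw [havg_mul _ _ ha.1 _ hb.1, ha.2, hb.2, one_mul]⟩
         inv_mem' := fun {a} ha => ⟨Zh.inv_mem ha.1, by
           have := havg_mul (q - 1) _ ha.1 _ (Zh.inv_mem ha.1)
           rw [mul_inv_cancel, havg_ker _ _ σ.ker.one_mem, one_pow, ha.2, one_mul] at this
           exact this.symm⟩ } : Subgroup Γ) :=
    commutator_comap_le hF T σ hs hc hm h1 fun u v => ⟨hpZ u v, hBone u v⟩
  have hd : a ^ (q - 1) = 1 := by rw [← havg_ker _ _ ha]; exact (hker haK).2
  obtain ⟨j, hj⟩ := hA ⟨a, ha⟩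
  refine Subgroup.mem_bot.2 (eq_one_of_pow_prime_pow (congrArg Subtype.val hj) hd ?_)
  obtain ⟨e, he, hqe⟩ := exists_pow_eq hF p
  rw [(Fact.out : p.Prime).coprime_iff_not_dvd]
  intro hdvd
  have h5 := Nat.dvd_sub (show p ∣ q by rw [hqe]; exact dvd_pow_self p he.ne') hdvd
  rw [Nat.sub_sub_self (by omega)] at h5
  exact (Fact.out : p.Prime).one_lt.ne' (Nat.dvd_one.1 h5)

end CfsgLib.SchurClassical.Un
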