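import Mathlib
import Cfsg.Agent.SchurClassical.Radical
import Cfsg.Agent.SchurClassical.UnitPair

/-!
`SU_n(q)` has no multiplier at the characteristic when a scalar torus element moves the Heisenberg
group.
-/

set_option autoImplicit false

namespace CfsgLib.SchurClassical.Un

open Matrix CfsgLib.Unitary CfsgLib.AutPSU CfsgLib.AutPSU.Frame
open scoped commutatorElement

universe u

variable {F : Type u} [Field F] [Fintype F] {m q : ℕ} (hF : Fintype.card F = q ^ 2)

local notation "Vm" => Fin m → F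
local notation "hm[" u "," v "]" => Cfsg.hermForm m F q u v
set_option quotPrecheck false in
local notation "SUn" => ↥(Cfsg.SU (m + 2) F q)

include hF in
theorem adm_scalar {l ρ : F} (hl : l ≠ 0) (hρ : ρ ^ (q + 1) = 1)
    (hdet : l * (l ^ q)⁻¹ * ρ ^ m = 1) : Adm q l (ρ • (1 : Matrix (Fin m) (Fin m) F)) := by
  refine ⟨hl, fun u v => ?_, by rw [Matrix.det_smul, Matrix.det_one, mul_one, Fintype.card_fin, hdet]⟩
  rw [Matrix.smul_mulVec, Matrix.smul_mulVec, Matrix.one_mulVec, Matrix.one_mulVec, herm_smul_left,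
    herm_smul_right, ← mul_assoc, ← pow_succ', hρ, one_mul]

/-- The centre of the Heisenberg group. -/
noncomputable def ctrGroup (T : Frame F m q) : Subgroup SUn where
  carrier := {g | ∃ (r : F) (hr : r + r ^ q = 0), g = ctr hF T r hr}
  one_mem' := ⟨0, by rw [zero_add, zero_pow_q hF], (ctr_eq_one hF T _ rfl).symm⟩
  mul_mem' := by
    rintro _ _ ⟨r, hr, rfl⟩ ⟨s, hs, rfl⟩
    refine ⟨r + s, by rw [add_pow_q hF]; linear_combination hr + hs, ?_⟩
    rw [T.heis_mul hF]
    exact T.heis_congr hF _ _ (add_zero 0) (by rw [herm_zero_left, sub_zero])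
  inv_mem' := by
    rintro _ ⟨r, hr, rfl⟩
    refine ⟨-r, by rw [neg_pow_q hF]; linear_combination -hr, inv_eq_of_mul_eq_one_right ?_⟩
    rw [T.heis_mul hF, T.heis_congr hF _ (hcond_zero_iff.2 (by rw [zero_add, zero_pow_q hF]))
      (add_zero 0) (by rw [herm_zero_left, sub_zero, add_neg_cancel])]
    exact ctr_eq_one hF T (by rw [zero_add, zero_pow_q hF]) rfl

theorem commutator_qsub (hm : 1 ≤ m) (T : Frame F m q) :
    ⁅T.qsub hF, T.qsub hF⁆ = ctrGroup hF T := by
  refine le_antisymm (Subgroup.commutator_le.2 ?_) ?_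
  · rintro _ ⟨w, c, hc, rfl⟩ _ ⟨w', c', hc', rfl⟩
    exact ⟨_, _, heis_comm hF T hc hc'⟩
  · rintro _ ⟨r, hr, rfl⟩
    obtain ⟨w, w', rfl⟩ := exists_ctr_eq_comm hF hm hr
    obtain ⟨c, hc⟩ := exists_hcond hF w
    obtain ⟨c', hc'⟩ := exists_hcond hF w'
    rw [← heis_comm hF T hc hc']
    exact Subgroup.commutator_mem_commutator (T.heis_mem_qsub hF hc) (T.heis_mem_qsub hF hc')

variable (p : ℕ) [Fact p.Prime] [CharP F p] {Γ : Type u} [Group Γ] [Finite Γ]

include hF in
/-- A scalar torus element, moving the Heisenberg group, gives the radical lifts. -/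
theorem hasRad_of_scalar (hm : 1 ≤ m) (T : Frame F m q) {σ : Γ →* SUn} (hs : Function.Surjective σ)
    (hc : σ.ker ≤ Subgroup.center Γ)
    (hK : σ.ker ⊓ ⁅(T.qsub hF).comap σ, (T.qsub hF).comap σ⁆ = ⊥)
    {l ρ : F} (h : Adm q l (ρ • (1 : Matrix (Fin m) (Fin m) F))) (hμ : l ^ q * ρ ≠ 1) : HasRad σ := by
  have hact : ∀ w : Vm, act q l (ρ • (1 : Matrix (Fin m) (Fin m) F)) w = (l ^ q * ρ) • w :=
    fun w => by rw [act, Matrix.smul_mulVec, Matrix.one_mulVec, smul_smul]
  have hQn : ∀ s ∈ vecStab F m q T.e, ∀ g ∈ T.qsub hF, s * g * s⁻¹ ∈ T.qsub hF :=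
    fun s hs' g hg => T.conj_mem_qsub hF one_ne_zero (by rw [one_smul]; exact hs') hg
  have hτe : sv (T.tor hF h) T.e = l • T.e := by rw [T.sv_tor hF, T.lin_e hF]
  have hτS : ∀ s ∈ vecStab F m q T.e, s * T.tor hF h * s⁻¹ * (T.tor hF h)⁻¹ ∈ T.qsub hF := by
    intro s hs'
    obtain ⟨u, hu, g, hg⟩ := exists_decomp hF T hs'
    rw [← qsub_eq_qAt hF T] at hu
    obtain ⟨τ, hτ⟩ : ∃ τ, T.tor hF h = τ := ⟨_, rfl⟩
    have hcom : emb hF T g * τ = τ * emb hF T g := by
      refine T.sv_ext_frame hF ?_ ?_ fun w => ?_ <;> rw [sv_mul, sv_mul, ← hτ, T.sv_tor hF, T.sv_tor hF]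
      · rw [T.lin_e hF, emb_e, T.lin_e hF, sv_smul, emb_e]
      · rw [T.lin_f hF, emb_f, T.lin_f hF, sv_smul, emb_f]
      · rw [T.lin_eta, emb_eta, emb_eta, T.lin_eta, Matrix.smul_mulVec, Matrix.smul_mulVec,
          Matrix.one_mulVec, Matrix.one_mulVec, sv_smul]
    rw [hτ]
    obtain rfl : s = u * emb hF T g := by rw [← hg, mul_inv_cancel_left]
    have e : u * emb hF T g * τ * (u * emb hF T g)⁻¹ * τ⁻¹ = u * (τ * u⁻¹ * τ⁻¹) := by
      rw [mul_assoc u, hcom]; group
    rw [e]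
    refine Subgroup.mul_mem _ hu ?_
    rw [← hτ]
    exact T.conj_mem_qsub hF h.1 hτe (Subgroup.inv_mem _ hu)
  have hfix : ∀ g ∈ T.qsub hF, ⁅T.tor hF h, g⁆ ∈ ⁅T.qsub hF, T.qsub hF⁆ →
      g ∈ ⁅T.qsub hF, T.qsub hF⁆ := by
    rintro _ ⟨w, c, hwc, rfl⟩ hcom
    rw [commutator_qsub hF hm] at hcom ⊢
    obtain ⟨r, hr, e⟩ := hcom
    rw [commutatorElement_def, mul_inv_eq_iff_eq_mul, T.conj_tor_heis hF h, T.heis_mul hF] at e
    have hw := (T.heis_inj hF e).1
    rw [hact, zero_add] at hw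
    have hw0 : w = 0 := by
      have : (l ^ q * ρ - 1) • w = 0 := by rw [sub_smul, one_smul, hw, sub_self]
      exact (smul_eq_zero.1 this).resolve_left (sub_ne_zero.2 hμ)
    subst hw0
    exact ⟨c, hcond_zero_iff.1 hwc, rfl⟩
  obtain ⟨N, -, h2, h3, h4⟩ := exists_radical_lift hs hc (Q := T.qsub hF) (S := vecStab F m q T.e)
    (fun g hg => ((T.mem_qsub_iff hF).1 hg).1) hQn hK (T.tor hF h)
    (fun g hg => T.conj_mem_qsub hF h.1 hτe hg) hτS hfix
  exact hasRad_of_one hF hm T hs hc h3 h4 fun g hg x hx => h2 g hg x hx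

include hF in
theorem exists_fixed_notMem (B : Finset F) (hB : B.card < q) : ∃ k : F, k ^ q = k ∧ k ∉ B := by
  classical
  by_contra hcon
  push Not at hcon
  have h := card_fixed hF
  rw [Nat.card_eq_fintype_card, Fintype.card_subtype] at h
  have := Finset.card_le_card (s := Finset.univ.filter fun x : F => x ^ q = x) (t := B) fun x hx =>
    hcon x (Finset.mem_filter.1 hx).2
  omega

theorem exists_roots (F : Type u) [Field F] [DecidableEq F] :
    ∃ B : Finset F, B.card ≤ 2 ∧ ∀ x : F, x ^ 2 + x + 1 = 0 → x ∈ B := by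
  by_cases h : ∃ r : F, r ^ 2 + r + 1 = 0
  · obtain ⟨r, hr⟩ := h
    refine ⟨{r, -1 - r}, Finset.card_le_two, fun x hx => ?_⟩
    rcases mul_eq_zero.1 (show (x - r) * (x + r + 1) = 0 by linear_combination hx - hr) with e | e
    · simp [sub_eq_zero.1 e]
    · simp [show x = -1 - r by linear_combination e]
  · exact ⟨∅, by simp, fun x hx => absurd ⟨x, hx⟩ h⟩

include hF in
/-- The kernel part of the commutator of the Heisenberg lift vanishes, `(n, q) ∉ {(3,2), (4,2), (4,3)}`. -/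
theorem ker_inf_commutator_heis (hm : 1 ≤ m) (hexc : m = 1 → 3 ≤ q) (hexc2 : m = 2 → 4 ≤ q)
    (T : Frame F m q) (σ : Γ →* SUn) (hs : Function.Surjective σ)
    (hc : σ.ker ≤ Subgroup.center Γ) (hA : IsPGroup p σ.ker) :
    σ.ker ⊓ ⁅(T.qsub hF).comap σ, (T.qsub hF).comap σ⁆ = ⊥ := by
  classical
  have h1 : m = 1 → q ≠ 2 := fun h => by have := hexc h; omega
  by_cases h3 : 3 ≤ m
  · exact ker_inf_commutator_qsub hF T σ hs hc hm h1 h3
  have hq : 3 ≤ q := by
    rcases (show m = 1 ∨ m = 2 by omega) with h | h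
    · exact hexc h
    · have := hexc2 h; omega
  obtain ⟨B2, hB2, hroot⟩ := exists_roots F
  by_cases h5 : 5 ≤ q
  · obtain ⟨k, hkf, hk⟩ := exists_fixed_notMem hF (insert 0 (insert (-1) B2)) (by
      have := Finset.card_insert_le (-1 : F) B2
      have := Finset.card_insert_le (0 : F) (insert (-1 : F) B2)
      omega)
    simp only [Finset.mem_insert, not_or] at hk
    obtain ⟨k0, hk0f, hk0⟩ := exists_fixed_notMem hF ({0, 1, -1} : Finset F)
      (lt_of_le_of_lt Finset.card_le_three (by omega))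
    simp only [Finset.mem_insert, Finset.mem_singleton, not_or] at hk0
    have had : ∀ a : F, a ^ q = a → a ≠ 0 → Adm q a ((1 : F) • (1 : Matrix (Fin m) (Fin m) F)) :=
      fun a ha ha0 => by rw [one_smul]; exact adm_const hF ha ha0
    refine ker_inf_commutator_qsub_of_scalar hF T σ hs hc hm h1 hA (had k0 hk0f hk0.1) ?_
      (fun h => hk.2.2 (hroot k h)) ?_
    · rw [pow_succ, hk0f]
      exact fun h => (mul_self_eq_one_iff.1 h).elim hk0.2.1 hk0.2.2
    · intro s hs'
      have hs1 : s ^ q = s ∧ s ≠ 0 := by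
        rcases hs' with rfl | hs'
        · exact ⟨hkf, hk.1⟩
        · rw [Set.mem_singleton_iff] at hs'
          subst hs'
          exact ⟨by rw [add_pow_q hF, hkf, one_pow],
            fun e => hk.2.1 (by linear_combination e)⟩
      exact ⟨s, 1, had s hs1.1 hs1.2, by rw [hs1.1, mul_one]⟩
  have hcard : Fintype.card F = q * q := by rw [hF, pow_two]
  obtain ⟨k, hk⟩ : ∃ k : F, k ∉ insert 0 (insert (-1 : F) B2) := by
    by_contra hcon
    push Not at hcon
    have := Finset.card_le_card (s := (Finset.univ : Finset F)) fun x _ => hcon x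
    rw [Finset.card_univ, hcard] at this
    have := Finset.card_insert_le (-1 : F) B2
    have := Finset.card_insert_le (0 : F) (insert (-1 : F) B2)
    nlinarith
  simp only [Finset.mem_insert, not_or] at hk
  have hne : ∀ s ∈ ({k, k + 1} : Set F), s ≠ 0 := by
    rintro s (rfl | hs')
    · exact hk.1
    · rw [Set.mem_singleton_iff] at hs'
      subst hs'
      exact fun e => hk.2.1 (by linear_combination e)
  have hpow : ∀ (s : F), s ≠ 0 → s ^ (q * q - 1) = 1 := fun s h => by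
    rw [← hcard]; exact FiniteField.pow_card_sub_one_eq_one s h
  have hmul : ∀ (s : F) (a b : ℕ), s ≠ 0 → a = (q * q - 1) * b + 1 → s ^ a = s := fun s a b h e => by
    rw [e, pow_add, pow_mul, hpow s h, one_pow, one_mul, pow_one]
  obtain ⟨a, ha0, ha⟩ : ∃ a : F, a ≠ 0 ∧ a ^ (q + 1) ≠ 1 ∧ (m = 2 → (a ^ (q + 1)) ^ 2 ≠ 1) := by
    rcases (show q = 3 ∨ q = 4 by omega) with h | h
    · obtain ⟨b, hbf, hb⟩ := exists_fixed_notMem hF ({0, 1} : Finset F)
        (lt_of_le_of_lt Finset.card_le_two (by omega))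
      simp only [Finset.mem_insert, Finset.mem_singleton, not_or] at hb
      obtain ⟨a, ha⟩ := exists_norm_eq hF hbf
      refine ⟨a, fun e => hb.1 (by rw [← ha, e, zero_pow (Nat.succ_ne_zero q)]), ha ▸ hb.2, fun h' => ?_⟩
      have := hexc2 h'
      omega
    · obtain ⟨b, hbf, hb⟩ := exists_fixed_notMem hF ({0, 1, -1} : Finset F)
        (lt_of_le_of_lt Finset.card_le_three (by omega))
      simp only [Finset.mem_insert, Finset.mem_singleton, not_or] at hb
      obtain ⟨a, ha⟩ := exists_norm_eq hF hbf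
      refine ⟨a, fun e => hb.1 (by rw [← ha, e, zero_pow (Nat.succ_ne_zero q)]), ha ▸ hb.2.1, fun _ => ?_⟩
      rw [ha, pow_two]
      exact fun h => (mul_self_eq_one_iff.1 h).elim hb.2.1 hb.2.2
  have hq0 : 1 ≤ q := by omega
  rcases (show m = 1 ∨ m = 2 by omega) with hm' | hm'
  · -- `n = 3`
    have had : ∀ l : F, l ≠ 0 → Adm q l (l ^ (q - 1) • (1 : Matrix (Fin m) (Fin m) F)) := fun l hl => by
      refine adm_scalar hF hl ?_ ?_
      · rw [← pow_mul, show (q - 1) * (q + 1) = q * q - 1 by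
          rw [mul_comm, ← Nat.sq_sub_sq]; simp [pow_two]]
        exact hpow l hl
      · rw [hm', pow_one, mul_comm l, mul_assoc, ← pow_succ', show q - 1 + 1 = q by omega,
          inv_mul_cancel₀ (pow_ne_zero q hl)]
    refine ker_inf_commutator_qsub_of_scalar hF T σ hs hc hm h1 hA (had a ha0) ha.1
      (fun h => hk.2.2 (hroot k h)) ?_
    intro s hs'
    rcases (show q = 3 ∨ q = 4 by omega) with hq' | hq'
    · refine ⟨s ^ 5, _, had _ (pow_ne_zero _ (hne s hs')), ?_⟩
      rw [← pow_mul, ← pow_mul, ← pow_add]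
      exact hmul s _ 3 (hne s hs') (by subst hq'; rfl)
    · refine ⟨s ^ 13, _, had _ (pow_ne_zero _ (hne s hs')), ?_⟩
      rw [← pow_mul, ← pow_mul, ← pow_add]
      exact hmul s _ 6 (hne s hs') (by subst hq'; rfl)
  · -- `n = 4`, `q = 4`
    have hq' : q = 4 := by have := hexc2 hm'; omega
    have had : ∀ t : F, t ≠ 0 → Adm q (t ^ 2) ((t ^ 3) • (1 : Matrix (Fin m) (Fin m) F)) := fun t ht => by
      refine adm_scalar hF (pow_ne_zero _ ht) ?_ ?_
      · rw [← pow_mul, show 3 * (q + 1) = q * q - 1 by subst hq'; rfl]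
        exact hpow t ht
      · rw [hm', hq', mul_comm (t ^ 2), mul_assoc, ← pow_mul, ← pow_mul, ← pow_add]
        exact inv_mul_cancel₀ (pow_ne_zero _ ht)
    refine ker_inf_commutator_qsub_of_scalar hF T σ hs hc hm h1 hA (had a ha0) ?_
      (fun h => hk.2.2 (hroot k h)) ?_
    · rw [← pow_mul, mul_comm, pow_mul]
      exact ha.2 hm'
    · intro s hs'
      refine ⟨_, _, had (s ^ 11) (pow_ne_zero _ (hne s hs')), ?_⟩
      rw [← pow_mul, ← pow_mul, ← pow_mul, ← pow_add]
      exact hmul s _ 8 (hne s hs') (by subst hq'; rfl)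

include hF in
theorem exists_scalar (hcase : 3 ≤ q ∨ m % 3 ≠ 1) :
    ∃ (l ρ : F) (_ : Adm q l (ρ • (1 : Matrix (Fin m) (Fin m) F))), l ^ q * ρ ≠ 1 := by
  classical
  by_cases hq : 3 ≤ q
  · obtain ⟨k, hkf, hk⟩ := exists_fixed_notMem hF ({0, 1} : Finset F)
      (lt_of_le_of_lt Finset.card_le_two (by omega))
    simp only [Finset.mem_insert, Finset.mem_singleton, not_or] at hk
    exact ⟨k, 1, by rw [one_smul]; exact adm_const hF hkf hk.1, by rw [hkf, mul_one]; exact hk.2⟩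
  have hm3 := hcase.resolve_left hq
  have hq2 : q = 2 := by have := two_le_q hF; omega
  obtain ⟨z, hz, -, hz1⟩ := exists_not_fixed hF
  have hz3 : z ^ 3 = 1 := by rw [← hz, hq2]
  have hz0 : z ≠ 0 := fun h => by rw [h, zero_pow (by norm_num)] at hz3; exact zero_ne_one hz3
  obtain ⟨j, hj⟩ : ∃ j, m = 3 * j + m % 3 := ⟨m / 3, (Nat.div_add_mod m 3).symm⟩
  rcases (show m % 3 = 0 ∨ m % 3 = 2 by omega) with h | h
  · refine ⟨1, z, adm_scalar hF one_ne_zero hz ?_, by rw [one_pow, one_mul]; exact hz1⟩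
    rw [hj, h, add_zero, pow_mul, hz3, one_pow, one_pow, inv_one, one_mul, mul_one]
  · refine ⟨z, z ^ 2, adm_scalar hF hz0 (by rw [← pow_mul, mul_comm, pow_mul, hz, one_pow]) ?_, ?_⟩
    · have e : (z ^ 2) ^ (3 * j + 2) = z := by
        calc (z ^ 2) ^ (3 * j + 2) = (z ^ 3) ^ (2 * j + 1) * z := by ring
          _ = z := by rw [hz3, one_pow, one_mul]
      rw [hj, h, hq2, e, mul_comm z, mul_assoc, ← pow_two, inv_mul_cancel₀ (pow_ne_zero _ hz0)]
    · rw [hq2, ← pow_add, show (2 + 2 : ℕ) = 3 + 1 from rfl, pow_add, hz3, one_mul, pow_one]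
      exact hz1

include hF in
/-- No multiplier at the characteristic, the scalar case. -/
theorem noMult_su_defining (hm : 1 ≤ m) (hexc : m = 1 → 3 ≤ q) (hexc2 : m = 2 → 4 ≤ q)
    (hcase : 3 ≤ q ∨ m % 3 ≠ 1) : NoMult p SUn := by
  intro Γ _ _ σ hs hc hA
  obtain ⟨T⟩ := exists_frame (m := m) hF
  obtain ⟨l, ρ, h, hμ⟩ := exists_scalar (m := m) hF hcase
  exact ker_inf_commutator_of_hasRad hF p _ Γ σ hs hc hA (hasRad_of_scalar hF hm T hs hc
    (ker_inf_commutator_heis hF p hm hexc hexc2 T σ hs hc hA) h hμ)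

end CfsgLib.SchurClassical.Un
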