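import Mathlib
import Cfsg.Agent.Classical.Unitary.Parabolic
import Cfsg.Agent.SchurClassical.UnitRadical

/-!
Counting isotropic vectors: four isotropic vectors have a common isotropic non-neighbour outside a few
small sets.
-/

set_option autoImplicit false

namespace CfsgLib.SchurClassical.Un

open Matrix CfsgLib.Unitary CfsgLib.AutPSU CfsgLib.AutPSU.Frame

universe u

variable {F : Type u} [Field F] [Fintype F] {n m q : ℕ} (hF : Fintype.card F = q ^ 2)

local notation "H[" u "," v "]" => Cfsg.hermForm _ F q u v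

/-- `w` lies in the set where `u`, `v`, `w` may fail to have a common partner in dimension four. -/
def Bad (q : ℕ) (u v w : Fin n → F) : Prop :=
  ∃ (a : F) (r : Fin n → F), w = a • u + (1 - a) • v + r ∧ Cfsg.hermForm n F q r u = 0 ∧
    Cfsg.hermForm n F q r v = 0 ∧ Cfsg.hermForm n F q r r = 0

open scoped _root_.Classical in
/-- The isotropic vectors orthogonal to `z`. -/
noncomputable def perpIso (q : ℕ) (z : Fin n → F) : Finset (Fin n → F) :=
  Finset.univ.filter fun w => Cfsg.hermForm n F q w w = 0 ∧ Cfsg.hermForm n F q w z = 0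

open scoped _root_.Classical in
/-- The isotropic vectors orthogonal to `u` and `v`. -/
noncomputable def pairIso (q : ℕ) (u v : Fin n → F) : Finset (Fin n → F) :=
  Finset.univ.filter fun w => Cfsg.hermForm n F q w w = 0 ∧ Cfsg.hermForm n F q w u = 0 ∧
    Cfsg.hermForm n F q w v = 0

include hF in
theorem mem_span_eta (T : Frame F m q) {x : Fin (m + 2) → F} (he : H[x, T.e] = 0) (hf : H[x, T.f] = 0) :
    x = eta (proj x) := by
  conv_lhs => rw [T.decomp hF x]
  rw [he, hf, zero_smul, zero_smul, zero_add, zero_add]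

theorem proj_eta (w : Fin m → F) : proj (eta w : Fin (m + 2) → F) = w := by
  funext i; simp [proj, eta]

include hF in
theorem card_perpIso {z : Fin (m + 2) → F} (hm : 1 ≤ m) (hz0 : z ≠ 0) (hz : H[z, z] = 0) :
    (perpIso q z).card = q ^ 2 * normCount m q (0 : F) := by
  classical
  obtain ⟨T⟩ := exists_frame (m := m) hF
  obtain ⟨A, hA⟩ := exists_SU_map_isotropic hF (by omega) (T.e_ne_zero hF) hz0 T.he hz
  have hval : ∀ (a : F) (w : Fin m → F), H[a • T.e + eta w, a • T.e + eta w] = Cfsg.hermForm m F q w w ∧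
      H[a • T.e + eta w, T.e] = 0 := by
    intro a w
    constructor
    · simp [herm_add_left, herm_add_right hF, herm_smul_left, herm_smul_right, T.he, T.ew w, T.we hF w,
        herm_eta hF]
    · simp [herm_add_left, herm_smul_left, T.he, T.ew w]
  let φ : F × {w : Fin m → F // Cfsg.hermForm m F q w w = 0} → {w // w ∈ perpIso q z} := fun x =>
    ⟨sv A (x.1 • T.e + eta x.2.1), by
      simp only [perpIso, Finset.mem_filter, Finset.mem_univ, true_and]
      rw [sv_herm, (hval _ _).1, x.2.2, ← hA, sv_herm, (hval _ _).2]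
      exact ⟨rfl, rfl⟩⟩
  have hφ : Function.Bijective φ := by
    constructor
    · rintro ⟨a, w, hw⟩ ⟨a', w', hw'⟩ h
      have h1 : a • T.e + eta w = a' • T.e + eta w' := by
        have h' := congrArg (fun x : {w // w ∈ perpIso q z} => sv A⁻¹ x.1) h
        simpa [φ, sv_inv_sv] using h'
      have h2 : a = a' := by
        have := congrArg (fun x => H[x, T.f]) h1
        simpa [herm_add_left, herm_smul_left, T.hef, T.fw w, T.fw w'] using this
      subst h2
      have := eta_injective (add_left_cancel h1)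
      subst this
      rfl
    · rintro ⟨y, hy⟩
      simp only [perpIso, Finset.mem_filter, Finset.mem_univ, true_and] at hy
      set x := sv A⁻¹ y
      have hx : sv A x = y := sv_sv_inv A y
      have he : H[x, T.e] = 0 := by rw [← sv_herm A, hx, hA, hy.2]
      have e : x = H[x, T.f] • T.e + eta (proj x) := T.eq_of_perp_e hF he
      refine ⟨⟨H[x, T.f], proj x, ?_⟩, Subtype.ext ?_⟩
      · rw [← (hval H[x, T.f] (proj x)).1, ← e, ← sv_herm A, hx, hy.1]
      · show sv A _ = y
        rw [← e, hx]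
  have h := Nat.card_eq_of_bijective φ hφ
  rw [Nat.card_prod, Nat.card_eq_fintype_card, hF, Nat.card_eq_fintype_card (α := {w // w ∈ perpIso q z}),
    Fintype.card_coe] at h
  exact h.symm

include hF in
theorem card_pairIso {u v : Fin (m + 2) → F} (hm : 1 ≤ m) (hu : H[u, u] = 0) (hv : H[v, v] = 0)
    (huv : H[u, v] ≠ 0) : (pairIso q u v).card = normCount m q (0 : F) := by
  classical
  obtain ⟨T⟩ := exists_frame (m := m) hF
  obtain ⟨A, hAe, hAf⟩ := exists_SU_map_hyperbolic hF (by omega) T.he T.hf T.hef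
    (e' := (H[u, v])⁻¹ • u) (f' := v) (by rw [herm_smul_left, herm_smul_right, hu, mul_zero, mul_zero]) hv
    (by rw [herm_smul_left, inv_mul_cancel₀ huv])
  have hu' : u = sv A (H[u, v] • T.e) := by rw [sv_smul, hAe, smul_smul, mul_inv_cancel₀ huv, one_smul]
  let φ : {w : Fin m → F // Cfsg.hermForm m F q w w = 0} → {w // w ∈ pairIso q u v} := fun x =>
    ⟨sv A (eta x.1), by
      simp only [pairIso, Finset.mem_filter, Finset.mem_univ, true_and]
      refine ⟨by rw [sv_herm, herm_eta hF, x.2], ?_, by rw [← hAf, sv_herm, T.fw]⟩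
      conv_lhs => rw [hu']
      rw [sv_herm, herm_smul_right, T.ew, mul_zero]⟩
  have hφ : Function.Bijective φ := by
    constructor
    · rintro ⟨w, hw⟩ ⟨w', hw'⟩ h
      have h' := congrArg (fun x : {w // w ∈ pairIso q u v} => sv A⁻¹ x.1) h
      exact Subtype.ext (eta_injective (by simpa [φ, sv_inv_sv] using h'))
    · rintro ⟨y, hy⟩
      simp only [pairIso, Finset.mem_filter, Finset.mem_univ, true_and] at hy
      set x := sv A⁻¹ y
      have hx : sv A x = y := sv_sv_inv A y
      have he : H[x, T.e] = 0 := by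
        rw [← sv_herm A, hx, hAe, herm_smul_right, hy.2.1, mul_zero]
      have hf : H[x, T.f] = 0 := by rw [← sv_herm A, hx, hAf, hy.2.2]
      have e := mem_span_eta hF T he hf
      refine ⟨⟨proj x, ?_⟩, Subtype.ext ?_⟩
      · rw [← herm_eta hF, ← e, ← sv_herm A, hx, hy.1]
      · show sv A _ = y
        rw [← e, hx]
  have h := Nat.card_eq_of_bijective φ hφ
  rw [Nat.card_eq_fintype_card (α := {w // w ∈ pairIso q u v}), Fintype.card_coe] at h
  exact h.symm

include hF in
/-- Two orthogonal complements share many isotropic vectors. -/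
theorem card_inter_perpIso [DecidableEq F] (hn : 5 ≤ n) (a b : Fin n → F) :
    q ^ (2 * (n - 3)) ≤ (perpIso q a ∩ perpIso q b).card := by
  classical
  set W := Submodule.span F ({a, b} : Set (Fin n → F))
  have hW2 : Module.finrank F W ≤ 2 := by
    refine (finrank_span_le_card _).trans ?_
    simp only [Set.toFinset_insert, Set.toFinset_singleton]
    exact Finset.card_le_two
  obtain ⟨d, hd, hd1⟩ : ∃ d ∈ perp q W, H[d, d] = 1 := by
    refine exists_norm_one_mem hF ?_
    by_contra hcon
    push Not at hcon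
    have hle : perp q W ≤ W := fun x hx => by
      rw [← perp_perp hF W]
      exact fun y hy => hcon x hx y hy
    have h1 := Submodule.finrank_mono hle
    have h2 := finrank_perp_add hF W
    omega
  set W' := Submodule.span F ({a, b, d} : Set (Fin n → F))
  have hW3 : Module.finrank F W' ≤ 3 := by
    refine (finrank_span_le_card _).trans ?_
    simp only [Set.toFinset_insert, Set.toFinset_singleton]
    exact Finset.card_le_three
  have hchoice : ∀ w : perp q W', ∃ t : F, t ^ (q + 1) = -H[(w : Fin n → F), (w : Fin n → F)] :=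
    fun w => exists_norm_eq hF (by rw [neg_pow_q hF, herm_self_fixed hF])
  choose t ht using hchoice
  have hperp : ∀ (w : perp q W') {y}, y ∈ ({a, b, d} : Set (Fin n → F)) → H[(w : Fin n → F), y] = 0 :=
    fun w {y} hy => w.2 y (Submodule.subset_span hy)
  let φ : perp q W' → {x // x ∈ perpIso q a ∩ perpIso q b} := fun w => ⟨(w : Fin n → F) + t w • d, by
    have ha : H[(w : Fin n → F), a] = 0 := hperp w (by simp)
    have hb : H[(w : Fin n → F), b] = 0 := hperp w (by simp)
    have hwd : H[(w : Fin n → F), d] = 0 := hperp w (by simp)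
    have hda : H[d, a] = 0 := hd a (Submodule.subset_span (by simp))
    have hdb : H[d, b] = 0 := hd b (Submodule.subset_span (by simp))
    have h0 : H[(w : Fin n → F) + t w • d, (w : Fin n → F) + t w • d] = 0 := by
      simp only [herm_add_left, herm_add_right hF, herm_smul_left, herm_smul_right, hd1, hwd,
        herm_eq_zero_comm hF hwd, mul_zero, add_zero, zero_add, mul_one]
      rw [← pow_succ, ht]
      ring
    simp [perpIso, h0, herm_add_left, herm_smul_left, ha, hb, hda, hdb]⟩
  have hφ : Function.Injective φ := by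
    intro w w' h
    have h1 : (w : Fin n → F) + t w • d = (w' : Fin n → F) + t w' • d := congrArg Subtype.val h
    have h2 := congrArg (fun x => H[x, d]) h1
    simp only [herm_add_left, herm_smul_left, hd1, hperp w (show d ∈ _ by simp), hperp w' (show d ∈ _ by simp),
      zero_add, mul_one] at h2
    rw [h2] at h1
    exact Subtype.ext (add_right_cancel h1)
  have h := Nat.card_le_card_of_injective φ hφ
  rw [Nat.card_eq_fintype_card (α := {x // x ∈ perpIso q a ∩ perpIso q b}), Fintype.card_coe,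
    Module.natCard_eq_pow_finrank (K := F), Nat.card_eq_fintype_card, hF, ← pow_mul] at h
  refine le_trans (Nat.pow_le_pow_right (by have := two_le_q hF; omega) ?_) h
  have := finrank_perp_add hF W'
  omega

open scoped _root_.Classical in
/-- The isotropic vectors `a u + b v`, `a ≠ 0`. -/
noncomputable def spanIso (hF : Fintype.card F = q ^ 2) (u v : Fin n → F) : Finset (Fin n → F) :=
  ((Finset.univ.filter fun a : F => a ≠ 0) ×ˢ (Finset.univ.filter fun s : F => s + s ^ q = 0)).image
    fun x => x.1 • u + (x.2 / (x.1 * H[u, v])) ^ q • v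

theorem card_spanIso (u v : Fin n → F) : (spanIso hF u v).card ≤ (q ^ 2 - 1) * q := by
  classical
  refine Finset.card_image_le.trans ?_
  rw [Finset.card_product, Finset.filter_ne', Finset.card_erase_of_mem (Finset.mem_univ _), Finset.card_univ,
    hF]
  refine le_of_eq (congrArg _ ?_)
  conv_rhs => rw [← card_trace_zero hF, Nat.card_eq_fintype_card, Fintype.card_subtype]

theorem mem_spanIso {u v w : Fin n → F} (hu : H[u, u] = 0) (hv : H[v, v] = 0) (huv : H[u, v] ≠ 0)
    (hw : H[w, w] = 0) (hwv : H[w, v] ≠ 0) (hspan : w ∈ Submodule.span F {u, v}) : w ∈ spanIso hF u v := by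
  classical
  obtain ⟨a, b, rfl⟩ := Submodule.mem_span_pair.1 hspan
  have ha : a ≠ 0 := by
    rintro rfl
    exact hwv (by simp [herm_add_left, herm_smul_left, hv])
  refine Finset.mem_image.2 ⟨(a, a * b ^ q * H[u, v]), ?_, ?_⟩
  · simp only [Finset.mem_product, Finset.mem_filter, Finset.mem_univ, true_and]
    refine ⟨ha, ?_⟩
    simp only [herm_add_left, herm_add_right hF, herm_smul_left, herm_smul_right, hu, hv, mul_zero, add_zero,
      zero_add] at hw
    rw [herm_conj hF u v] at hw
    simp only [mul_pow, pow_q_q hF]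
    linear_combination hw
  · rw [show a * b ^ q * H[u, v] / (a * H[u, v]) = b ^ q by field_simp, pow_q_q hF]

open scoped _root_.Classical in
/-- The scalars that can occur in a bad vector. -/
noncomputable def badCoeff (q : ℕ) (h : F) : Finset F :=
  Finset.univ.filter fun a => a * (1 - a) ^ q * h + (1 - a) * a ^ q * h ^ q = 0

include hF in
theorem card_badCoeff {h : F} (hh : h ≠ 0) : (badCoeff q h).card ≤ q + 1 := by
  classical
  open Polynomial in
  set P : F[X] := C h * X + C (h ^ q) * X ^ q - C (h + h ^ q) * X ^ (q + 1) with hP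
  have hq := two_le_q hF
  have hc : P.coeff 1 = h := by
    simp only [hP, Polynomial.coeff_sub, Polynomial.coeff_add, Polynomial.coeff_C_mul, Polynomial.coeff_X_pow,
      Polynomial.coeff_X_one, if_neg (show ¬ (1 = q) by omega), if_neg (show ¬ (1 = q + 1) by omega)]
    ring
  have hP0 : P ≠ 0 := fun e => hh (by rw [← hc, e, Polynomial.coeff_zero])
  have hdeg : P.natDegree ≤ q + 1 := by
    rw [hP]
    compute_degree
    all_goals omega
  refine le_trans (Finset.card_le_card (t := P.roots.toFinset) fun a ha => ?_)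
    ((Multiset.toFinset_card_le _).trans ((Polynomial.card_roots' P).trans hdeg))
  simp only [badCoeff, Finset.mem_filter, Finset.mem_univ, true_and, sub_pow_q hF, one_pow] at ha
  rw [Multiset.mem_toFinset, Polynomial.mem_roots hP0, Polynomial.IsRoot, hP]
  simp only [Polynomial.eval_sub, Polynomial.eval_add, Polynomial.eval_mul, Polynomial.eval_pow,
    Polynomial.eval_C, Polynomial.eval_X]
  linear_combination ha

open scoped _root_.Classical in
/-- The bad vectors of a pair. -/
noncomputable def badSet (q : ℕ) (u v : Fin n → F) : Finset (Fin n → F) :=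
  (badCoeff q (Cfsg.hermForm n F q u v) ×ˢ pairIso q u v).image fun x => x.1 • u + (1 - x.1) • v + x.2

include hF in
theorem mem_badSet {u v w : Fin n → F} (hu : H[u, u] = 0) (hv : H[v, v] = 0) (hw : H[w, w] = 0)
    (h : Bad q u v w) : w ∈ badSet q u v := by
  classical
  obtain ⟨a, r, rfl, h1, h2, h3⟩ := h
  refine Finset.mem_image.2 ⟨(a, r), ?_, rfl⟩
  simp only [Finset.mem_product, badCoeff, pairIso, Finset.mem_filter, Finset.mem_univ, true_and]
  refine ⟨?_, h3, h1, h2⟩
  simp only [herm_add_left, herm_add_right hF, herm_smul_left, herm_smul_right, hu, hv, h1, h2, h3,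
    herm_eq_zero_comm hF h1, herm_eq_zero_comm hF h2, mul_zero, add_zero, zero_add] at hw
  rw [herm_conj hF u v] at hw
  linear_combination hw

theorem four_union_le {α : Type*} [DecidableEq α] (A B C D : Finset α) :
    (A ∪ B ∪ (C ∪ D)).card + (A ∩ B).card + (C ∩ D).card ≤ A.card + B.card + C.card + D.card := by
  have h1 := Finset.card_union_add_card_inter A B
  have h2 := Finset.card_union_add_card_inter C D
  have h3 := Finset.card_union_le (A ∪ B) (C ∪ D)
  omega

include hF in
theorem count_five (hm : 3 ≤ m) :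
    4 * (q ^ 2 * normCount m q (0 : F)) + 4 * ((q ^ 2 - 1) * q) <
      normCount (m + 2) q (0 : F) + 2 * q ^ (2 * (m + 2 - 3)) := by
  have hq := two_le_q hF
  have h1 := normCount_zero_eq hF m
  have h2 := normCount_zero_eq hF (m + 2)
  obtain ⟨j, rfl⟩ : ∃ j, m = j + 3 := ⟨m - 3, by omega⟩
  rw [show 2 * (j + 3 + 2 - 3) = 2 * j + 4 by omega]
  rw [pow_add (q : ℤ) (j + 3) 2, pow_add (-1 : ℤ) (j + 3) 2, neg_one_sq, mul_one] at h2
  set A := normCount (j + 3) q (0 : F)
  set B := normCount (j + 3 + 2) q (0 : F)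
  set ε : ℤ := (-1) ^ (j + 3) with hε
  set P : ℤ := (q : ℤ) ^ (j + 3) with hP
  have hq2 : 1 ≤ q ^ 2 := Nat.one_le_pow _ _ (by omega)
  zify [hq2]
  have hPP : (q : ℤ) * (q : ℤ) ^ (2 * j + 4) * q = P ^ 2 := by rw [hP]; ring
  have hq' : (2 : ℤ) ≤ (q : ℤ) := by exact_mod_cast hq
  refine lt_of_mul_lt_mul_left (a := (q : ℤ) * q) ?_ (by positivity)
  have hP3 : (q : ℤ) ^ 3 ≤ P := pow_le_pow_right₀ (by omega) (by omega)
  have hεb : ε = 1 ∨ ε = -1 := neg_one_pow_eq_or ℤ _
  by_cases h3 : q = 2
  · subst h3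
    have hP8 : P = 8 ∧ ε = -1 ∨ 16 ≤ P := by
      rcases Nat.eq_zero_or_pos j with rfl | hj
      · left; norm_num [hP, hε]
      · right
        calc (16 : ℤ) = (2 : ℤ) ^ 4 := by norm_num
          _ ≤ P := pow_le_pow_right₀ (by norm_num) (by omega)
    push_cast at h1 h2 hPP ⊢
    rcases hP8 with ⟨e1, e2⟩ | hP16
    · rw [e1, e2] at h1 h2
      rw [e1] at hPP
      nlinarith
    · rcases hεb with e | e <;> rw [e] at h1 h2 <;> nlinarith
  · have hq3 : (3 : ℤ) ≤ (q : ℤ) := by exact_mod_cast (by omega : 3 ≤ q)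
    have hP9 : 9 * (q : ℤ) ≤ P := by nlinarith
    have hq0 : (0 : ℤ) ≤ (q : ℤ) ^ 3 := by positivity
    have hP0 : (0 : ℤ) < P := by linarith
    have hP2 : (q : ℤ) ^ 2 ≤ P ^ 2 := by nlinarith
    have k1 : 0 ≤ (q : ℤ) ^ 3 * (((q : ℤ) ^ 2 - 9) * P ^ 2) :=
      mul_nonneg hq0 (mul_nonneg (by nlinarith) (sq_nonneg P))
    have k2 : 0 ≤ (q : ℤ) ^ 3 * (P * (P - 9 * (q : ℤ))) :=
      mul_nonneg hq0 (mul_nonneg hP0.le (by linarith))
    have k3 : 0 ≤ (q : ℤ) ^ 3 * (P ^ 2 - (q : ℤ) ^ 2) := mul_nonneg hq0 (by linarith)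
    have k4 : 0 ≤ (q : ℤ) ^ 3 * (P * ((q : ℤ) - 1)) := mul_nonneg hq0 (mul_nonneg hP0.le (by linarith))
    have k5 : 0 < P ^ 2 := by positivity
    have e1 : (q : ℤ) * q * (4 * ((q : ℤ) ^ 2 * A) + 4 * (((q : ℤ) ^ 2 - 1) * q)) =
        4 * (q : ℤ) ^ 3 * ((q : ℤ) * A) + 4 * (((q : ℤ) ^ 2 - 1) * (q : ℤ) ^ 3) := by ring
    have e2 : (q : ℤ) * q * (B + 2 * (q : ℤ) ^ (2 * j + 4)) = (q : ℤ) * ((q : ℤ) * B) + 2 * P ^ 2 := by
      rw [← hPP]; ring
    have k6 : 0 ≤ (q : ℤ) ^ 4 * P := by positivity
    have k7 : 0 ≤ (q : ℤ) ^ 3 * P := by positivity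
    rw [e1, e2, h1, h2]
    rcases hεb with e | e <;> rw [e] <;> linarith

include hF in
theorem count_four (hq : 3 ≤ q) :
    4 * (q ^ 2 * normCount 2 q (0 : F)) + 4 * ((q ^ 2 - 1) * q) + 4 * ((q + 1) * normCount 2 q (0 : F)) <
      normCount 4 q (0 : F) := by
  have h1 := normCount_zero_eq hF 2
  have h2 := normCount_zero_eq hF 4
  norm_num at h1 h2
  have hq' : (3 : ℤ) ≤ (q : ℤ) := by exact_mod_cast hq
  have hq2 : 1 ≤ q ^ 2 := Nat.one_le_pow _ _ (by omega)
  have e1 : (normCount 2 q (0 : F) : ℤ) = (q : ℤ) ^ 3 + (q : ℤ) ^ 2 - q := by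
    refine mul_left_cancel₀ (show (q : ℤ) ≠ 0 by omega) ?_
    rw [h1]; ring
  have e2 : (normCount 4 q (0 : F) : ℤ) = (q : ℤ) ^ 7 + (q : ℤ) ^ 4 - (q : ℤ) ^ 3 := by
    refine mul_left_cancel₀ (show (q : ℤ) ≠ 0 by omega) ?_
    rw [h2]; ring
  zify [hq2]
  rw [e1, e2]
  nlinarith [mul_le_mul_of_nonneg_left (show (9 : ℤ) ≤ (q : ℤ) ^ 2 by nlinarith)
      (show (0 : ℤ) ≤ (q : ℤ) ^ 5 by positivity),
    mul_le_mul_of_nonneg_left hq' (show (0 : ℤ) ≤ (q : ℤ) ^ 4 by positivity),
    mul_le_mul_of_nonneg_left hq' (show (0 : ℤ) ≤ (q : ℤ) ^ 3 by positivity)]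

include hF in
/-- Four isotropic vectors have a common non-neighbour outside the exceptional sets of four pairs. -/
theorem exists_path_point (hn : 4 ≤ n) (hnq : 5 ≤ n ∨ 3 ≤ q) {a b c d : Fin n → F} (ha0 : a ≠ 0) (hb0 : b ≠ 0)
    (hc0 : c ≠ 0) (hd0 : d ≠ 0) (ha : H[a, a] = 0) (hb : H[b, b] = 0) (hc : H[c, c] = 0) (hd : H[d, d] = 0) :
    ∃ w : Fin n → F, w ≠ 0 ∧ H[w, w] = 0 ∧ H[w, a] ≠ 0 ∧ H[w, b] ≠ 0 ∧ H[w, c] ≠ 0 ∧ H[w, d] ≠ 0 ∧
      ∀ u v, (u, v) ∈ [(a, c), (c, b), (a, d), (d, b)] → H[u, v] ≠ 0 →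
        w ∉ Submodule.span F {u, v} ∧ (5 ≤ n ∨ ¬ Bad q u v w) := by
  classical
  obtain ⟨m, rfl⟩ : ∃ m, n = m + 2 := ⟨n - 2, by omega⟩
  set L : List ((Fin (m + 2) → F) × (Fin (m + 2) → F)) := [(a, c), (c, b), (a, d), (d, b)] with hL
  let ex : (Fin (m + 2) → F) × (Fin (m + 2) → F) → Finset (Fin (m + 2) → F) := fun p =>
    spanIso hF p.1 p.2 ∪ (if 3 ≤ m ∨ H[p.1, p.2] = 0 then ∅ else badSet q p.1 p.2)
  set P := perpIso q a ∪ perpIso q b ∪ (perpIso q c ∪ perpIso q d)
  set X := P ∪ (ex (a, c) ∪ ex (c, b) ∪ (ex (a, d) ∪ ex (d, b)))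
  set Y : Finset (Fin (m + 2) → F) := Finset.univ.filter fun w => H[w, w] = 0
  suffices hlt : X.card < Y.card by
    obtain ⟨w, hwY, hwX⟩ := Finset.exists_mem_notMem_of_card_lt_card hlt
    simp only [Y, Finset.mem_filter, Finset.mem_univ, true_and] at hwY
    simp only [X, P, Finset.mem_union, not_or, perpIso, Finset.mem_filter, Finset.mem_univ, true_and,
      hwY] at hwX
    obtain ⟨⟨⟨wa, wb⟩, wc, wd⟩, ⟨x1, x2⟩, x3, x4⟩ := hwX
    refine ⟨w, fun e => wa (by rw [e, herm_zero_left]), hwY, wa, wb, wc, wd, fun u v huv hne => ?_⟩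
    have key : ∀ u v : Fin (m + 2) → F, H[u, u] = 0 → H[v, v] = 0 → H[u, v] ≠ 0 → H[w, v] ≠ 0 →
        w ∉ ex (u, v) → w ∉ Submodule.span F {u, v} ∧ (5 ≤ m + 2 ∨ ¬ Bad q u v w) := by
      intro u v hu hv hne hwv hx
      simp only [ex, Finset.mem_union, not_or] at hx
      refine ⟨fun h => hx.1 (mem_spanIso hF hu hv hne hwY hwv h), ?_⟩
      by_cases h5 : 3 ≤ m
      · left; omega
      right
      intro hbad
      have := hx.2
      rw [if_neg (by simp [h5, hne])] at this
      exact this (mem_badSet hF hu hv hwY hbad)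
    simp only [hL, List.mem_cons, Prod.mk.injEq, List.not_mem_nil, or_false] at huv
    rcases huv with ⟨rfl, rfl⟩ | ⟨rfl, rfl⟩ | ⟨rfl, rfl⟩ | ⟨rfl, rfl⟩
    · exact key _ _ ha hc hne wc x1
    · exact key _ _ hc hb hne wb x2
    · exact key _ _ ha hd hne wd x3
    · exact key _ _ hd hb hne wb x4
  have hY : Y.card = normCount (m + 2) q (0 : F) := by
    rw [normCount, Nat.card_eq_fintype_card, Fintype.card_subtype]
  have hP : P.card + (perpIso q a ∩ perpIso q b).card + (perpIso q c ∩ perpIso q d).card ≤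
      4 * (q ^ 2 * normCount m q (0 : F)) := by
    refine (four_union_le _ _ _ _).trans ?_
    rw [card_perpIso hF (by omega) ha0 ha, card_perpIso hF (by omega) hb0 hb, card_perpIso hF (by omega) hc0 hc,
      card_perpIso hF (by omega) hd0 hd]
    omega
  have hX : X.card ≤ P.card + ((ex (a, c)).card + (ex (c, b)).card + ((ex (a, d)).card + (ex (d, b)).card)) :=
    (Finset.card_union_le _ _).trans (Nat.add_le_add_left
      ((Finset.card_union_le _ _).trans (Nat.add_le_add (Finset.card_union_le _ _) (Finset.card_union_le _ _))) _)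
  rw [hY]
  by_cases h5 : 3 ≤ m
  · have hex : ∀ p, (ex p).card ≤ (q ^ 2 - 1) * q := fun p => by
      simp only [ex, if_pos (show 3 ≤ m ∨ _ from Or.inl h5), Finset.union_empty]
      exact card_spanIso hF _ _
    have i1 := card_inter_perpIso hF (show 5 ≤ m + 2 by omega) a b
    have i2 := card_inter_perpIso hF (show 5 ≤ m + 2 by omega) c d
    have := count_five hF (F := F) h5
    have := hex (a, c); have := hex (c, b); have := hex (a, d); have := hex (d, b)
    omega
  · obtain rfl : m = 2 := by omega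
    have hex : ∀ p : (Fin 4 → F) × (Fin 4 → F), H[p.1, p.1] = 0 → H[p.2, p.2] = 0 →
        (ex p).card ≤ (q ^ 2 - 1) * q + (q + 1) * normCount 2 q (0 : F) := fun p h1 h2 => by
      refine (Finset.card_union_le _ _).trans (Nat.add_le_add (card_spanIso hF _ _) ?_)
      split_ifs with h
      · simp
      · simp only [not_or] at h
        refine Finset.card_image_le.trans ?_
        rw [Finset.card_product, card_pairIso hF (by omega) h1 h2 h.2]
        exact Nat.mul_le_mul_right _ (card_badCoeff hF h.2)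
    have := count_four hF (F := F) (by omega)
    have := hex (a, c) ha hc; have := hex (c, b) hc hb; have := hex (a, d) ha hd; have := hex (d, b) hd hb
    show X.card < normCount 4 q (0 : F)
    omega

end CfsgLib.SchurClassical.Un
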