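import Mathlib
import Cfsg.Agent.Classical.Unitary.Simple
import Cfsg.Agent.SchurClassical.UnitRadical

/-!
`SU_n(q)` and its stabilisers of one or two isotropic vectors are generated by `p`-elements.
-/

set_option autoImplicit false

namespace CfsgLib.SchurClassical.Un

open Matrix CfsgLib.Unitary CfsgLib.AutPSU CfsgLib.AutPSU.Frame

universe u

variable {F : Type u} [Field F] [Fintype F] {n m q : ℕ} (hF : Fintype.card F = q ^ 2)
  (p : ℕ) [Fact p.Prime] [CharP F p]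

/-- The `p`-elements fixing two vectors. -/
def fixP (x y : Fin n → F) : Set ↥(Cfsg.SU n F q) :=
  {g | g ∈ pElts p ↥(Cfsg.SU n F q) ∧ sv g x = x ∧ sv g y = y}

omit [Fact p.Prime] in
theorem transvSU_mem_pElts {v : Fin n → F} {c : F} (hv : Cfsg.hermForm n F q v v = 0) (hc : c + c ^ q = 0) :
    transvSU hF v c hv hc ∈ pElts p ↥(Cfsg.SU n F q) := by
  have hk : ∀ k : ℕ, ∃ hk : (k : F) * c + ((k : F) * c) ^ q = 0,
      transvSU hF v c hv hc ^ k = transvSU hF v ((k : F) * c) hv hk := by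
    intro k
    induction k with
    | zero =>
      refine ⟨by simp [zero_pow_q hF], ?_⟩
      rw [pow_zero, transvSU_eq_one hF hv _ (Or.inl (by simp))]
    | succ k ih =>
      obtain ⟨hk, e⟩ := ih
      have h' : (k : F) * c + c + ((k : F) * c + c) ^ q = 0 := by
        rw [add_pow_q hF]; linear_combination hk + hc
      have h'' : ((k + 1 : ℕ) : F) * c + (((k + 1 : ℕ) : F) * c) ^ q = 0 := by
        rw [Nat.cast_succ, add_mul, one_mul]; exact h'
      exact ⟨h'', by rw [pow_succ, e, transvSU_mul hF hv hk hc h', transvSU_congr hF hv h' hv h'' fun x => by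
        rw [Nat.cast_succ, add_mul (k : F) 1 c, one_mul]]⟩
  obtain ⟨hp, e⟩ := hk p
  exact ⟨1, by rw [pow_one, e, transvSU_eq_one hF hv _ (Or.inl (by rw [CharP.cast_eq_zero, zero_mul]))]⟩

include hF in
theorem qAt_mem_pElts (T : Frame F m q) {g : ↥(Cfsg.SU (m + 2) F q)} (hg : g ∈ qAt T.e) :
    g ∈ pElts p ↥(Cfsg.SU (m + 2) F q) :=
  ⟨2, T.pow_qsub hF p (by rw [qsub_eq_qAt hF T]; exact hg)⟩

omit [Fintype F] [Fact p.Prime] [CharP F p] in
theorem map_mem_pElts {G H : Type*} [Group G] [Group H] (f : G →* H) {g : G} (hg : g ∈ pElts p G) :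
    f g ∈ pElts p H := by
  obtain ⟨k, hk⟩ := hg
  exact ⟨k, by rw [← map_pow, hk, map_one]⟩

include hF in
theorem stab_frame_le (T : Frame F m q) (hgen : Subgroup.closure (pElts p ↥(Cfsg.SU m F q)) = ⊤)
    {s : ↥(Cfsg.SU (m + 2) F q)} (hs : sv s T.e = T.e) : s ∈ Subgroup.closure (fixP p T.e T.e) := by
  obtain ⟨h, hh, g, hg⟩ := exists_decomp hF T hs
  rw [show s = h * emb hF T g by rw [← hg, mul_inv_cancel_left]]
  refine Subgroup.mul_mem _ (Subgroup.subset_closure ⟨qAt_mem_pElts hF p T hh, hh.1, hh.1⟩) ?_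
  have hle : (⊤ : Subgroup ↥(Cfsg.SU m F q)) ≤ (Subgroup.closure (fixP p T.e T.e)).comap (emb hF T) :=
    hgen ▸ (Subgroup.closure_le _).2 fun a ha =>
      Subgroup.subset_closure ⟨map_mem_pElts p _ ha, emb_e hF T a, emb_e hF T a⟩
  exact hle (Subgroup.mem_top g)

include hF in
theorem pair_frame_le (T : Frame F m q) (hgen : Subgroup.closure (pElts p ↥(Cfsg.SU m F q)) = ⊤)
    {s : ↥(Cfsg.SU (m + 2) F q)} (hs : sv s T.e = T.e) (hsf : sv s T.f = T.f) :
    s ∈ Subgroup.closure (fixP p T.e T.f) := by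
  obtain ⟨h, hh, g, hg⟩ := exists_decomp hF T hs
  have e : s = h * emb hF T g := by rw [← hg, mul_inv_cancel_left]
  have h1 : h = 1 := by
    refine eq_one_of_mem_qAt hF T hh ?_
    rw [e, sv_mul, emb_f hF T] at hsf
    exact hsf
  rw [e, h1, one_mul]
  have hle : (⊤ : Subgroup ↥(Cfsg.SU m F q)) ≤ (Subgroup.closure (fixP p T.e T.f)).comap (emb hF T) :=
    hgen ▸ (Subgroup.closure_le _).2 fun a ha =>
      Subgroup.subset_closure ⟨map_mem_pElts p _ ha, emb_e hF T a, emb_f hF T a⟩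
  exact hle (Subgroup.mem_top g)

omit [Fintype F] [Fact p.Prime] [CharP F p] in
/-- Moving fixed points. -/
theorem conj_mem_closure_fixP {x y x' y' : Fin n → F} {A g : ↥(Cfsg.SU n F q)} (hx : sv A x = x')
    (hy : sv A y = y') (hg : g ∈ Subgroup.closure (fixP p x y)) :
    A * g * A⁻¹ ∈ Subgroup.closure (fixP p x' y') := by
  refine (Subgroup.closure_le ((Subgroup.closure (fixP p x' y')).comap (MulAut.conj A).toMonoidHom)).2
    (fun a ha => Subgroup.subset_closure ?_) hg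
  refine ⟨conj_mem_pElts ha.1 A, ?_, ?_⟩
  · show sv (A * a * A⁻¹) x' = x'
    rw [← hx, sv_mul, sv_mul, sv_inv_sv, ha.2.1]
  · show sv (A * a * A⁻¹) y' = y'
    rw [← hy, sv_mul, sv_mul, sv_inv_sv, ha.2.2]

/-- `SU_3(2)` is generated by its `2`-elements. -/
theorem closure_pElts_three (hF : Fintype.card F = q ^ 2)
    (hgen : Subgroup.closure (pElts p ↥(Cfsg.SU 1 F q)) = ⊤) :
    Subgroup.closure (pElts p ↥(Cfsg.SU 3 F q)) = ⊤ := by
  set N := Subgroup.closure (pElts p ↥(Cfsg.SU 3 F q))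
  obtain ⟨T⟩ := exists_frame (m := 1) hF
  have hstab : ∀ {v : Fin 3 → F}, v ≠ 0 → Cfsg.hermForm 3 F q v v = 0 →
      ∀ s : ↥(Cfsg.SU 3 F q), sv s v = v → s ∈ N := by
    intro v hv0 hv s hs
    obtain ⟨A, hA⟩ := exists_SU_map_isotropic hF le_rfl (T.e_ne_zero hF) hv0 T.he hv
    have h1 : sv (A⁻¹ * s * A) T.e = T.e := by rw [sv_mul, sv_mul, hA, hs, ← hA, sv_inv_sv]
    have h2 := conj_mem_closure_fixP p hA hA (stab_frame_le hF p T hgen h1)
    rw [show A * (A⁻¹ * s * A) * A⁻¹ = s by group] at h2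
    exact Subgroup.closure_mono (fun a ha => ha.1) h2
  have hmove : ∀ {x y : Fin 3 → F}, x ≠ 0 → y ≠ 0 → Cfsg.hermForm 3 F q x x = 0 →
      Cfsg.hermForm 3 F q y y = 0 → Cfsg.hermForm 3 F q x y ≠ 0 → ∃ g ∈ N, sv g x = y := by
    intro x y hx0 hy0 hx hy hxy
    obtain ⟨f, hf, hxf, hyf⟩ := exists_isotropic_prescribed hF le_rfl hx hy hxy 1
    obtain ⟨A, hA1, hA2⟩ := exists_SU_map_hyperbolic hF le_rfl hx hf hxf hy hf hyf
    exact ⟨A, hstab (fun h => by rw [h, herm_zero_right hF] at hxf; exact zero_ne_one hxf) hf A hA2, hA1⟩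
  refine eq_top_iff.2 fun s _ => ?_
  set y := sv s T.e
  have he0 := T.e_ne_zero hF
  have hy : Cfsg.hermForm 3 F q y y = 0 := by rw [sv_herm, T.he]
  have hy0 : y ≠ 0 := fun h => he0 (by rw [← sv_inv_sv s T.e, show sv s T.e = 0 from h]; exact Matrix.mulVec_zero _)
  obtain ⟨z, hz, hez, hyz⟩ := exists_isotropic_not_perp hF he0 hy0 T.he hy
  have hz0 : z ≠ 0 := fun h => hez (by rw [h, herm_zero_right hF])
  obtain ⟨a, ha, ea⟩ := hmove he0 hz0 T.he hz hez
  obtain ⟨b, hb, eb⟩ := hmove hy0 hz0 hy hz hyz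
  have h3 : a⁻¹ * b * s ∈ N := hstab he0 T.he _ (by
    rw [sv_mul, sv_mul, show sv s T.e = y from rfl, eb, ← ea, sv_inv_sv])
  have h4 := N.mul_mem (N.mul_mem (N.inv_mem hb) ha) h3
  rwa [show b⁻¹ * a * (a⁻¹ * b * s) = s by group] at h4

omit [Fintype F] [Fact p.Prime] [CharP F p] in
theorem subsingleton_SU_le_one (hn : n ≤ 1) : Subsingleton ↥(Cfsg.SU n F q) := by
  refine ⟨fun a b => Subtype.ext (Subtype.ext (Matrix.ext fun i j => ?_))⟩
  obtain rfl : n = 1 := by have := i.isLt; omega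
  have ha : Matrix.det ((a : Matrix.SpecialLinearGroup (Fin 1) F) : Matrix (Fin 1) (Fin 1) F) = 1 := a.1.2
  have hb : Matrix.det ((b : Matrix.SpecialLinearGroup (Fin 1) F) : Matrix (Fin 1) (Fin 1) F) = 1 := b.1.2
  rw [Matrix.det_fin_one] at ha hb
  rw [Subsingleton.elim i 0, Subsingleton.elim j 0, ha, hb]

include hF in
theorem closure_pElts_SU (n : ℕ) : Subgroup.closure (pElts p ↥(Cfsg.SU n F q)) = ⊤ := by
  by_cases h : n = 3 ∧ q = 2
  · obtain ⟨rfl, -⟩ := h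
    refine closure_pElts_three p hF (eq_top_iff.2 fun g _ => ?_)
    haveI := subsingleton_SU_le_one (F := F) (n := 1) (q := q) le_rfl
    rw [Subsingleton.elim g 1]
    exact Subgroup.one_mem _
  refine eq_top_iff.2 ((transvGroup_eq_top hF h).ge.trans (Subgroup.closure_mono ?_))
  rintro A ⟨v, c, hv, hA⟩
  obtain ⟨c', hc', rfl, -⟩ := eq_transvSU_of_matrix_eq hF hv hA
  exact transvSU_mem_pElts hF p hv hc'

include hF in
/-- The stabiliser of an isotropic vector. -/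
theorem stab_le (hn : 3 ≤ n) {x : Fin n → F} (hx0 : x ≠ 0) (hx : Cfsg.hermForm n F q x x = 0)
    {s : ↥(Cfsg.SU n F q)} (hs : sv s x = x) : s ∈ Subgroup.closure (fixP p x x) := by
  obtain ⟨m, rfl⟩ : ∃ m, n = m + 2 := ⟨n - 2, by omega⟩
  obtain ⟨T⟩ := exists_frame (m := m) hF
  obtain ⟨A, hA⟩ := exists_SU_map_isotropic hF hn (T.e_ne_zero hF) hx0 T.he hx
  have h2 := conj_mem_closure_fixP p hA hA (stab_frame_le hF p T (closure_pElts_SU hF p m)
    (s := A⁻¹ * s * A) (by rw [sv_mul, sv_mul, hA, hs, ← hA, sv_inv_sv]))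
  rwa [show A * (A⁻¹ * s * A) * A⁻¹ = s by group] at h2

include hF in
/-- The pointwise stabiliser of two non-orthogonal isotropic vectors. -/
theorem pair_le (hn : 3 ≤ n) {x y : Fin n → F} (hx : Cfsg.hermForm n F q x x = 0)
    (hy : Cfsg.hermForm n F q y y = 0) (hxy : Cfsg.hermForm n F q x y ≠ 0)
    {s : ↥(Cfsg.SU n F q)} (hs : sv s x = x) (hs' : sv s y = y) :
    s ∈ Subgroup.closure (fixP p x y) := by
  obtain ⟨m, rfl⟩ : ∃ m, n = m + 2 := ⟨n - 2, by omega⟩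
  obtain ⟨T⟩ := exists_frame (m := m) hF
  set c := (Cfsg.hermForm (m + 2) F q x y)⁻¹
  obtain ⟨A, hAe, hAf⟩ := exists_SU_map_hyperbolic hF hn T.he T.hf T.hef (e' := c • x) (f' := y)
    (by rw [herm_smul_left, herm_smul_right, hx, mul_zero, mul_zero]) hy
    (by rw [herm_smul_left, inv_mul_cancel₀ hxy])
  have h1 : sv (A⁻¹ * s * A) T.e = T.e := by
    rw [sv_mul, sv_mul, hAe, sv_smul s, hs, ← hAe, sv_inv_sv]
  have h1' : sv (A⁻¹ * s * A) T.f = T.f := by
    rw [sv_mul, sv_mul, hAf, hs', ← hAf, sv_inv_sv]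
  have h2 := conj_mem_closure_fixP p hAe hAf
    (pair_frame_le hF p T (closure_pElts_SU hF p m) h1 h1')
  rw [show A * (A⁻¹ * s * A) * A⁻¹ = s by group] at h2
  refine Subgroup.closure_mono ?_ h2
  rintro a ⟨ha, hax, hay⟩
  refine ⟨ha, ?_, hay⟩
  rw [sv_smul] at hax
  exact smul_right_injective _ (inv_ne_zero hxy) hax

end CfsgLib.SchurClassical.Un
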