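import Mathlib
import Cfsg.Agent.SchurClassical.UnitGen
import Cfsg.Agent.SchurClassical.UnitCount

/-!
The geometry of charts on the isotropic vectors of a unitary space of dimension at least five, or four
with `q ≥ 3`, and the descent of the `r`-part of the multiplier from `SU_n` to `SU_{n-2}`.
-/

set_option autoImplicit false

namespace CfsgLib.SchurClassical.Un

open Matrix CfsgLib.Unitary CfsgLib.AutPSU CfsgLib.AutPSU.Frame

universe u

/-- The non-zero isotropic vectors. -/
def UVec (n : ℕ) (F : Type u) [Field F] (q : ℕ) : Type u :=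
  {v : Fin n → F // v ≠ 0 ∧ Cfsg.hermForm n F q v v = 0}

variable {F : Type u} [Field F] {n m q : ℕ}

instance : MulAction ↥(Cfsg.SU n F q) (UVec n F q) where
  smul g x := ⟨sv g x.1, fun h => x.2.1 (by rw [← sv_inv_sv g x.1, h]; exact Matrix.mulVec_zero _),
    by rw [sv_herm]; exact x.2.2⟩
  one_smul x := Subtype.ext (sv_one x.1)
  mul_smul g h x := Subtype.ext (sv_mul g h x.1)

theorem coe_smul (g : ↥(Cfsg.SU n F q)) (x : UVec n F q) : (g • x).1 = sv g x.1 := rfl

theorem smul_eq_iff_sv {g : ↥(Cfsg.SU n F q)} {x y : UVec n F q} : g • x = y ↔ sv g x.1 = y.1 :=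
  Subtype.ext_iff

variable [Fintype F] (hF : Fintype.card F = q ^ 2)

local notation "H[" u "," v "]" => Cfsg.hermForm _ F q u v

include hF in
theorem herm_ne_zero_comm {u v : Fin n → F} (h : H[u, v] ≠ 0) : H[v, u] ≠ 0 :=
  fun e => h (herm_eq_zero_comm hF e)

include hF in
/-- A coset of a subspace with an anisotropic vector contains an isotropic vector. -/
theorem exists_iso_add {e : Fin n → F} (he : H[e, e] ≠ 0) (f : Fin n → F) :
    ∃ t : F, H[f + t • e, f + t • e] = 0 := by
  set f1 := f - (H[f, e] / H[e, e]) • e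
  have h1 : H[f1, e] = 0 := by
    simp only [f1, herm_sub_left, herm_smul_left, div_mul_cancel₀ _ he, sub_self]
  obtain ⟨s, hs⟩ := exists_norm_eq hF (a := -H[f1, f1] / H[e, e])
    (by rw [div_pow, neg_pow_q hF, herm_self_fixed hF, herm_self_fixed hF])
  refine ⟨s - H[f, e] / H[e, e], ?_⟩
  rw [show f + (s - H[f, e] / H[e, e]) • e = f1 + s • e by simp only [f1]; module]
  simp only [herm_add_left, herm_add_right hF, herm_smul_left, herm_smul_right, h1,
    herm_eq_zero_comm hF h1, mul_zero, add_zero, zero_add]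
  rw [← mul_assoc, ← pow_succ, hs, div_mul_cancel₀ _ he]
  ring

include hF in
/-- Prescribed products with an independent family. -/
theorem exists_prescribed {k : ℕ} {v : Fin k → Fin n → F} (hv : LinearIndependent F v) (c : Fin k → F) :
    ∃ f : Fin n → F, ∀ i, H[f, v i] = c i := by
  let L : (Fin n → F) →ₗ[F] (Fin k → F) := LinearMap.pi fun i => hermLeft q (v i)
  have hker : L.ker = perp q (Submodule.span F (Set.range v)) := by
    ext x
    rw [LinearMap.mem_ker]
    refine ⟨fun h y hy => ?_, fun h => funext fun i => h _ (Submodule.subset_span ⟨i, rfl⟩)⟩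
    induction hy using Submodule.span_induction with
    | mem y hy => obtain ⟨i, rfl⟩ := hy; exact congrFun h i
    | zero => exact herm_zero_right hF x
    | add a b _ _ ha hb => rw [herm_add_right hF, ha, hb, add_zero]
    | smul t a _ ha => rw [herm_smul_right, ha, mul_zero]
  have h1 := L.finrank_range_add_finrank_ker
  have h2 := finrank_perp_add hF (Submodule.span F (Set.range v))
  have h3 : Module.finrank F (Submodule.span F (Set.range v)) = k := by
    rw [finrank_span_eq_card hv, Fintype.card_fin]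
  rw [hker, Module.finrank_fintype_fun_eq_card, Fintype.card_fin] at h1
  have h4 : LinearMap.range L = ⊤ := Submodule.eq_top_of_finrank_eq (by
    rw [Module.finrank_fintype_fun_eq_card, Fintype.card_fin]; omega)
  obtain ⟨f, hf⟩ := LinearMap.range_eq_top.1 h4 c
  exact ⟨f, fun i => congrFun hf i⟩

include hF in
/-- A common partner of three vectors. -/
theorem exists_chart3 (hn : 4 ≤ n) {u v w : Fin n → F} (hu : H[u, u] = 0) (hv : H[v, v] = 0)
    (hw : H[w, w] = 0) (huv : H[u, v] ≠ 0) (hsp : w ∉ Submodule.span F {u, v})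
    (hgood : 5 ≤ n ∨ ¬ Bad q u v w) :
    ∃ f, f ≠ 0 ∧ H[f, f] = 0 ∧ H[u, f] = 1 ∧ H[v, f] = 1 ∧ H[w, f] = 1 := by
  classical
  have hvu := herm_ne_zero_comm hF huv
  have hli : LinearIndependent F ![u, v, w] := by
    rw [Fintype.linearIndependent_iff]
    intro g hg
    simp only [Fin.sum_univ_three, Matrix.cons_val_zero, Matrix.cons_val_one, Matrix.cons_val] at hg
    have h2 : g 2 = 0 := by
      by_contra h
      refine hsp (Submodule.mem_span_pair.2 ⟨-g 0 / g 2, -g 1 / g 2, ?_⟩)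
      linear_combination (norm := match_scalars <;> field_simp <;> ring) (-(g 2)⁻¹) • hg
    have h0 : g 0 = 0 := by
      have h := congrArg (fun x => H[x, v]) hg
      simpa [herm_add_left, herm_smul_left, herm_zero_left, hv, h2, huv] using h
    have h1 : g 1 = 0 := by
      have h := congrArg (fun x => H[x, u]) hg
      simpa [herm_add_left, herm_smul_left, herm_zero_left, hu, h2, hvu] using h
    intro i; fin_cases i <;> assumption
  obtain ⟨f0, hf0⟩ := exists_prescribed hF hli (fun _ => (1 : F))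
  have hu0 : H[f0, u] = 1 := hf0 0
  have hv0 : H[f0, v] = 1 := hf0 1
  have hw0 : H[f0, w] = 1 := hf0 2
  set U := Submodule.span F (Set.range ![u, v, w])
  have hU : Module.finrank F U = 3 := by rw [finrank_span_eq_card hli, Fintype.card_fin]
  have hperp := finrank_perp_add hF U
  have huU : u ∈ U := Submodule.subset_span ⟨0, rfl⟩
  have hvU : v ∈ U := Submodule.subset_span ⟨1, rfl⟩
  have hwU : w ∈ U := Submodule.subset_span ⟨2, rfl⟩
  suffices h : ∃ d ∈ perp q U, H[f0 + d, f0 + d] = 0 by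
    obtain ⟨d, hd, h0⟩ := h
    have e : ∀ x, x ∈ U → H[f0, x] = 1 → H[x, f0 + d] = 1 := fun x hx h1 => by
      rw [herm_conj hF (f0 + d) x, herm_add_left, h1, hd x hx, add_zero, one_pow]
    refine ⟨f0 + d, fun hz => ?_, h0, e u huU hu0, e v hvU hv0, e w hwU hw0⟩
    have := e u huU hu0
    rw [hz, herm_zero_right hF] at this
    exact zero_ne_one this
  by_cases han : ∃ d ∈ perp q U, H[d, d] ≠ 0
  · obtain ⟨d, hd, hdd⟩ := han
    obtain ⟨t, ht⟩ := exists_iso_add hF hdd f0
    exact ⟨t • d, Submodule.smul_mem _ _ hd, ht⟩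
  push Not at han
  have hle : perp q U ≤ U := fun x hx => by
    rw [← perp_perp hF U]
    intro y hy
    exact herm_eq_zero_of_forall_self hF han y hy x hx |> herm_eq_zero_comm hF
  have hco : ∀ x ∈ U, ∃ a b c : F, x = a • u + b • v + c • w := fun x hx => by
    obtain ⟨g, hg⟩ := (Submodule.mem_span_range_iff_exists_fun F).1 hx
    exact ⟨g 0, g 1, g 2, by rw [← hg, Fin.sum_univ_three]; rfl⟩
  obtain ⟨r, hr, hr0⟩ : ∃ r ∈ perp q U, r ≠ 0 := Submodule.exists_mem_ne_zero_of_ne_bot fun h => by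
    rw [h, finrank_bot] at hperp; omega
  obtain ⟨a, b, c, e⟩ := hco r (hle hr)
  have hru : H[r, u] = 0 := hr u huU
  have hrv : H[r, v] = 0 := hr v hvU
  have hc : c ≠ 0 := by
    rintro rfl
    rw [zero_smul, add_zero] at e
    have ha : a = 0 := by
      have h := hrv
      rw [e, herm_add_left, herm_smul_left, herm_smul_left, hv, mul_zero, add_zero] at h
      exact (mul_eq_zero.1 h).resolve_right huv
    have hb : b = 0 := by
      have h := hru
      rw [e, herm_add_left, herm_smul_left, herm_smul_left, hu, mul_zero, zero_add] at h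
      exact (mul_eq_zero.1 h).resolve_right hvu
    exact hr0 (by rw [e, ha, hb, zero_smul, zero_smul, add_zero])
  by_cases h0 : H[f0, r] = 0
  swap
  · obtain ⟨s, hs⟩ := exists_trace_eq hF (a := -H[f0, f0]) (by rw [neg_pow_q hF, herm_self_fixed hF])
    refine ⟨(s / H[f0, r]) ^ q • r, Submodule.smul_mem _ _ hr, ?_⟩
    simp only [herm_add_left, herm_add_right hF, herm_smul_left, herm_smul_right, han r hr, pow_q_q hF,
      mul_zero, add_zero, herm_conj hF f0 r]
    rw [div_mul_cancel₀ _ h0, div_pow, div_mul_cancel₀ _ (pow_ne_zero _ h0)]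
    linear_combination hs
  rcases hgood with h5 | hbad
  · exfalso
    have hone : ∀ x ∈ perp q U, ∃ t : F, x = t • r := by
      intro x hx
      obtain ⟨a', b', c', e'⟩ := hco x (hle hx)
      refine ⟨c' / c, ?_⟩
      set y := x - (c' / c) • r
      have hy : y = (a' - c' / c * a) • u + (b' - c' / c * b) • v := by
        rw [show y = x - (c' / c) • r from rfl, e', e]
        match_scalars <;> field_simp <;> ring
      have hyu : H[y, u] = 0 := by
        rw [show y = x - (c' / c) • r from rfl, herm_sub_left, herm_smul_left, hx u huU, hru, mul_zero, sub_zero]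
      have hyv : H[y, v] = 0 := by
        rw [show y = x - (c' / c) • r from rfl, herm_sub_left, herm_smul_left, hx v hvU, hrv, mul_zero, sub_zero]
      rw [hy, herm_add_left, herm_smul_left, herm_smul_left, hu, mul_zero, zero_add] at hyu
      rw [hy, herm_add_left, herm_smul_left, herm_smul_left, hv, mul_zero, add_zero] at hyv
      refine sub_eq_zero.1 ?_
      rw [show x - (c' / c) • r = y from rfl, hy, (mul_eq_zero.1 hyu).resolve_right hvu,
        (mul_eq_zero.1 hyv).resolve_right huv, zero_smul, zero_smul, add_zero]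
    have hle' : perp q U ≤ Submodule.span F {r} := fun x hx => by
      obtain ⟨t, rfl⟩ := hone x hx
      exact Submodule.smul_mem _ _ (Submodule.mem_span_singleton_self r)
    have h7 := Submodule.finrank_mono hle'
    rw [finrank_span_singleton hr0] at h7
    omega
  · exfalso
    set a' := -a / c
    set r' := c⁻¹ • r
    have hw' : w = a' • u + (-b / c) • v + r' := by
      simp only [a', r', e]
      match_scalars <;> field_simp <;> ring
    have hf0r : H[r', f0] = 0 := by
      rw [herm_smul_left, herm_eq_zero_comm hF h0, mul_zero]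
    have hsum : -b / c = 1 - a' := by
      have h := congrArg (fun x => H[x, f0]) hw'
      simp only [herm_add_left, herm_smul_left, hf0r, herm_conj hF f0 u, herm_conj hF f0 v, herm_conj hF f0 w,
        hu0, hv0, hw0, one_pow, mul_one, add_zero] at h
      linear_combination -h
    refine hbad ⟨a', r', by rw [← hsum]; exact hw', by rw [herm_smul_left, hru, mul_zero],
      by rw [herm_smul_left, hrv, mul_zero], ?_⟩
    rw [herm_smul_left, herm_smul_right, han r hr, mul_zero, mul_zero]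

variable (p : ℕ) [Fact p.Prime] [CharP F p]

include hF in
/-- Two charts with anisotropic difference have a common mover. -/
theorem exists_move_pair (hn : 4 ≤ n) {a b x y : Fin n → F} (ha : H[a, a] = 0) (hb : H[b, b] = 0)
    (hab : H[a - b, a - b] ≠ 0) (hx : H[x, x] = 0) (hy : H[y, y] = 0) (hxa : H[x, a] = 1) (hxb : H[x, b] = 1)
    (hya : H[y, a] = 1) (hyb : H[y, b] = 1) :
    ∃ g ∈ Subgroup.closure (fixP (q := q) p a b), sv g x = y := by
  obtain ⟨m, rfl⟩ : ∃ m, n = m + 2 := ⟨n - 2, by omega⟩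
  obtain ⟨T⟩ := exists_frame (m := m) hF
  have htr : H[a, b] + H[a, b] ^ q ≠ 0 := by
    simp only [herm_sub_left, herm_sub_right hF, ha, hb, herm_conj hF a b] at hab
    intro e; exact hab (by linear_combination -e)
  have hne : H[a, b] ≠ 0 := fun e => htr (by rw [e, zero_pow_q hF, add_zero])
  set c := (H[a, b])⁻¹ with hc
  obtain ⟨A, hAe, hAf⟩ := exists_SU_map_hyperbolic hF (by omega) T.he T.hf T.hef (e' := c • a) (f' := b)
    (by rw [herm_smul_left, herm_smul_right, ha, mul_zero, mul_zero]) hb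
    (by rw [herm_smul_left, hc, inv_mul_cancel₀ hne])
  have hcs : c + c ^ q ≠ 0 := by
    intro e
    apply htr
    rw [hc, inv_pow_q] at e
    have := hne
    have := pow_ne_zero q hne
    field_simp at e
    linear_combination e
  have hcoord : ∀ z : Fin (m + 2) → F, H[z, z] = 0 → H[z, a] = 1 → H[z, b] = 1 →
      sv A⁻¹ z = T.e + c ^ q • T.f + eta (proj (sv A⁻¹ z)) ∧
        Cfsg.hermForm m F q (proj (sv A⁻¹ z)) (proj (sv A⁻¹ z)) = -(c + c ^ q) := by
    intro z hz hza hzb
    set z' := sv A⁻¹ z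
    have hz' : sv A z' = z := sv_sv_inv A z
    have h1 : H[z', T.e] = c ^ q := by rw [← sv_herm A, hz', hAe, herm_smul_right, hza, mul_one]
    have h2 : H[z', T.f] = 1 := by rw [← sv_herm A, hz', hAf, hzb]
    have e : z' = T.e + c ^ q • T.f + eta (proj z') := by
      conv_lhs => rw [T.decomp hF z', h1, h2, one_smul]
    refine ⟨e, ?_⟩
    have h3 : H[z', z'] = 0 := by rw [← sv_herm A, hz', hz]
    rw [e] at h3
    simp only [herm_add_left, herm_add_right hF, herm_smul_left, herm_smul_right, T.he, T.hf, T.hef, T.hfe hF,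
      T.ew, T.fw, T.we hF, T.wf hF, herm_eta hF, pow_q_q hF, mul_zero, add_zero, zero_add, mul_one] at h3
    linear_combination h3
  obtain ⟨ex, hwx⟩ := hcoord x hx hxa hxb
  obtain ⟨ey, hwy⟩ := hcoord y hy hya hyb
  set wx := proj (sv A⁻¹ x)
  set wy := proj (sv A⁻¹ y)
  obtain ⟨k, hk⟩ := exists_norm_eq hF (a := -(c + c ^ q)) (by rw [neg_pow_q hF, trace_pow_q hF])
  have hk0 : k ≠ 0 := by
    rintro rfl
    rw [zero_pow (Nat.succ_ne_zero q)] at hk
    exact hcs (neg_eq_zero.1 hk.symm)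
  have hon : ∀ w : Fin m → F, Cfsg.hermForm m F q w w = -(c + c ^ q) → Orthonorm q ![k⁻¹ • w] := by
    intro w hw i j
    rw [Subsingleton.elim i 0, Subsingleton.elim j 0, if_pos rfl]
    simp only [Matrix.cons_val_zero, herm_smul_left, herm_smul_right, hw, ← mul_assoc, ← pow_succ',
      inv_pow, hk, inv_mul_cancel₀ (neg_ne_zero.2 hcs)]
    rw [← mul_inv, ← pow_succ, hk, inv_mul_cancel₀ (neg_ne_zero.2 hcs)]
  obtain ⟨g, hg⟩ := exists_SU_map_orthonorm hF (hon wx hwx) (hon wy hwy) (by omega)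
  have hgw : sv g wx = wy := by
    have h := hg 0
    simp only [Matrix.cons_val_zero, sv_smul] at h
    exact smul_right_injective _ (inv_ne_zero hk0) h
  refine ⟨A * emb hF T g * A⁻¹, pair_le hF p (by omega) ha hb hne ?_ ?_, ?_⟩
  · have : sv (A * emb hF T g * A⁻¹) (c • a) = c • a := by
      rw [← hAe, sv_mul, sv_mul, sv_inv_sv, emb_e hF T]
    rw [sv_smul] at this
    exact smul_right_injective _ (inv_ne_zero hne) this
  · rw [← hAf, sv_mul, sv_mul, sv_inv_sv, emb_f hF T]
  · simp only [sv_mul, ex, sv_add, sv_smul, emb_e hF T, emb_f hF T, emb_eta hF T, hgw]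
    simp only [← sv_smul, ← sv_add, ← ey, sv_sv_inv]

include hF in
theorem exists_not_fixed_of_norm {s : F} (hs : s ^ q = s) (hs0 : s ≠ 0) :
    ∃ ν : F, ν ^ (q + 1) = s ∧ ν ^ q ≠ ν := by
  classical
  by_contra hcon
  push Not at hcon
  obtain ⟨x, hx⟩ := exists_norm_eq hF hs
  have hx0 : x ≠ 0 := fun h => hs0 (by rw [← hx, h, zero_pow (Nat.succ_ne_zero q)])
  obtain ⟨t, ht, ht2⟩ := exists_norm_one_ne_inv hF
  have h1 := hcon x hx
  have h2 := hcon (t * x) (by rw [mul_pow, ht, hx, one_mul])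
  rw [mul_pow, h1] at h2
  have h3 : t ^ q = t := mul_right_cancel₀ hx0 h2
  rw [pow_succ, h3, ← sq] at ht
  exact ht2 ht

include hF in
/-- An intermediate chart. -/
theorem exists_between (hn : 4 ≤ n) (hnq : 5 ≤ n ∨ 3 ≤ q) {x y f f' : Fin n → F} (hx : H[x, x] = 0)
    (hy : H[y, y] = 0) (hf : H[f, f] = 0) (hf' : H[f', f'] = 0) (htr : H[x, y] + H[x, y] ^ q ≠ 0)
    (hxf : H[x, f] = 1) (hyf : H[y, f] = 1) (hxf' : H[x, f'] = 1) (hyf' : H[y, f'] = 1)
    (hiso : H[f - f', f - f'] = 0) :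
    ∃ f'', H[f'', f''] = 0 ∧ H[x, f''] = 1 ∧ H[y, f''] = 1 ∧ H[f - f'', f - f''] ≠ 0 ∧
      H[f'' - f', f'' - f'] ≠ 0 := by
  classical
  set h := H[x, y]
  have hh : h ≠ 0 := fun e => htr (by rw [e, zero_pow_q hF, add_zero])
  have hyx : H[y, x] = h ^ q := herm_conj hF x y
  set P := h⁻¹ • x + (h ^ q)⁻¹ • y with hP
  have hPx : H[P, x] = 1 := by
    simp [P, herm_add_left, herm_smul_left, hx, hyx, inv_mul_cancel₀ (pow_ne_zero q hh)]
  have hPy : H[P, y] = 1 := by simp [P, herm_add_left, herm_smul_left, hy, h, inv_mul_cancel₀ hh]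
  set s := -H[P, P] with hs
  have hs0 : s ≠ 0 := by
    have e : H[P, P] = h⁻¹ + (h⁻¹) ^ q := by
      conv_lhs => arg 4; rw [hP]
      rw [herm_add_right hF, herm_smul_right, herm_smul_right, hPx, hPy, inv_pow_q, inv_pow_q, pow_q_q hF,
        mul_one, mul_one, add_comm]
    rw [hs, neg_ne_zero, e, inv_pow_q]
    intro e'
    apply htr
    have := pow_ne_zero q hh
    field_simp at e'
    linear_combination e'
  have hsq : s ^ q = s := by rw [hs, neg_pow_q hF, herm_self_fixed hF]
  have hd : ∀ g, H[g, g] = 0 → H[x, g] = 1 → H[y, g] = 1 →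
      H[g - P, x] = 0 ∧ H[g - P, y] = 0 ∧ H[g - P, g - P] = s := by
    intro g hg hgx hgy
    have h1 : H[g - P, x] = 0 := by rw [herm_sub_left, hPx, herm_conj hF x g, hgx, one_pow, sub_self]
    have h2 : H[g - P, y] = 0 := by rw [herm_sub_left, hPy, herm_conj hF y g, hgy, one_pow, sub_self]
    have h3 : H[g - P, P] = 0 := by
      rw [hP, herm_add_right hF, herm_smul_right, herm_smul_right, ← hP, h1, h2, mul_zero, mul_zero, add_zero]
    refine ⟨h1, h2, ?_⟩
    have e : g = (g - P) + P := by abel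
    rw [e] at hg
    simp only [herm_add_left, herm_add_right hF, h3, herm_eq_zero_comm hF h3, add_zero, zero_add] at hg
    rw [hs]; linear_combination hg
  set d := f - P
  set d' := f' - P
  obtain ⟨dx, dy, ds⟩ : H[d, x] = 0 ∧ H[d, y] = 0 ∧ H[d, d] = s := hd f hf hxf hyf
  obtain ⟨dx', dy', ds'⟩ : H[d', x] = 0 ∧ H[d', y] = 0 ∧ H[d', d'] = s := hd f' hf' hxf' hyf'
  set a := H[d, d']
  have ha : H[d', d] = a ^ q := herm_conj hF d d'
  have htra : a + a ^ q = s + s := by
    have e : f - f' = d - d' := by simp [d, d']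
    rw [e] at hiso
    simp only [herm_sub_left, herm_sub_right hF, ds, ds', ha] at hiso
    linear_combination -hiso
  suffices H : ∃ k : Fin n → F, H[k, x] = 0 ∧ H[k, y] = 0 ∧ H[k, k] = s ∧ H[d - k, d - k] ≠ 0 ∧
      H[k - d', k - d'] ≠ 0 by
    obtain ⟨k, kx, ky, ks, k1, k2⟩ := H
    have k3 : H[k, P] = 0 := by
      rw [hP, herm_add_right hF, herm_smul_right, herm_smul_right, kx, ky, mul_zero, mul_zero, add_zero]
    refine ⟨P + k, ?_, ?_, ?_, ?_, ?_⟩
    · simp only [herm_add_left, herm_add_right hF, k3, herm_eq_zero_comm hF k3, ks, hs]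
      ring
    · rw [herm_add_right hF, herm_conj hF P x, hPx, herm_eq_zero_comm hF kx, one_pow, add_zero]
    · rw [herm_add_right hF, herm_conj hF P y, hPy, herm_eq_zero_comm hF ky, one_pow, add_zero]
    · rwa [show f - (P + k) = d - k by simp only [d]; abel]
    · rwa [show P + k - f' = k - d' by simp only [d']; abel]
  by_cases ha0 : a = 0
  swap
  · obtain ⟨ζ, hζ, hζ'⟩ := Finset.exists_mem_notMem_of_card_lt_card
      (s := ({1, a ^ q / a} : Finset F)) (t := Finset.univ.filter fun z : F => z ^ (q + 1) = 1) (by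
        have h1 : (Finset.univ.filter fun z : F => z ^ (q + 1) = 1).card = q + 1 := by
          conv_rhs => rw [← card_norm_one hF, Nat.card_eq_fintype_card, Fintype.card_subtype]
        rw [h1]
        have := two_le_q hF
        exact lt_of_le_of_lt Finset.card_le_two (by omega))
    simp only [Finset.mem_filter, Finset.mem_univ, true_and, Finset.mem_insert, Finset.mem_singleton,
      not_or] at hζ hζ'
    have hz : ζ ^ q * ζ = 1 := by rw [← pow_succ]; exact hζ
    have hz0 : ζ ≠ 0 := fun e => by rw [e, mul_zero] at hz; exact zero_ne_one hz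
    refine ⟨ζ • d, by rw [herm_smul_left, dx, mul_zero], by rw [herm_smul_left, dy, mul_zero],
      by rw [herm_smul_left, herm_smul_right, ds, ← mul_assoc, mul_comm ζ, hz, one_mul], ?_, ?_⟩
    · rw [show d - ζ • d = (1 - ζ) • d by module, herm_smul_left, herm_smul_right, ds]
      have h1 : 1 - ζ ≠ 0 := sub_ne_zero.2 (Ne.symm hζ'.1)
      exact mul_ne_zero h1 (mul_ne_zero (pow_ne_zero _ h1) hs0)
    · intro e
      simp only [herm_sub_left, herm_sub_right hF, herm_smul_left, herm_smul_right, ds, ds', ha] at e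
      have h2 : (ζ - 1) * (ζ * a - a ^ q) = 0 := by
        linear_combination -ζ * e + ζ * (s * hz) - ζ * htra - a ^ q * hz
      rcases mul_eq_zero.1 h2 with h3 | h3
      · exact hζ'.1 (sub_eq_zero.1 h3)
      · exact hζ'.2 (by rw [eq_div_iff ha0]; exact sub_eq_zero.1 h3)
  have h2 : s + s = 0 := by rw [← htra, ha0, zero_pow_q hF, add_zero]
  have hchar : ∀ μ : F, μ ^ q ≠ μ → μ + μ ^ q ≠ 0 := by
    intro μ hμ e
    have h20 : (2 : F) = 0 := by
      have h : (2 : F) * s = 0 := by linear_combination h2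
      exact (mul_eq_zero.1 h).resolve_right hs0
    exact hμ (by linear_combination e - μ * h20)
  have hdd' : H[d', d] = 0 := by rw [ha, ha0, zero_pow_q hF]
  obtain ⟨μ, ν, k0, hμ, hν, hk0x, hk0y, hk0d, hk0d', hk0⟩ :
      ∃ (μ ν : F) (k0 : Fin n → F), μ ^ q ≠ μ ∧ ν ^ q ≠ ν ∧ H[k0, x] = 0 ∧ H[k0, y] = 0 ∧ H[k0, d] = 0 ∧
        H[k0, d'] = 0 ∧ H[k0, k0] = s * (1 - μ ^ (q + 1) - ν ^ (q + 1)) := by
    by_cases hq : 3 ≤ q
    · obtain ⟨μ, hμ1, hμ2⟩ : ∃ μ : F, μ ^ (q + 1) ≠ 1 ∧ μ ^ q ≠ μ := by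
        by_contra hcon
        push Not at hcon
        have hsub : (Finset.univ : Finset F) ⊆ (Finset.univ.filter fun z : F => z ^ (q + 1) = 1) ∪
            (Finset.univ.filter fun z : F => z ^ q = z) := fun z _ => by
          by_cases h : z ^ (q + 1) = 1 <;> simp [h, hcon z]
        have h1 := (Finset.card_le_card hsub).trans (Finset.card_union_le _ _)
        have e1 : (Finset.univ.filter fun z : F => z ^ (q + 1) = 1).card = q + 1 := by
          conv_rhs => rw [← card_norm_one hF, Nat.card_eq_fintype_card, Fintype.card_subtype]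
        have e2 : (Finset.univ.filter fun z : F => z ^ q = z).card = q := by
          conv_rhs => rw [← card_fixed hF, Nat.card_eq_fintype_card, Fintype.card_subtype]
        rw [Finset.card_univ, hF, e1, e2] at h1
        nlinarith
      obtain ⟨ν, hν1, hν2⟩ := exists_not_fixed_of_norm hF (s := 1 - μ ^ (q + 1))
        (by rw [sub_pow_q hF, one_pow, norm_pow_q hF]) (sub_ne_zero.2 (Ne.symm hμ1))
      exact ⟨μ, ν, 0, hμ2, hν2, herm_zero_left _, herm_zero_left _, herm_zero_left _, herm_zero_left _,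
        by rw [herm_zero_left, hν1]; ring⟩
    · obtain ⟨μ, hμ, hμ'⟩ := exists_not_fixed_of_norm hF (one_pow q) one_ne_zero
      set U := Submodule.span F ({x, y, d, d'} : Set (Fin n → F))
      obtain ⟨e, he, he1⟩ : ∃ e ∈ perp q U, H[e, e] = 1 := by
        refine exists_norm_one_mem hF ?_
        by_contra hcon
        push Not at hcon
        have hle : perp q U ≤ U := fun z hz => by
          rw [← perp_perp hF U]
          exact fun w hw => hcon z hz w hw
        have hbot : perp q U = ⊥ := by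
          rw [eq_bot_iff]
          intro z hz
          have hzU := hle hz
          simp only [U, Submodule.mem_span_insert, Submodule.mem_span_singleton] at hzU
          obtain ⟨c1, _, ⟨c2, _, ⟨c3, _, ⟨c4, rfl⟩, rfl⟩, rfl⟩, rfl⟩ := hzU
          have z1 := hz x (Submodule.subset_span (by simp))
          have z2 := hz y (Submodule.subset_span (by simp))
          have z3 := hz d (Submodule.subset_span (by simp))
          have z4 := hz d' (Submodule.subset_span (by simp))
          simp only [herm_add_left, herm_smul_left, hx, hy, hyx, dx, dy, dx', dy', ds, ds',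
            herm_eq_zero_comm hF dx, herm_eq_zero_comm hF dy, herm_eq_zero_comm hF dx', herm_eq_zero_comm hF dy',
            hdd', show H[d, d'] = 0 from ha0, show H[x, y] = h from rfl, mul_zero, add_zero, zero_add] at z1 z2 z3 z4
          rw [(mul_eq_zero.1 z1).resolve_right (pow_ne_zero q hh), (mul_eq_zero.1 z2).resolve_right hh,
            (mul_eq_zero.1 z3).resolve_right hs0, (mul_eq_zero.1 z4).resolve_right hs0]
          simp
        have h7 := finrank_perp_add hF U
        rw [hbot, finrank_bot] at h7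
        have h8 : Module.finrank F U ≤ 4 := by
          refine (finrank_span_le_card _).trans ?_
          simp only [Set.toFinset_insert, Set.toFinset_singleton]
          exact Finset.card_le_four
        omega
      obtain ⟨ξ, hξ⟩ := exists_norm_eq hF (a := s * (1 - μ ^ (q + 1) - μ ^ (q + 1)))
        (by rw [mul_pow, sub_pow_q hF, sub_pow_q hF, one_pow, norm_pow_q hF, hsq])
      have hm : ∀ z ∈ ({x, y, d, d'} : Set (Fin n → F)), H[ξ • e, z] = 0 := fun z hz => by
        rw [herm_smul_left, he z (Submodule.subset_span hz), mul_zero]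
      exact ⟨μ, μ, ξ • e, hμ', hμ', hm x (by simp), hm y (by simp), hm d (by simp), hm d' (by simp),
        by rw [herm_smul_left, herm_smul_right, he1, mul_one, ← pow_succ', hξ]⟩
  set k := μ • d + ν • d' + k0 with hk
  have kd : H[k, d] = μ * s := by
    simp [k, herm_add_left, herm_smul_left, ds, hdd', hk0d]
  have kd' : H[k, d'] = ν * s := by
    simp [k, herm_add_left, herm_smul_left, show H[d, d'] = 0 from ha0, ds', hk0d']
  have kk : H[k, k] = s := by
    conv_lhs => arg 4; rw [hk]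
    rw [herm_add_right hF, herm_add_right hF, herm_smul_right, herm_smul_right, kd, kd']
    have h0 : H[k, k0] = H[k0, k0] := by
      simp [k, herm_add_left, herm_smul_left, herm_eq_zero_comm hF hk0d, herm_eq_zero_comm hF hk0d']
    rw [h0, hk0]; ring
  refine ⟨k, by simp [k, herm_add_left, herm_smul_left, dx, dx', hk0x],
    by simp [k, herm_add_left, herm_smul_left, dy, dy', hk0y], kk, ?_, ?_⟩
  · simp only [herm_sub_left, herm_sub_right hF, kd, kk, ds, herm_conj hF k d, mul_pow, hsq]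
    intro e
    exact mul_ne_zero (hchar μ hμ) hs0 (by linear_combination -e + h2)
  · simp only [herm_sub_left, herm_sub_right hF, kd', kk, ds', herm_conj hF k d', mul_pow, hsq]
    intro e
    exact mul_ne_zero (hchar ν hν) hs0 (by linear_combination -e + h2)

include hF in
theorem smul_set_le (a b : UVec n F q) :
    Subgroup.closure (fixP p a.1 b.1) ≤
      Subgroup.closure {h | h ∈ pElts p ↥(Cfsg.SU n F q) ∧ h • a = a ∧ h • b = b} :=
  Subgroup.closure_mono fun _ h => ⟨h.1, Subtype.ext h.2.1, Subtype.ext h.2.2⟩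

include hF in
theorem exists_chart2 (hn : 3 ≤ n) {x y : UVec n F q} (h : H[x.1, y.1] ≠ 0) :
    ∃ f : UVec n F q, H[x.1, f.1] = 1 ∧ H[y.1, f.1] = 1 := by
  obtain ⟨z, hz, h1, h2⟩ := exists_isotropic_prescribed hF hn x.2.2 y.2.2 h 1
  exact ⟨⟨z, fun e => zero_ne_one (by rw [← h1, e, herm_zero_right hF]), hz⟩, h1, h2⟩

/-- The geometry of charts on isotropic vectors. -/
def geometry (hn : 4 ≤ n) (hnq : 5 ≤ n ∨ 3 ≤ q) (x₀ : UVec n F q) :
    Geometry ↥(Cfsg.SU n F q) (UVec n F q) (pElts p ↥(Cfsg.SU n F q)) x₀ where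
  O f x := H[x.1, f.1] = 1
  O_smul g f x h := by show H[sv g x.1, sv g f.1] = 1; rw [sv_herm, h]
  R x y := H[x.1, y.1] ≠ 0
  R_smul g x y h := by show H[sv g x.1, sv g y.1] ≠ 0; rwa [sv_herm]
  trans x := by
    obtain ⟨g, hg⟩ := exists_SU_map_isotropic hF (by omega) x₀.2.1 x.2.1 x₀.2.2 x.2.2
    exact ⟨g, Subtype.ext hg⟩
  gen g hg := by
    have := stab_le hF p (by omega) x₀.2.1 x₀.2.2
      (smul_eq_iff_sv.1 (MulAction.mem_stabilizer_iff.1 hg))
    refine Subgroup.closure_mono ?_ this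
    exact fun a ha => ⟨ha.1, Subtype.ext ha.2.1⟩
  chart_trans {f x y} hx hy := by
    obtain ⟨A, h1, h2⟩ := exists_SU_map_hyperbolic hF (by omega) x.2.2 f.2.2 hx y.2.2 f.2.2 hy
    exact ⟨A, Subtype.ext h2, Subtype.ext h1⟩
  inter {f x} g h hf hx :=
    smul_set_le hF p f x (pair_le hF p (by omega) f.2.2 x.2.2
      (herm_ne_zero_comm hF (fun e => zero_ne_one (e.symm.trans h)))
      (smul_eq_iff_sv.1 hf) (smul_eq_iff_sv.1 hx))
  indep {f f' x y} hR h1 h2 h3 h4 := by
    by_cases htr : H[x.1, y.1] + H[x.1, y.1] ^ q = 0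
    · set v := y.1 - x.1
      have hv : H[v, v] = 0 := by
        simp only [v, herm_sub_left, herm_sub_right hF, x.2.2, y.2.2, herm_conj hF x.1 y.1]
        linear_combination -htr
      have hc := neg_inv_trace_zero hF htr
      have hc' : (H[x.1, y.1])⁻¹ + ((H[x.1, y.1])⁻¹) ^ q = 0 := by
        rw [inv_pow_q, eq_neg_of_add_eq_zero_right htr, inv_neg, add_neg_cancel]
      set t := transvSU hF v (H[x.1, y.1])⁻¹ hv hc'
      have htx : sv t x.1 = y.1 := by
        simp only [t, sv_transvSU, v, herm_sub_right hF, x.2.2, sub_zero]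
        rw [inv_mul_cancel₀ hR, one_smul, add_sub_cancel]
      have htf : ∀ a : UVec n F q, H[x.1, a.1] = 1 → H[y.1, a.1] = 1 → t • a = a := fun a ha hb => by
        refine Subtype.ext ?_
        show sv t a.1 = a.1
        simp only [t, sv_transvSU, v, herm_sub_right hF, herm_conj hF x.1 a.1, herm_conj hF y.1 a.1, ha, hb]
        simp
      have key : ∀ a b : UVec n F q, H[x.1, a.1] = 1 → H[y.1, a.1] = 1 → H[x.1, b.1] = 1 → H[y.1, b.1] = 1 →
          ∃ g ∈ Subgroup.closure {h | h ∈ pElts p ↥(Cfsg.SU n F q) ∧ h • a = a ∧ h • b = b}, g • x = y :=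
        fun a b a1 a2 b1 b2 => ⟨t, Subgroup.subset_closure
          ⟨transvSU_mem_pElts hF p hv hc', htf a a1 a2, htf b b1 b2⟩, Subtype.ext htx⟩
      exact ⟨f, h1, h2, key f f h1 h2 h1 h2, key f f' h1 h2 h3 h4⟩
    have key : ∀ a b : UVec n F q, H[x.1, a.1] = 1 → H[y.1, a.1] = 1 → H[x.1, b.1] = 1 → H[y.1, b.1] = 1 →
        H[a.1 - b.1, a.1 - b.1] ≠ 0 →
        ∃ g ∈ Subgroup.closure {h | h ∈ pElts p ↥(Cfsg.SU n F q) ∧ h • a = a ∧ h • b = b}, g • x = y := by
      intro a b a1 a2 b1 b2 hab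
      obtain ⟨g, hg, e⟩ := exists_move_pair hF p hn a.2.2 b.2.2 hab x.2.2 y.2.2 a1 b1 a2 b2
      exact ⟨g, smul_set_le hF p a b hg, Subtype.ext e⟩
    by_cases hiso : H[f.1 - f'.1, f.1 - f'.1] = 0
    · obtain ⟨z, hz, z1, z2, z3, z4⟩ :=
        exists_between hF hn hnq x.2.2 y.2.2 f.2.2 f'.2.2 htr h1 h2 h3 h4 hiso
      let f'' : UVec n F q := ⟨z, fun e => zero_ne_one (by rw [← z1, e, herm_zero_right hF]), hz⟩
      exact ⟨f'', z1, z2, key f f'' h1 h2 z1 z2 z3, key f'' f' z1 z2 h3 h4 z4⟩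
    · obtain ⟨g, hg, e⟩ := exists_SU_map_hyperbolic hF (by omega) x.2.2 f.2.2 h1 y.2.2 f.2.2 h2
      have hgc := stab_le hF p (by omega) f.2.1 f.2.2 e
      exact ⟨f, h1, h2, ⟨g, smul_set_le hF p f f hgc, Subtype.ext hg⟩, key f f' h1 h2 h3 h4 hiso⟩
  conn x y := by
    obtain ⟨z, hz, h1, h2⟩ := exists_isotropic_not_perp hF x.2.1 y.2.1 x.2.2 y.2.2
    let z' : UVec n F q := ⟨z, fun e => h1 (by rw [e, herm_zero_right hF]), hz⟩
    exact ⟨z', ⟨h1, exists_chart2 hF (by omega) (x := x) (y := z') h1⟩, herm_ne_zero_comm hF h2,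
      exists_chart2 hF (by omega) (x := z') (y := y) (herm_ne_zero_comm hF h2)⟩
  path {a b z z'} r1 r2 r3 r4 _ _ _ _ := by
    obtain ⟨w, hw0, hw, wa, wb, wz, wz', hex⟩ :=
      exists_path_point hF hn hnq a.2.1 b.2.1 z.2.1 z'.2.1 a.2.2 b.2.2 z.2.2 z'.2.2
    refine ⟨⟨w, hw0, hw⟩, ⟨herm_ne_zero_comm hF wa, herm_ne_zero_comm hF wz, wb, herm_ne_zero_comm hF wz'⟩,
      ?_, ?_, ?_, ?_⟩
    all_goals
      first
        | (obtain ⟨h1, h2⟩ := hex a.1 z.1 (by simp) r1
           obtain ⟨f, hf0, hf, e1, e2, e3⟩ := exists_chart3 hF hn a.2.2 z.2.2 hw r1 h1 h2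
           exact ⟨⟨f, hf0, hf⟩, e1, e2, e3⟩)
        | (obtain ⟨h1, h2⟩ := hex z.1 b.1 (by simp) r2
           obtain ⟨f, hf0, hf, e1, e2, e3⟩ := exists_chart3 hF hn z.2.2 b.2.2 hw r2 h1 h2
           exact ⟨⟨f, hf0, hf⟩, e1, e2, e3⟩)
        | (obtain ⟨h1, h2⟩ := hex a.1 z'.1 (by simp) r3
           obtain ⟨f, hf0, hf, e1, e2, e3⟩ := exists_chart3 hF hn a.2.2 z'.2.2 hw r3 h1 h2
           exact ⟨⟨f, hf0, hf⟩, e1, e2, e3⟩)
        | (obtain ⟨h1, h2⟩ := hex z'.1 b.1 (by simp) r4
           obtain ⟨f, hf0, hf, e1, e2, e3⟩ := exists_chart3 hF hn z'.2.2 b.2.2 hw r4 h1 h2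
           exact ⟨⟨f, hf0, hf⟩, e1, e2, e3⟩)
  tri {x y} hR _ := by
    obtain ⟨w, hw0, hw, wx, w0, wy, -, hex⟩ :=
      exists_path_point hF hn hnq x.2.1 x₀.2.1 y.2.1 x₀.2.1 x.2.2 x₀.2.2 y.2.2 x₀.2.2
    let w' : UVec n F q := ⟨w, hw0, hw⟩
    obtain ⟨h1, h2⟩ := hex x.1 y.1 (by simp) hR
    obtain ⟨f, hf0, hf, e1, e2, e3⟩ := exists_chart3 hF hn x.2.2 y.2.2 hw hR h1 h2
    exact ⟨w', ⟨herm_ne_zero_comm hF w0, exists_chart2 hF (by omega) (x := x₀) (y := w') (herm_ne_zero_comm hF w0)⟩,
      ⟨wx, wy⟩, ⟨f, hf0, hf⟩, e3, e1, e2⟩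

include hF in
theorem noMult_stab {r : ℕ} (hr : r.Prime) (hne : r ≠ p) (T : Frame F m q)
    (h : NoMult r ↥(Cfsg.SU m F q)) {S : Subgroup ↥(Cfsg.SU (m + 2) F q)}
    (hS : ∀ s, s ∈ S ↔ sv s T.e = T.e) : NoMult r ↥S := by
  choose hh hhm gg hgg using fun s : ↥S => exists_decomp hF T ((hS _).1 s.2)
  have huniq : ∀ {a b : ↥(Cfsg.SU m F q)} {u v : ↥(Cfsg.SU (m + 2) F q)}, u ∈ qAt T.e → v ∈ qAt T.e →
      u * emb hF T a = v * emb hF T b → a = b := by
    intro a b u v hu hv e
    refine emb_injective hF T ?_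
    have h1 : v⁻¹ * u = emb hF T b * (emb hF T a)⁻¹ := by
      rw [eq_mul_inv_iff_mul_eq, mul_assoc, e, inv_mul_cancel_left]
    have h2 : v⁻¹ * u = 1 := eq_one_of_mem_qAt hF T (mul_mem (inv_mem hv) hu) (by
      rw [h1, ← map_inv, ← map_mul, emb_f hF T])
    rw [h2] at h1
    exact (mul_inv_eq_one.1 h1.symm).symm
  have hsp : ∀ s : ↥S, hh s * emb hF T (gg s) = (s : ↥(Cfsg.SU (m + 2) F q)) := fun s => by
    rw [← hgg s, mul_inv_cancel_left]
  let π : ↥S →* ↥(Cfsg.SU m F q) := MonoidHom.mk' gg fun a b => by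
    refine huniq (hhm (a * b)) (mul_mem (hhm a)
      (show emb hF T (gg a) * hh b * (emb hF T (gg a))⁻¹ ∈ qAt T.e from by
        have h := conj_mem_qAt (emb hF T (gg a)) (hhm b)
        rwa [emb_e hF T] at h)) ?_
    rw [hsp, map_mul, Subgroup.coe_mul, ← hsp a, ← hsp b]
    group
  have hker : ∀ s : ↥S, s ∈ π.ker → (s : ↥(Cfsg.SU (m + 2) F q)) ∈ qAt T.e := fun s hs => by
    rw [← hsp s, show gg s = 1 from hs, map_one, mul_one]
    exact hhm s
  refine noMult_of_pGroup_ker (Fact.out : p.Prime) hr hne π (fun g => ?_) ?_ h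
  · have hmem : emb hF T g ∈ S := (hS _).2 (emb_e hF T g)
    refine ⟨⟨_, hmem⟩, huniq (hhm ⟨_, hmem⟩) (one_mem _) ?_⟩
    rw [one_mul]
    exact hsp ⟨_, hmem⟩
  · intro x
    exact ⟨2, Subtype.ext (Subtype.ext (T.pow_qsub hF p (by rw [qsub_eq_qAt hF T]; exact hker x.1 x.2)))⟩

include hF in
/-- The descent step away from the characteristic. -/
theorem noMult_su_step {r : ℕ} (hr : r.Prime) (hne : r ≠ p) (hm : 2 ≤ m) (hmq : 3 ≤ m ∨ 3 ≤ q)
    (h : NoMult r ↥(Cfsg.SU m F q)) : NoMult r ↥(Cfsg.SU (m + 2) F q) := by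
  obtain ⟨T⟩ := exists_frame (m := m) hF
  let x₀ : UVec (m + 2) F q := ⟨T.e, T.e_ne_zero hF, T.he⟩
  exact (geometry hF p (by omega) (hmq.imp (fun h => by omega) id) x₀).noMult (Fact.out : p.Prime) hr hne
    (noMult_stab hF p hr hne T h fun s => by rw [MulAction.mem_stabilizer_iff, smul_eq_iff_sv])

end CfsgLib.SchurClassical.Un
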