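import Mathlib
import Cfsg.Agent.SchurClassical.UnitDefining

/-!
`SU_n(2)`, `n ≥ 8`: radical lifts from the quasi-scalar elements `z` on `u^⊥`, `1` on `u`; this covers
`3 ∣ n`, where no scalar torus element moves the Heisenberg group.
-/

set_option autoImplicit false

namespace CfsgLib.SchurClassical.Un

open Matrix CfsgLib.Unitary CfsgLib.AutPSU CfsgLib.AutPSU.Frame
open scoped commutatorElement

universe u

variable {F : Type u} [Field F] [Fintype F] {m q : ℕ} (hF : Fintype.card F = q ^ 2)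
  (T : Frame F m q)

local notation "Vm" => Fin m → F
local notation "hm[" u "," v "]" => Cfsg.hermForm m F q u v
set_option quotPrecheck false in
local notation "SUn" => ↥(Cfsg.SU (m + 2) F q)
set_option quotPrecheck false in
local notation "SUm" => ↥(Cfsg.SU m F q)

theorem conj_emb_heis (g : SUm) {w : Vm} {c : F} (hc : HCond q w c) :
    ∃ hc' : HCond q (sv g w) c,
      emb hF T g * T.heis hF w c hc * (emb hF T g)⁻¹ = T.heis hF (sv g w) c hc' := by
  have hact : act q (1 : F) ((g : Matrix.SpecialLinearGroup (Fin m) F) : Matrix (Fin m) (Fin m) F) w =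
      sv g w := by rw [act, one_pow, one_smul]; rfl
  have hc' : HCond q (sv g w) c := by unfold HCond at hc ⊢; rw [sv_herm]; exact hc
  refine ⟨hc', ?_⟩
  show T.tor hF (adm_smat hF g) * _ * (T.tor hF (adm_smat hF g))⁻¹ = _
  rw [T.conj_tor_heis hF (adm_smat hF g)]
  exact T.heis_congr hF _ _ hact (by rw [one_pow, one_mul])

/-- The part of the Heisenberg group over a subspace. -/
noncomputable def qPart (U : Submodule F (Fin m → F)) : Subgroup SUn where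
  carrier := {g | ∃ (w : Fin m → F) (c : F) (hc : HCond q w c), w ∈ U ∧ g = T.heis hF w c hc}
  one_mem' := ⟨0, 0, hcond_zero_iff.2 (by rw [zero_add, zero_pow_q hF]), U.zero_mem,
    (ctr_eq_one hF T (by rw [zero_add, zero_pow_q hF]) rfl).symm⟩
  mul_mem' := by
    rintro _ _ ⟨w, c, hc, hw, rfl⟩ ⟨w', c', hc', hw', rfl⟩
    exact ⟨_, _, _, U.add_mem hw hw', T.heis_mul hF hc hc'⟩
  inv_mem' := by
    rintro _ ⟨w, c, hc, hw, rfl⟩
    obtain ⟨w', c', hc', e⟩ := (T.qsub hF).inv_mem (T.heis_mem_qsub hF hc)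
    have h1 := mul_inv_cancel (T.heis hF w c hc)
    rw [e, T.heis_mul hF] at h1
    have h2 := (T.heis_inj hF (h1.trans (ctr_eq_one hF T (by rw [zero_add, zero_pow_q hF]) rfl).symm)).1
    exact ⟨w', c', hc', by rw [eq_neg_of_add_eq_zero_right h2]; exact U.neg_mem hw, e⟩

theorem qPart_le {U : Submodule F (Fin m → F)} : qPart hF T U ≤ T.qsub hF := by
  rintro _ ⟨w, c, hc, -, rfl⟩
  exact T.heis_mem_qsub hF hc

theorem mem_qPart_heis {U : Submodule F (Fin m → F)} {w : Vm} {c : F} (hc : HCond q w c)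
    (hw : w ∈ U) : T.heis hF w c hc ∈ qPart hF T U :=
  ⟨w, c, hc, hw, rfl⟩

theorem of_heis_mem_qPart {U : Submodule F (Fin m → F)} {w : Vm} {c : F} {hc : HCond q w c}
    (h : T.heis hF w c hc ∈ qPart hF T U) : w ∈ U := by
  obtain ⟨w', c', hc', hw', e⟩ := h
  rw [(T.heis_inj hF e).1]
  exact hw'

include hF in
/-- A quasi-scalar element: `z` on `u^⊥`, `1` on `u`. -/
theorem exists_quasi {u : Vm} {z : F} (hz : z ^ (q + 1) = 1) (hzm : z ^ (m - 1) = 1) (hm : 1 ≤ m)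
    (hu : hm[u, u] = 1) :
    ∃ t : SUm, (∀ x, hm[x, u] = 0 → sv t x = z • x) ∧ sv t u = u ∧
      ∀ (g : SUm) (l : F), sv g u = l • u → g * t = t * g := by
  have hz0 : z ≠ 0 := fun h => by rw [h, zero_pow (Nat.succ_ne_zero q)] at hz; exact zero_ne_one hz
  have hdet : (z • rankOne q ((z⁻¹ - 1) • u) u).det = 1 := by
    rw [Matrix.det_smul, det_rankOne, herm_smul_left, hu, mul_one, add_sub_cancel, Fintype.card_fin,
      show m = m - 1 + 1 by omega, pow_succ, hzm, one_mul, mul_inv_cancel₀ hz0]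
  have hpres : ∀ x y, hm[(z • rankOne q ((z⁻¹ - 1) • u) u) *ᵥ x, (z • rankOne q ((z⁻¹ - 1) • u) u) *ᵥ y] =
      hm[x, y] := fun x y => by
    rw [Matrix.smul_mulVec, Matrix.smul_mulVec, herm_smul_left, herm_smul_right, ← mul_assoc, ← pow_succ',
      hz, one_mul, quasiReflection_preserves hF hu (by rw [inv_pow, hz, inv_one])]
  let t : SUm := ⟨⟨_, hdet⟩, mem_SU.2 hpres⟩
  have ht : ∀ x, sv t x = z • (x + hm[x, u] • ((z⁻¹ - 1) • u)) := fun x => by
    show (z • rankOne q ((z⁻¹ - 1) • u) u) *ᵥ x = _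
    rw [Matrix.smul_mulVec, rankOne_mulVec]
  refine ⟨t, fun x hx => by rw [ht, hx, zero_smul, add_zero], ?_, fun g l hg => sv_ext fun x => ?_⟩
  · rw [ht, hu, one_smul]
    match_scalars
    field_simp
    ring
  · have hl : l ^ (q + 1) = 1 := by
      have h := sv_herm g u u
      rwa [hg, herm_self_smul, hu, mul_one] at h
    have e : hm[sv g x, u] = l * hm[x, u] := by
      have h := sv_herm g x u
      rw [hg, herm_smul_right] at h
      rw [← h, ← mul_assoc, ← pow_succ', hl, one_mul]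
    rw [sv_mul, sv_mul, ht, ht, e, sv_smul, sv_add, sv_smul, sv_smul, hg]
    module

include hF in
/-- A norm one vector orthogonal to three given ones, `m ≥ 7`. -/
theorem exists_norm_one_perp (h7 : 7 ≤ m) (a b c : Vm) :
    ∃ e : Vm, hm[e, e] = 1 ∧ hm[e, a] = 0 ∧ hm[e, b] = 0 ∧ hm[e, c] = 0 := by
  classical
  set W := Submodule.span F ({a, b, c} : Set Vm) with hW
  obtain ⟨e, he, he1⟩ : ∃ e ∈ perp q W, hm[e, e] = 1 := by
    refine exists_norm_one_mem hF ?_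
    by_contra hcon
    push Not at hcon
    have hle : perp q W ≤ W := fun x hx => by
      rw [← perp_perp hF W]
      exact fun y hy => hcon x hx y hy
    have h1 := Submodule.finrank_mono hle
    have h2 := finrank_perp_add hF W
    have h3 : Module.finrank F W ≤ 3 := by
      refine (finrank_span_le_card _).trans ?_
      simp only [Set.toFinset_insert, Set.toFinset_singleton]
      exact Finset.card_le_three
    omega
  exact ⟨e, he1, he a (Submodule.subset_span (by simp)), he b (Submodule.subset_span (by simp)),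
    he c (Submodule.subset_span (by simp))⟩

variable {Γ : Type u} [Group Γ] {σ : Γ →* ↥(Cfsg.SU (m + 2) F q)}

omit [Fintype F] in
theorem eq_of_sigma_eq {G : Type*} [Group G] {σ : Γ →* G} {N : Subgroup Γ} (hint : σ.ker ⊓ N = ⊥) {x y : Γ}
    (hx : x ∈ N) (hy : y ∈ N) (h : σ x = σ y) : x = y :=
  mul_inv_eq_one.1 (Subgroup.mem_bot.1 (hint.le ⟨by
    show x * y⁻¹ ∈ σ.ker
    rw [MonoidHom.mem_ker, map_mul, map_inv, h, mul_inv_cancel], N.mul_mem hx (N.inv_mem hy)⟩))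

include hF in
/-- Uniqueness of invariant lifts: a quasi-scalar element acting as `z ≠ 1` on `V` pins them down. -/
theorem mem_of_tau (hc : σ.ker ≤ Subgroup.center Γ) {z : F} (hz1 : z ≠ 1) {U U' V : Submodule F Vm}
    {N N' : Subgroup Γ} (hN : N.map σ = qPart hF T U) (hint : σ.ker ⊓ N = ⊥)
    (hN' : N'.map σ = qPart hF T U') (hVU : V ≤ U) (hVU' : V ≤ U') (hV1 : ∃ e ∈ V, hm[e, e] = 1)
    (t : SUm) (htV : ∀ x ∈ V, sv t x = z • x) (γ : Γ) (hγ : σ γ = emb hF T t)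
    (hγN : ∀ x ∈ N, γ * x * γ⁻¹ ∈ N) (hγN' : ∀ x ∈ N', γ * x * γ⁻¹ ∈ N')
    {x : Γ} (hx : x ∈ N) (hxV : σ x ∈ qPart hF T V) : x ∈ N' := by
  obtain ⟨w, c, hwc, hw, hxe⟩ := hxV
  obtain ⟨w0, hw0V, hw0⟩ : ∃ w0 ∈ V, z • w0 - w0 = w := by
    refine ⟨(z - 1)⁻¹ • w, V.smul_mem _ hw, ?_⟩
    rw [← one_smul F ((z - 1)⁻¹ • w), smul_smul z, ← sub_smul, mul_one, smul_smul,
      mul_inv_cancel₀ (sub_ne_zero.2 hz1), one_smul]
  obtain ⟨c0, hc0⟩ := exists_hcond hF w0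
  obtain ⟨hc0', hconj⟩ := conj_emb_heis hF T t hc0
  obtain ⟨wi, ci, hci, hinv⟩ := (T.qsub hF).inv_mem (T.heis_mem_qsub hF hc0)
  have hwi : wi = -w0 := by
    have h1 := mul_inv_cancel (T.heis hF w0 c0 hc0)
    rw [hinv, T.heis_mul hF] at h1
    exact eq_neg_of_add_eq_zero_right
      (T.heis_inj hF (h1.trans (ctr_eq_one hF T (by rw [zero_add, zero_pow_q hF]) rfl).symm)).1
  obtain ⟨c1, hc1, hcomm⟩ : ∃ (c1 : F) (hc1 : HCond q w c1),
      ⁅emb hF T t, T.heis hF w0 c0 hc0⁆ = T.heis hF w c1 hc1 := by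
    have ew : sv t w0 + wi = w := by rw [htV _ hw0V, hwi, ← sub_eq_add_neg, hw0]
    have hm' := hcond_mul hF hc0' hci
    refine ⟨c0 + ci - hm[wi, sv t w0], ew ▸ hm', ?_⟩
    rw [commutatorElement_def, hconj, hinv, T.heis_mul hF]
    exact T.heis_congr hF _ _ ew rfl
  obtain ⟨hr, hsplit⟩ := heis_split hF T hwc hc1
  obtain ⟨e, heV, he⟩ := hV1
  obtain ⟨s, hs'⟩ := exists_pow_sub_eq hF hr
  obtain ⟨ca, hca⟩ := exists_hcond hF e
  obtain ⟨cb, hcb⟩ := exists_hcond hF (s • e)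
  have hctr : ctr hF T (c - c1) hr = ⁅T.heis hF e ca hca, T.heis hF (s • e) cb hcb⁆ := by
    rw [heis_comm hF T]
    exact T.heis_congr hF _ _ rfl (by rw [herm_smul_left, herm_smul_right, he, mul_one, mul_one, hs'])
  have get : ∀ (M : Subgroup Γ) (W : Submodule F Vm), M.map σ = qPart hF T W → V ≤ W →
      ∀ {v : Vm} {b : F} (hb : HCond q v b), v ∈ V → ∃ n ∈ M, σ n = T.heis hF v b hb := by
    intro M W hM hVW v b hb hv
    have h := mem_qPart_heis hF T hb (hVW hv)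
    rw [← hM] at h
    exact h
  obtain ⟨n0, hn0, e0⟩ := get N U hN hVU hc0 hw0V
  obtain ⟨n1, hn1, e1⟩ := get N U hN hVU hca heV
  obtain ⟨n2, hn2, e2⟩ := get N U hN hVU hcb (V.smul_mem s heV)
  obtain ⟨k0, hk0, f0⟩ := get N' U' hN' hVU' hc0 hw0V
  obtain ⟨k1, hk1, f1⟩ := get N' U' hN' hVU' hca heV
  obtain ⟨k2, hk2, f2⟩ := get N' U' hN' hVU' hcb (V.smul_mem s heV)
  have hy : ∀ (M : Subgroup Γ), (∀ x ∈ M, γ * x * γ⁻¹ ∈ M) → ∀ a ∈ M, ∀ b ∈ M, ∀ d ∈ M,
      ⁅γ, a⁆ * ⁅b, d⁆ ∈ M := fun M hM a ha b hb d hd => by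
    refine M.mul_mem ?_ ?_
    · rw [commutatorElement_def]; exact M.mul_mem (hM a ha) (M.inv_mem ha)
    · rw [commutatorElement_def]
      exact M.mul_mem (M.mul_mem (M.mul_mem hb hd) (M.inv_mem hb)) (M.inv_mem hd)
  have hxy : x = ⁅γ, n0⁆ * ⁅n1, n2⁆ := eq_of_sigma_eq hint hx (hy N hγN n0 hn0 n1 hn1 n2 hn2) (by
    rw [hxe, map_mul, map_commutatorElement, map_commutatorElement, hγ, e0, e1, e2, hcomm, ← hctr,
      ← hsplit])
  rw [hxy, Schur.commutator_congr hc (rfl : σ γ = σ γ) (e0.trans f0.symm),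
    Schur.commutator_congr hc (e1.trans f1.symm) (e2.trans f2.symm)]
  exact hy N' hγN' k0 hk0 k1 hk1 k2 hk2

variable [Finite Γ]

include hF in
/-- The lift of the part of the Heisenberg group over `u^⊥`. -/
theorem exists_quasi_lift (hm : 3 ≤ m) (hs : Function.Surjective σ) (hc : σ.ker ≤ Subgroup.center Γ)
    (hK : σ.ker ⊓ ⁅(T.qsub hF).comap σ, (T.qsub hF).comap σ⁆ = ⊥)
    {z : F} (hz : z ^ (q + 1) = 1) (hz1 : z ≠ 1) (hzm : z ^ (m - 1) = 1) {u : Vm} (hu : hm[u, u] = 1) :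
    ∃ N : Subgroup Γ, N.map σ = qPart hF T (perp q (Submodule.span F {u})) ∧ σ.ker ⊓ N = ⊥ ∧
      ∀ (γ : Γ) (g : SUm) (l : F), σ γ = emb hF T g → sv g u = l • u → ∀ x ∈ N, γ * x * γ⁻¹ ∈ N := by
  obtain ⟨t, ht1, ht2, ht3⟩ := exists_quasi hF hz hzm (by omega) hu
  set U := perp q (Submodule.span F {u}) with hU
  have hmemU : ∀ {x : Vm}, x ∈ U ↔ hm[x, u] = 0 := fun {x} => mem_perp_span_singleton hF
  set Q := qPart hF T U with hQdef
  obtain ⟨τ, hτ⟩ : ∃ τ, emb hF T t = τ := ⟨_, rfl⟩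
  let S : Subgroup SUn :=
    { carrier := {s | (∀ g ∈ Q, s * g * s⁻¹ ∈ Q) ∧ (∀ g ∈ Q, s⁻¹ * g * s ∈ Q) ∧ s * τ * s⁻¹ * τ⁻¹ ∈ Q}
      one_mem' := ⟨fun g hg => by simpa using hg, fun g hg => by simpa using hg,
        by simp [Q.one_mem]⟩
      mul_mem' := fun {a b} ha hb => by
        refine ⟨fun g hg => ?_, fun g hg => ?_, ?_⟩
        · rw [show a * b * g * (a * b)⁻¹ = a * (b * g * b⁻¹) * a⁻¹ by group]
          exact ha.1 _ (hb.1 g hg)
        · rw [show (a * b)⁻¹ * g * (a * b) = b⁻¹ * (a⁻¹ * g * a) * b by group]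
          exact hb.2.1 _ (ha.2.1 g hg)
        · rw [show a * b * τ * (a * b)⁻¹ * τ⁻¹ =
            (a * (b * τ * b⁻¹ * τ⁻¹) * a⁻¹) * (a * τ * a⁻¹ * τ⁻¹) by group]
          exact Q.mul_mem (ha.1 _ hb.2.2) ha.2.2
      inv_mem' := fun {a} ha => by
        refine ⟨fun g hg => by rw [inv_inv]; exact ha.2.1 g hg,
          fun g hg => by rw [inv_inv]; exact ha.1 g hg, ?_⟩
        rw [show a⁻¹ * τ * a⁻¹⁻¹ * τ⁻¹ = a⁻¹ * (a * τ * a⁻¹ * τ⁻¹)⁻¹ * a by group]
        exact ha.2.1 _ (Q.inv_mem ha.2.2) }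
  have hconj : ∀ (g : SUm), (∀ x ∈ U, sv g x ∈ U) → ∀ y ∈ Q, emb hF T g * y * (emb hF T g)⁻¹ ∈ Q := by
    rintro g hg _ ⟨w, c, hwc, hw, rfl⟩
    obtain ⟨h', e⟩ := conj_emb_heis hF T g hwc
    rw [e]
    exact mem_qPart_heis hF T h' (hg w hw)
  have hfixU : ∀ (g : SUm) (l : F), sv g u = l • u → ∀ x ∈ U, sv g x ∈ U := by
    intro g l hg x hx
    rw [hmemU] at hx ⊢
    have h := sv_herm g x u
    rw [hg, herm_smul_right, hx] at h
    refine (mul_eq_zero.1 h).resolve_left (pow_ne_zero q ?_)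
    rintro rfl
    have h2 := sv_herm g u u
    rw [hg, zero_smul, herm_zero_left, hu] at h2
    exact zero_ne_one h2
  have hS : ∀ (g : SUm) (l : F), sv g u = l • u → emb hF T g ∈ S := by
    intro g l hg
    have hl0 : l ≠ 0 := by
      rintro rfl
      have h2 := sv_herm g u u
      rw [hg, zero_smul, herm_zero_left, hu] at h2
      exact zero_ne_one h2
    refine ⟨hconj g (hfixU g l hg), fun y hy => ?_, ?_⟩
    · have h := hconj g⁻¹ (hfixU g⁻¹ l⁻¹ (by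
        conv_lhs => rw [show u = l⁻¹ • sv g u by rw [hg, inv_smul_smul₀ hl0], sv_smul, sv_inv_sv])) y hy
      simpa using h
    · rw [← hτ, ← map_inv, ← map_inv, ← map_mul, ← map_mul, ← map_mul, ht3 g l hg, mul_inv_cancel_right,
        mul_inv_cancel, map_one]
      exact Q.one_mem
  have hτQ : ∀ y ∈ Q, τ * y * τ⁻¹ ∈ Q := by
    rw [← hτ]
    exact (hS t 1 (by rw [one_smul, ht2])).1
  have hQS : Q ≤ S := fun g hg => ⟨fun y hy => Q.mul_mem (Q.mul_mem hg hy) (Q.inv_mem hg),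
    fun y hy => Q.mul_mem (Q.mul_mem (Q.inv_mem hg) hy) hg, by
      rw [mul_assoc g τ, mul_assoc g]; exact Q.mul_mem hg (hτQ _ (Q.inv_mem hg))⟩
  have hcle : ∀ y ∈ ⁅Q, Q⁆, y ∈ ctrGroup hF T := fun y hy => by
    have := Subgroup.commutator_mono (qPart_le hF T) (qPart_le hF T) hy
    rwa [commutator_qsub hF (by omega)] at this
  have hfix : ∀ g ∈ Q, ⁅τ, g⁆ ∈ ⁅Q, Q⁆ → g ∈ ⁅Q, Q⁆ := by
    rintro _ ⟨w, c, hwc, hw, rfl⟩ hcom
    obtain ⟨r, hr, e⟩ := hcle _ hcom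
    obtain ⟨h', ec⟩ := conj_emb_heis hF T t hwc
    rw [commutatorElement_def, ← hτ, mul_inv_eq_iff_eq_mul, ec, T.heis_mul hF] at e
    have hw0 := (T.heis_inj hF e).1
    rw [ht1 w (hmemU.1 hw), zero_add] at hw0
    have hw' : w = 0 := by
      have : (z - 1) • w = 0 := by rw [sub_smul, one_smul, hw0, sub_self]
      exact (smul_eq_zero.1 this).resolve_left (sub_ne_zero.2 hz1)
    subst hw'
    obtain ⟨e1, he1, he1U⟩ : ∃ e1 : Vm, hm[e1, e1] = 1 ∧ e1 ∈ U := by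
      obtain ⟨e1, -, h1, h2⟩ := exists_orthonorm_next hF (isNondeg_top hF) (f := ![u])
        (by intro i j; fin_cases i; fin_cases j; simp [hu]) (fun _ => trivial) (by simp; omega)
      exact ⟨e1, h1, hmemU.2 (h2 0)⟩
    obtain ⟨s, hs'⟩ := exists_pow_sub_eq hF (hcond_zero_iff.1 hwc)
    obtain ⟨ca, hca⟩ := exists_hcond hF e1
    obtain ⟨cb, hcb⟩ := exists_hcond hF (s • e1)
    have e : T.heis hF 0 c hwc = ⁅T.heis hF e1 ca hca, T.heis hF (s • e1) cb hcb⁆ := by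
      rw [heis_comm hF T]
      exact T.heis_congr hF _ _ rfl (by rw [herm_smul_left, herm_smul_right, he1, mul_one, mul_one, hs'])
    rw [e]
    exact Subgroup.commutator_mem_commutator (mem_qPart_heis hF T hca he1U)
      (mem_qPart_heis hF T hcb (U.smul_mem s he1U))
  have hKQ : σ.ker ⊓ ⁅Q.comap σ, Q.comap σ⁆ = ⊥ := eq_bot_iff.2 (le_trans (inf_le_inf_left _
    (Subgroup.commutator_mono (Subgroup.comap_mono (qPart_le hF T))
      (Subgroup.comap_mono (qPart_le hF T)))) hK.le)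
  obtain ⟨N, -, h2, h3, h4⟩ := exists_radical_lift hs hc (Q := Q) (S := S) hQS (fun s hs' => hs'.1)
    hKQ τ hτQ (fun s hs' => hs'.2.2) hfix
  exact ⟨N, h3, h4, fun γ g l hγ hg x hx => h2 γ (by
    show σ γ ∈ S
    rw [hγ]; exact hS g l hg) x hx⟩

variable (p : ℕ) [Fact p.Prime] [CharP F p]

include hF in
/-- The radical lifts, `m ≥ 7`, from quasi-scalar elements. -/
theorem hasRad_of_quasi (h7 : 7 ≤ m) (hs : Function.Surjective σ) (hc : σ.ker ≤ Subgroup.center Γ)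
    (hK : σ.ker ⊓ ⁅(T.qsub hF).comap σ, (T.qsub hF).comap σ⁆ = ⊥)
    {z : F} (hz : z ^ (q + 1) = 1) (hz1 : z ≠ 1) (hzm : z ^ (m - 1) = 1) : HasRad σ := by
  classical
  set U : Vm → Submodule F Vm := fun u => perp q (Submodule.span F {u}) with hUdef
  have hmemU : ∀ {u x : Vm}, x ∈ U u ↔ hm[x, u] = 0 := fun {u x} => mem_perp_span_singleton hF
  choose! t ht1 ht2 ht3 using fun (u : Vm) (hu : hm[u, u] = 1) => exists_quasi hF hz hzm (by omega) hu
  choose! Nu hN hint hnorm using fun (u : Vm) (hu : hm[u, u] = 1) =>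
    exists_quasi_lift hF T (by omega) hs hc hK hz hz1 hzm hu
  have hmap : ∀ {u : Vm}, hm[u, u] = 1 → ∀ {x}, x ∈ Nu u → σ x ∈ qPart hF T (U u) := fun {u} hu {x} hx => by
    show σ x ∈ qPart hF T (perp q (Submodule.span F {u}))
    rw [← hN u hu]; exact Subgroup.mem_map_of_mem _ hx
  -- lifts over the common part of two of them agree
  have trans' : ∀ {u v : Vm}, hm[u, u] = 1 → hm[v, v] = 1 → hm[u, v] = 0 → ∀ {x}, x ∈ Nu u →
      σ x ∈ qPart hF T (U v) → x ∈ Nu v := by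
    intro u v hu hv huv x hx hxv
    obtain ⟨γ, hγ⟩ := hs (emb hF T (t u))
    obtain ⟨e, he, heu, hev, -⟩ := exists_norm_one_perp hF h7 u v v
    refine mem_of_tau hF T hc hz1 (U := U u) (U' := U v) (V := U u ⊓ U v) (hN u hu) (hint u hu) (hN v hv)
      inf_le_left inf_le_right ⟨e, ⟨hmemU.2 heu, hmemU.2 hev⟩, he⟩ (t u)
      (fun y hy => ht1 u hu y (hmemU.1 hy.1)) γ hγ
      (hnorm u hu γ (t u) 1 hγ (by rw [one_smul, ht2 u hu]))
      (hnorm v hv γ (t u) z hγ (ht1 u hu v (herm_eq_zero_comm hF huv))) hx ?_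
    obtain ⟨w, c, hwc, hw, e'⟩ := hmap hu hx
    rw [e'] at hxv ⊢
    exact mem_qPart_heis hF T hwc ⟨hw, of_heis_mem_qPart hF T hxv⟩
  have hKle : ∀ {u : Vm}, hm[u, u] = 1 → ⁅(T.qsub hF).comap σ, (T.qsub hF).comap σ⁆ ≤ Nu u := by
    intro u hu k hk
    have hk' : σ k ∈ ⁅T.qsub hF, T.qsub hF⁆ := by
      have h := Subgroup.mem_map_of_mem σ hk
      rwa [Subgroup.map_commutator, Subgroup.map_comap_eq_self_of_surjective hs] at h
    rw [commutator_qsub hF (by omega)] at hk'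
    obtain ⟨r, hr, er⟩ := hk'
    obtain ⟨e, he, heu, -, -⟩ := exists_norm_one_perp hF h7 u u u
    obtain ⟨s, hs'⟩ := exists_pow_sub_eq hF hr
    obtain ⟨ca, hca⟩ := exists_hcond hF e
    obtain ⟨cb, hcb⟩ := exists_hcond hF (s • e)
    have ha := mem_qPart_heis hF T hca (hmemU.2 heu)
    have hb := mem_qPart_heis hF T hcb ((U u).smul_mem s (hmemU.2 heu))
    rw [← hN u hu] at ha hb
    obtain ⟨n1, hn1, e1⟩ := ha
    obtain ⟨n2, hn2, e2⟩ := hb
    have hy : ⁅n1, n2⁆ ∈ ⁅(T.qsub hF).comap σ, (T.qsub hF).comap σ⁆ :=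
      Subgroup.commutator_mem_commutator (by rw [Subgroup.mem_comap, e1]; exact T.heis_mem_qsub hF _)
        (by rw [Subgroup.mem_comap, e2]; exact T.heis_mem_qsub hF _)
    rw [eq_of_sigma_eq hK hk hy (by
      rw [er, map_commutatorElement, e1, e2, heis_comm hF T]
      exact T.heis_congr hF _ _ rfl (by rw [herm_smul_left, herm_smul_right, he, mul_one, mul_one, hs']))]
    rw [commutatorElement_def]
    exact (Nu u).mul_mem ((Nu u).mul_mem ((Nu u).mul_mem hn1 hn2) ((Nu u).inv_mem hn1)) ((Nu u).inv_mem hn2)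
  have hQc : ∀ {u : Vm}, hm[u, u] = 1 → ∀ g ∈ (T.qsub hF).comap σ, ∀ x ∈ Nu u, g * x * g⁻¹ ∈ Nu u := by
    intro u hu g hg x hx
    rw [show g * x * g⁻¹ = ⁅g, x⁆ * x by simp [commutatorElement_def]]
    refine (Nu u).mul_mem (hKle hu (Subgroup.commutator_mem_commutator hg ?_)) hx
    exact qPart_le hF T (hmap hu hx)
  obtain ⟨u1, hu1⟩ : ∃ u : Vm, hm[u, u] = 1 :=
    ⟨Pi.single ⟨0, by omega⟩ 1, by rw [herm_single_single hF, if_pos rfl]⟩
  obtain ⟨u2, hu2, h21, -, -⟩ := exists_norm_one_perp hF h7 u1 u1 u1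
  have h12 := herm_eq_zero_comm hF h21
  have hQN : ∀ {u : Vm}, hm[u, u] = 1 → ∀ {x}, x ∈ Nu u → x ∈ (T.qsub hF).comap σ :=
    fun {u} hu {x} hx => qPart_le hF T (hmap hu hx)
  let M : Subgroup Γ :=
    { carrier := {y | ∃ a ∈ Nu u1, ∃ b ∈ Nu u2, y = a * b}
      one_mem' := ⟨1, one_mem _, 1, one_mem _, (one_mul 1).symm⟩
      mul_mem' := by
        rintro _ _ ⟨a, ha, b, hb, rfl⟩ ⟨a', ha', b', hb', rfl⟩
        exact ⟨a * (b * a' * b⁻¹), mul_mem ha (hQc hu1 b (hQN hu2 hb) a' ha'), b * b', mul_mem hb hb',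
          by group⟩
      inv_mem' := by
        rintro _ ⟨a, ha, b, hb, rfl⟩
        exact ⟨b⁻¹ * a⁻¹ * b⁻¹⁻¹, hQc hu1 _ (inv_mem (hQN hu2 hb)) _ (inv_mem ha), b⁻¹, inv_mem hb,
          by group⟩ }
  have hM1 : Nu u1 ≤ M := fun a ha => ⟨a, ha, 1, one_mem _, (mul_one a).symm⟩
  have hM2 : Nu u2 ≤ M := fun b hb => ⟨1, one_mem _, b, hb, (one_mul b).symm⟩
  -- the lift over `u^⊥` lies in `M` when `u` is orthogonal to `u1` or `u2`
  have hsub : ∀ {a b : Vm}, hm[a, a] = 1 → hm[b, b] = 1 → hm[a, b] = 0 → Nu a ≤ M → Nu b ≤ M →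
      ∀ {u : Vm}, hm[u, u] = 1 → hm[u, a] = 0 → Nu u ≤ M := by
    intro a b ha hb hab hMa hMb u hu hua x hx
    obtain ⟨w, c, hwc, hw, hxe⟩ := hmap hu hx
    rw [hmemU] at hw
    obtain ⟨w1, hw1⟩ : ∃ w1, w - hm[w, a] • a = w1 := ⟨_, rfl⟩
    obtain ⟨c2, hc2⟩ := exists_hcond hF (hm[w, a] • a)
    have hau : hm[a, u] = 0 := herm_eq_zero_comm hF hua
    have hp := mem_qPart_heis hF T hc2 (show hm[w, a] • a ∈ U u from
      hmemU.2 (by rw [herm_smul_left, hau, mul_zero]))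
    rw [← hN u hu] at hp
    obtain ⟨n2, hn2, e2⟩ := hp
    obtain ⟨e, he, heu, hea, heb⟩ := exists_norm_one_perp hF h7 u a b
    have hn2e : n2 ∈ Nu e := trans' hu he (herm_eq_zero_comm hF heu) hn2 (by
      rw [e2]
      exact mem_qPart_heis hF T hc2 (hmemU.2 (by rw [herm_smul_left, herm_eq_zero_comm hF hea, mul_zero])))
    have hn2b : n2 ∈ Nu b := trans' he hb heb hn2e (by
      rw [e2]
      exact mem_qPart_heis hF T hc2 (hmemU.2 (by rw [herm_smul_left, hab, mul_zero])))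
    have hn1 : x * n2⁻¹ ∈ Nu u := mul_mem hx (inv_mem hn2)
    have hn1a : x * n2⁻¹ ∈ Nu a := trans' hu ha hua hn1 (by
      obtain ⟨w', c', hc', e'⟩ := hQN hu hn1
      rw [e']
      refine mem_qPart_heis hF T hc' (hmemU.2 ?_)
      have hsum : w = w' + hm[w, a] • a := by
        have h : σ x = T.heis hF w' c' hc' * σ n2 := by
          rw [← e', ← map_mul, inv_mul_cancel_right]
        rw [hxe, e2, T.heis_mul hF] at h
        exact (T.heis_inj hF h).1
      rw [show w' = w - hm[w, a] • a from eq_sub_of_add_eq hsum.symm, herm_sub_left, herm_smul_left, ha,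
        mul_one, sub_self])
    have := M.mul_mem (hMa hn1a) (hMb hn2b)
    rwa [inv_mul_cancel_right] at this
  -- `M` is invariant under the small group
  have hgen : ∀ (g : SUm), (sv g u1 = u1 ∨ sv g u2 = u2) → ∀ γ : Γ, σ γ = emb hF T g →
      ∀ x ∈ M, γ * x * γ⁻¹ ∈ M := by
    have hequiv : ∀ {u : Vm}, hm[u, u] = 1 → ∀ (g : SUm) (γ : Γ), σ γ = emb hF T g → ∀ x ∈ Nu u,
        γ * x * γ⁻¹ ∈ Nu (sv g u) := by
      intro u hu g γ hγ x hx
      have hgu : hm[sv g u, sv g u] = 1 := by rw [sv_herm, hu]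
      obtain ⟨δ, hδ⟩ := hs (emb hF T (t (sv g u)))
      have hconj : ∀ (y : Γ), y ∈ Nu u → σ (γ * y * γ⁻¹) ∈ qPart hF T (U (sv g u)) := by
        intro y hy
        obtain ⟨w, c, hwc, hw, e⟩ := hmap hu hy
        obtain ⟨h', e'⟩ := conj_emb_heis hF T g hwc
        rw [map_mul, map_mul, map_inv, hγ, e, e']
        exact mem_qPart_heis hF T h' (hmemU.2 (by rw [sv_herm]; exact hmemU.1 hw))
      obtain ⟨e, he, heu, -, -⟩ := exists_norm_one_perp hF h7 (sv g u) (sv g u) (sv g u)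
      refine mem_of_tau hF T hc hz1 (U := U (sv g u)) (U' := U (sv g u)) (V := U (sv g u))
        (N := (Nu u).map (MulAut.conj γ).toMonoidHom) (le_antisymm ?_ fun y hy => ?_) ?_
        (hN _ hgu) le_rfl le_rfl ⟨e, hmemU.2 heu, he⟩ (t (sv g u))
        (fun y hy => ht1 _ hgu y (hmemU.1 hy)) δ hδ ?_
        (hnorm _ hgu δ _ 1 hδ (by rw [one_smul, ht2 _ hgu]))
        (Subgroup.mem_map_of_mem (MulAut.conj γ).toMonoidHom hx) (hconj x hx)
      · rintro _ ⟨_, ⟨y, hy, rfl⟩, rfl⟩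
        exact hconj y hy
      · obtain ⟨w, c, hwc, hw, rfl⟩ := hy
        obtain ⟨h', e'⟩ := conj_emb_heis hF T g⁻¹ hwc
        have hp := mem_qPart_heis hF T h' (show sv g⁻¹ w ∈ U u from hmemU.2 (by
          rw [← sv_herm g, sv_sv_inv]; exact hmemU.1 hw))
        rw [← hN u hu] at hp
        obtain ⟨y, hy, ey⟩ := hp
        refine ⟨γ * y * γ⁻¹, ⟨y, hy, rfl⟩, ?_⟩
        rw [map_mul, map_mul, map_inv, hγ, ey, ← e', map_inv]
        group
      · rw [eq_bot_iff]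
        rintro _ ⟨hker, y, hy, rfl⟩
        have hyk : y ∈ σ.ker := by
          have h := (MonoidHom.normal_ker σ).conj_mem _ hker γ⁻¹
          rwa [show γ⁻¹ * (MulAut.conj γ).toMonoidHom y * γ⁻¹⁻¹ = y by simp [mul_assoc]] at h
        rw [Subgroup.mem_bot.1 ((hint u hu).le ⟨hyk, hy⟩), map_one]
        exact Subgroup.one_mem _
      · rintro _ ⟨y, hy, rfl⟩
        refine ⟨(γ⁻¹ * δ * γ) * y * (γ⁻¹ * δ * γ)⁻¹,
          hnorm u hu _ (g⁻¹ * t (sv g u) * g) 1 (by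
            rw [map_mul, map_mul, map_inv, hγ, hδ, ← map_inv, ← map_mul, ← map_mul]) (by
            rw [one_smul, sv_mul, sv_mul, ht2 _ hgu, sv_inv_sv]) y hy, ?_⟩
        simp [MulAut.conj_apply, mul_assoc]
    rintro g hg γ hγ _ ⟨a, ha, b, hb, rfl⟩
    rw [show γ * (a * b) * γ⁻¹ = (γ * a * γ⁻¹) * (γ * b * γ⁻¹) by group]
    rcases hg with hg | hg
    · refine M.mul_mem (hM1 (hg ▸ hequiv hu1 g γ hγ a ha)) ?_
      exact hsub hu1 hu2 h12 hM1 hM2 (by rw [sv_herm, hu2]) (by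
        conv_lhs => rw [← hg, sv_herm]
        exact h21) (hequiv hu2 g γ hγ b hb)
    · refine M.mul_mem ?_ (hM2 (hg ▸ hequiv hu2 g γ hγ b hb))
      exact hsub hu2 hu1 h21 hM2 hM1 (by rw [sv_herm, hu1]) (by
        conv_lhs => rw [← hg, sv_herm]
        exact h12) (hequiv hu1 g γ hγ a ha)
  have horth : ∀ {a b : Vm}, hm[a, a] = 1 → hm[b, b] = 1 → hm[a, b] = 0 → Orthonorm q ![a, b] := by
    intro a b ha hb hab i j
    fin_cases i <;> fin_cases j <;> simp [ha, hb, hab, herm_eq_zero_comm hF hab]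
  have hall : ∀ (g : SUm) (γ : Γ), σ γ = emb hF T g → ∀ x ∈ M, γ * x * γ⁻¹ ∈ M := by
    intro g γ hγ x hx
    obtain ⟨w, hw, hw1, hwg, -⟩ := exists_norm_one_perp hF h7 u1 (sv g u1) u1
    obtain ⟨h1, hh1⟩ := exists_SU_map_orthonorm hF (horth hu1 hu2 h12)
      (horth hu1 hw (herm_eq_zero_comm hF hw1)) (by omega)
    obtain ⟨k, hk⟩ := exists_SU_map_orthonorm hF (horth hw hu1 hw1)
      (horth hw (by rw [sv_herm, hu1]) hwg) (by omega)
    have a1 : sv h1 u1 = u1 := hh1 0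
    have a2 : sv h1 u2 = w := hh1 1
    have b1 : sv k w = w := hk 0
    have b2 : sv k u1 = sv g u1 := hk 1
    have a1' : sv h1⁻¹ u1 = u1 := by conv_lhs => rw [← a1, sv_inv_sv]
    obtain ⟨γ1, hγ1⟩ := hs (emb hF T h1)
    obtain ⟨γk, hγk⟩ := hs (emb hF T k)
    -- `g = h1 (h1⁻¹ k h1) h1⁻¹ (k⁻¹ g)`
    have s1 := hgen (k⁻¹ * g) (Or.inl (by rw [sv_mul, ← b2, sv_inv_sv])) (γk⁻¹ * γ)
      (by rw [map_mul, map_inv, hγk, hγ, map_mul, map_inv]) x hx
    have s2 := hgen h1⁻¹ (Or.inl a1') γ1⁻¹ (by rw [map_inv, hγ1, map_inv]) _ s1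
    have s3 := hgen (h1⁻¹ * k * h1) (Or.inr (by
      rw [sv_mul, sv_mul, a2, b1, ← a2, sv_inv_sv])) (γ1⁻¹ * γk * γ1)
      (by rw [map_mul, map_mul, map_inv, hγ1, hγk, map_mul, map_mul, map_inv]) _ s2
    have s4 := hgen h1 (Or.inl a1) γ1 hγ1 _ s3
    convert s4 using 1
    group
  have hMmap : M.map σ = T.qsub hF := by
    refine le_antisymm ?_ fun g hg => ?_
    · rintro _ ⟨_, ⟨a, ha, b, hb, rfl⟩, rfl⟩
      rw [map_mul]
      exact mul_mem (hQN hu1 ha) (hQN hu2 hb)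
    · obtain ⟨w, c, hwc, rfl⟩ := hg
      obtain ⟨c1, hc1⟩ := exists_hcond hF (w - hm[w, u1] • u1)
      obtain ⟨c2, hc2⟩ := exists_hcond hF (hm[w, u1] • u1)
      have hsum : w - hm[w, u1] • u1 + hm[w, u1] • u1 = w := sub_add_cancel _ _
      have hprod := hcond_mul hF hc1 hc2
      have key : ∀ v : Vm, v = w → ∀ d, HCond q v d → HCond q w d := fun _ e _ h => e ▸ h
      have hprod' := key _ hsum _ hprod
      obtain ⟨hr, esp⟩ := heis_split hF T hwc hprod'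
      have p1 : T.heis hF _ c1 hc1 ∈ M.map σ := by
        refine Subgroup.map_mono hM1 ?_
        rw [hN u1 hu1]
        exact mem_qPart_heis hF T hc1 (hmemU.2 (by rw [herm_sub_left, herm_smul_left, hu1, mul_one, sub_self]))
      have p2 : T.heis hF _ c2 hc2 ∈ M.map σ := by
        refine Subgroup.map_mono hM2 ?_
        rw [hN u2 hu2]
        exact mem_qPart_heis hF T hc2 (hmemU.2 (by rw [herm_smul_left, h12, mul_zero]))
      have p3 : ctr hF T _ hr ∈ M.map σ := by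
        refine Subgroup.map_mono hM1 ?_
        rw [hN u1 hu1]
        exact mem_qPart_heis hF T _ (Submodule.zero_mem _)
      have h := mul_mem (mul_mem p1 p2) p3
      rw [T.heis_mul hF, T.heis_congr hF hprod hprod' hsum rfl, ← esp] at h
      exact h
  refine hasRad_of_one hF (by omega) T hs hc hMmap ?_ ?_
  · rw [eq_bot_iff]
    rintro _ ⟨hker, a, ha, b, hb, rfl⟩
    change a * b ∈ σ.ker at hker
    have hb1 : b ∈ Nu u1 := trans' hu2 hu1 h21 hb (by
      rw [show σ b = (σ a)⁻¹ from eq_inv_of_mul_eq_one_right (by rw [← map_mul]; exact hker)]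
      exact inv_mem (hmap hu1 ha))
    exact (hint u1 hu1).le ⟨hker, mul_mem ha hb1⟩
  · intro γ hγ x hx
    obtain ⟨h, hh, g, hg⟩ := exists_decomp hF T hγ
    rw [← qsub_eq_qAt hF T] at hh
    obtain ⟨η, hη⟩ := hs h
    have s1 := hall g (η⁻¹ * γ) (by rw [map_mul, map_inv, hη, hg]) x hx
    obtain ⟨a, ha, b, hb, e⟩ := s1
    have hηQ : η ∈ (T.qsub hF).comap σ := by rw [Subgroup.mem_comap, hη]; exact hh
    refine ⟨η * a * η⁻¹, hQc hu1 η hηQ a ha, η * b * η⁻¹, hQc hu2 η hηQ b hb, ?_⟩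
    calc γ * x * γ⁻¹ = η * ((η⁻¹ * γ) * x * (η⁻¹ * γ)⁻¹) * η⁻¹ := by group
      _ = _ := by rw [e]; group

variable (p : ℕ) [Fact p.Prime] [CharP F p]

include hF in
/-- `SU_{m+2}(2)` with `m ≡ 1 (mod 3)`, `m ≥ 7`, in the defining characteristic. -/
theorem noMult_su_defining_two (hq : q = 2) (hm3 : m % 3 = 1) (h7 : 7 ≤ m) :
    NoMult p (↥(Cfsg.SU (m + 2) F q)) := by
  intro Γ _ _ σ hs hc hA
  obtain ⟨T⟩ := exists_frame (m := m) hF
  classical
  obtain ⟨z, hz0, hz1⟩ : ∃ z : F, z ≠ 0 ∧ z ≠ 1 := by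
    obtain ⟨z, hz⟩ := Finset.exists_mem_notMem_of_card_lt_card (s := ({0, 1} : Finset F)) (t := Finset.univ)
      (lt_of_le_of_lt Finset.card_le_two (by rw [Finset.card_univ, hF, hq]; norm_num))
    exact ⟨z, fun h => hz.2 (by simp [h]), fun h => hz.2 (by simp [h])⟩
  have hz3 : z ^ 3 = 1 := by
    have h := FiniteField.pow_card_sub_one_eq_one z hz0
    rwa [hF, hq] at h
  refine ker_inf_commutator_of_hasRad hF p _ Γ σ hs hc hA (hasRad_of_quasi hF T h7 hs hc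
    (ker_inf_commutator_heis hF p (by omega) (by omega) (by omega) T σ hs hc hA) (z := z) ?_ hz1 ?_)
  · rw [hq]; exact hz3
  · rw [show m - 1 = 3 * ((m - 1) / 3) by omega, pow_mul, hz3, one_pow]

end CfsgLib.SchurClassical.Un
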