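import Mathlib
import Cfsg.Agent.SchurClassical.Lifts

/-!
An abelian subgroup with enough fusion, extended by one element centralised by enough involutions,
carries no stem kernel at an odd prime; and a reduction along a kernel generated by `p`-elements.
-/

set_option autoImplicit false

namespace CfsgLib.SchurClassical

open Subgroup
open scoped commutatorElement

universe u

variable {Γ G : Type u} [Group Γ] [Group G] [Finite Γ] {σ : Γ →* G} {r : ℕ}

omit [Group G] [Finite Γ] in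
theorem commutator_inv_inv_of_central {a b : Γ} (h : ⁅a, b⁆ ∈ center Γ) :
    ⁅b⁻¹, a⁻¹⁆ = ⁅a, b⁆⁻¹ ∧ ⁅a⁻¹, b⁆ = ⁅a, b⁆⁻¹ := by
  set c := ⁅a, b⁆ with hc
  have hab : a * b = c * (b * a) := by rw [hc, commutatorElement_def]; group
  have hi : c⁻¹ ∈ center Γ := inv_mem h
  constructor
  · rw [commutatorElement_def, inv_inv, inv_inv,
      show b⁻¹ * a⁻¹ * b * a = (a * b)⁻¹ * (b * a) by group, hab, mul_inv_rev, mul_assoc,
      ← mem_center_iff.1 hi (b * a), inv_mul_cancel_left]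
  · rw [commutatorElement_def, inv_inv, show a⁻¹ * b * a * b⁻¹ = a⁻¹ * c⁻¹ * a by
      rw [hc, commutatorElement_def]; group, mul_assoc, ← mem_center_iff.1 hi a, inv_mul_cancel_left]

theorem eq_one_of_mul_self {A : Type*} [Group A] (hr : r.Prime) (hr2 : r ≠ 2) {c : A} {k : ℕ}
    (h1 : c ^ r ^ k = 1) (h2 : c * c = 1) : c = 1 :=
  eq_one_of_pow_prime_pow h1 (by rwa [pow_two]) ((Nat.coprime_primes hr Nat.prime_two).2 hr2)

variable (hr : r.Prime) (hr2 : r ≠ 2) (hs : Function.Surjective σ) (hc : σ.ker ≤ center Γ)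
  (hA : IsPGroup r σ.ker)

omit [Finite Γ] in
include hA in
theorem exists_pow_eq_one {c : Γ} (h : c ∈ σ.ker) : ∃ k : ℕ, c ^ r ^ k = 1 := by
  obtain ⟨k, hk⟩ := hA ⟨c, h⟩
  exact ⟨k, congrArg Subtype.val hk⟩

omit [Finite Γ] in
include hr hr2 hs hc hA in
/-- Lifts of two generators exchanged or inverted by a conjugation commute. -/
theorem commute_lift_of_fusion {a b : Γ} (hab : Commute (σ a) (σ b))
    (h : σ a = σ b ∨ ∃ g : G, (g * σ a * g⁻¹ = (σ b)⁻¹ ∧ g * σ b * g⁻¹ = (σ a)⁻¹) ∨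
      (g * σ a * g⁻¹ = (σ a)⁻¹ ∧ g * σ b * g⁻¹ = σ b)) : Commute a b := by
  have hker : ⁅a, b⁆ ∈ σ.ker := by
    rw [MonoidHom.mem_ker, map_commutatorElement, commutatorElement_eq_one_iff_commute]
    exact hab
  refine commutatorElement_eq_one_iff_commute.1 ?_
  rcases h with e | ⟨g, h⟩
  · rw [Schur.commutator_congr hc (g := a) (g' := a) (h := b) (h' := a) rfl e.symm, commutatorElement_self]
  obtain ⟨x, rfl⟩ := hs g
  have hconj : ⁅x * a * x⁻¹, x * b * x⁻¹⁆ = ⁅a, b⁆ := by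
    rw [show ⁅x * a * x⁻¹, x * b * x⁻¹⁆ = x * ⁅a, b⁆ * x⁻¹ by simp only [commutatorElement_def]; group,
      mem_center_iff.1 (hc hker) x, mul_inv_cancel_right]
  obtain ⟨k, hk⟩ := exists_pow_eq_one hA hker
  refine eq_one_of_mul_self hr hr2 hk ?_
  obtain ⟨i1, i2⟩ := commutator_inv_inv_of_central (hc hker)
  have key : ⁅a, b⁆ = ⁅a, b⁆⁻¹ := by
    rcases h with ⟨h1, h2⟩ | ⟨h1, h2⟩
    · conv_rhs => rw [← i1]
      rw [← hconj]
      exact Schur.commutator_congr hc (by rw [map_mul, map_mul, map_inv, h1, map_inv])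
        (by rw [map_mul, map_mul, map_inv, h2, map_inv])
    · conv_rhs => rw [← i2]
      rw [← hconj]
      exact Schur.commutator_congr hc (by rw [map_mul, map_mul, map_inv, h1, map_inv])
        (by rw [map_mul, map_mul, map_inv, h2])
  nth_rewrite 2 [key]
  exact mul_inv_cancel _

omit [Finite Γ] in
include hr hr2 hs hc hA in
theorem commute_lift_of_closure {S : Set G} (hcomm : ∀ s ∈ S, ∀ u ∈ S, Commute s u)
    (hfus : ∀ s ∈ S, ∀ u ∈ S, s = u ∨ ∃ g : G, (g * s * g⁻¹ = u⁻¹ ∧ g * u * g⁻¹ = s⁻¹) ∨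
      (g * s * g⁻¹ = s⁻¹ ∧ g * u * g⁻¹ = u))
    {a b : Γ} (ha : σ a ∈ closure S) (hb : σ b ∈ closure S) : Commute a b := by
  have key : ∀ {b : Γ}, (∀ a : Γ, σ a ∈ S → Commute a b) → ∀ a : Γ, σ a ∈ closure S → Commute a b := by
    intro b hb a ha
    have : closure S ≤ (centralizer {b}).map σ := (closure_le _).2 fun s hs' => by
      obtain ⟨x, rfl⟩ := hs s
      exact ⟨x, mem_centralizer_singleton_iff.2 (hb x hs'), rfl⟩
    obtain ⟨x, hx, e⟩ := this ha
    have hz : x⁻¹ * a ∈ center Γ := hc (by rw [MonoidHom.mem_ker, map_mul, map_inv, e, inv_mul_cancel])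
    rw [show a = x * (x⁻¹ * a) by group]
    exact Commute.mul_left (mem_centralizer_singleton_iff.1 hx) (mem_center_iff.1 hz b).symm
  refine key (fun x hx => ?_) a ha
  refine (key (fun y hy => ?_) b hb).symm
  exact commute_lift_of_fusion hr hr2 hs hc hA (hcomm _ hy _ hx) (hfus _ hy _ hx)

omit [Finite Γ] in
include hr hr2 hs hc hA in
/-- An involution centralising `x` has lifts commuting with those of `x`; so has anything they generate. -/
theorem commute_lift_of_involutions {a b : Γ}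
    (hb : σ b ∈ closure {t : G | t * t = 1 ∧ Commute t (σ a)}) : Commute a b := by
  have : closure {t : G | t * t = 1 ∧ Commute t (σ a)} ≤ (centralizer {a}).map σ :=
    (closure_le _).2 fun t ⟨ht2, hta⟩ => by
      obtain ⟨x, rfl⟩ := hs t
      refine ⟨x, mem_centralizer_singleton_iff.2 (Commute.symm ?_), rfl⟩
      have hker : ⁅a, x⁆ ∈ σ.ker := by
        rw [MonoidHom.mem_ker, map_commutatorElement, commutatorElement_eq_one_iff_commute]
        exact hta.symm
      have hx2 : x * x ∈ center Γ := hc (by rw [MonoidHom.mem_ker, map_mul, ht2])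
      refine commutatorElement_eq_one_iff_commute.1 ?_
      obtain ⟨k, hk⟩ := exists_pow_eq_one hA hker
      refine eq_one_of_mul_self hr hr2 hk ?_
      have e : ⁅a, x * x⁆ = 1 :=
        commutatorElement_eq_one_iff_commute.2 (mem_center_iff.1 hx2 a)
      rw [show ⁅a, x * x⁆ = ⁅a, x⁆ * (x * ⁅a, x⁆ * x⁻¹) by simp only [commutatorElement_def]; group,
        mem_center_iff.1 (hc hker) x, mul_inv_cancel_right] at e
      exact e
  obtain ⟨x, hx, e⟩ := this hb
  have hz : x⁻¹ * b ∈ center Γ := hc (by rw [MonoidHom.mem_ker, map_mul, map_inv, e, inv_mul_cancel])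
  rw [show b = x * (x⁻¹ * b) by group]
  exact Commute.mul_right (mem_centralizer_singleton_iff.1 hx).symm (mem_center_iff.1 hz a)

include hr hr2 hs hc hA in
/-- The key statement. -/
theorem ker_inf_commutator_monomial {S : Set G} {w : G} (hcomm : ∀ s ∈ S, ∀ u ∈ S, Commute s u)
    (hfus : ∀ s ∈ S, ∀ u ∈ S, s = u ∨ ∃ g : G, (g * s * g⁻¹ = u⁻¹ ∧ g * u * g⁻¹ = s⁻¹) ∨
      (g * s * g⁻¹ = s⁻¹ ∧ g * u * g⁻¹ = u))
    (hw : ∀ x ∈ closure S, w * x * w⁻¹ ∈ closure S)
    (hinv : ∀ x ∈ closure S, Commute x w → w ∈ closure {t : G | t * t = 1 ∧ Commute t x}) :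
    σ.ker ⊓ ⁅(closure (S ∪ {w})).comap σ, (closure (S ∪ {w})).comap σ⁆ = ⊥ := by
  obtain ⟨ŵ, rfl⟩ := hs w
  set A := (closure S).comap σ
  have hAc : ∀ a ∈ A, ∀ b ∈ A, Commute a b := fun a ha b hb =>
    commute_lift_of_closure hr hr2 hs hc hA hcomm hfus ha hb
  have hnorm : ∀ a ∈ A, ŵ * a * ŵ⁻¹ ∈ A := fun a ha => by
    show σ (ŵ * a * ŵ⁻¹) ∈ closure S
    rw [map_mul, map_mul, map_inv]; exact hw _ ha
  have hφA : ∀ a ∈ A, ⁅a, ŵ⁆ ∈ A := fun a ha => by
    rw [show ⁅a, ŵ⁆ = a * (ŵ * a⁻¹ * ŵ⁻¹) by rw [commutatorElement_def]; group]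
    exact mul_mem ha (hnorm _ (inv_mem ha))
  let φ : ↥A →* Γ := MonoidHom.mk' (fun a => ⁅(a : Γ), ŵ⁆) fun a b => by
    show ⁅(a : Γ) * b, ŵ⁆ = ⁅(a : Γ), ŵ⁆ * ⁅(b : Γ), ŵ⁆
    rw [show ⁅(a : Γ) * b, ŵ⁆ = (a : Γ) * ⁅(b : Γ), ŵ⁆ * (a : Γ)⁻¹ * ⁅(a : Γ), ŵ⁆ by
      simp only [commutatorElement_def]; group]
    rw [(hAc _ a.2 _ (hφA _ b.2)).eq, mul_inv_cancel_right, (hAc _ (hφA _ b.2) _ (hφA _ a.2)).eq]
  set D := φ.range
  have hDA : D ≤ A := by rintro _ ⟨a, rfl⟩; exact hφA _ a.2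
  set H := (closure (S ∪ {σ ŵ})).comap σ
  set gens : Set Γ := (A : Set Γ) ∪ {ŵ}
  have hHgen : H ≤ closure gens := by
    intro h hh
    have hle : closure (S ∪ {σ ŵ}) ≤ (closure gens).map σ := (closure_le _).2 fun g hg => by
      rcases hg with hg | hg
      · obtain ⟨a, rfl⟩ := hs g
        exact ⟨a, subset_closure (Or.inl (show a ∈ A from subset_closure hg)), rfl⟩
      · rw [Set.mem_singleton_iff.1 hg]
        exact ⟨ŵ, subset_closure (Or.inr rfl), rfl⟩
    obtain ⟨x, hx, e⟩ := hle hh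
    have hk : x⁻¹ * h ∈ A := by
      show σ (x⁻¹ * h) ∈ closure S
      rw [map_mul, map_inv, e, inv_mul_cancel]; exact one_mem _
    rw [show h = x * (x⁻¹ * h) by group]
    exact mul_mem hx (subset_closure (Or.inl hk))
  set K := closure gens
  have hDK : D ≤ K := hDA.trans fun a ha => subset_closure (Or.inl ha)
  have hKn : K ≤ normalizer (D : Set Γ) := by
    refine (closure_le _).2 fun g hg => ?_
    rcases hg with hg | hg
    · exact mem_normalizer_iff.2 fun x => by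
        constructor
        · intro hx; rwa [(hAc _ hg _ (hDA hx)).eq, mul_inv_cancel_right]
        · intro hx
          have h1 := (hAc _ hg _ (hDA hx)).eq
          have : x = g * x * g⁻¹ := by
            calc x = g⁻¹ * (g * x * g⁻¹ * g) := by group
              _ = g⁻¹ * (g * (g * x * g⁻¹)) := by rw [← h1]
              _ = g * x * g⁻¹ := by group
          rwa [this]
    · obtain rfl : g = ŵ := hg
      refine mem_normalizer_fintype fun x hx => ?_
      obtain ⟨a, rfl⟩ := hx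
      refine ⟨⟨g * a * g⁻¹, hnorm _ a.2⟩, ?_⟩
      show ⁅g * (a : Γ) * g⁻¹, g⁆ = g * ⁅(a : Γ), g⁆ * g⁻¹
      simp only [commutatorElement_def]; group
  haveI : (D.subgroupOf K).Normal := (normal_subgroupOf_iff_le_normalizer hDK).2 hKn
  have hquot : ∀ x ∈ K, ∀ y ∈ K, ⁅x, y⁆ ∈ D := by
    let π := QuotientGroup.mk' (D.subgroupOf K)
    have hgc : ∀ x y : ↥K, (x : Γ) ∈ gens → (y : Γ) ∈ gens → Commute (π x) (π y) := by
      intro x y hx hy
      refine commutatorElement_eq_one_iff_commute.1 ?_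
      rw [← map_commutatorElement, ← MonoidHom.mem_ker, QuotientGroup.ker_mk', mem_subgroupOf]
      show ⁅(x : Γ), (y : Γ)⁆ ∈ D
      rcases hx with hx | hx <;> rcases hy with hy | hy
      · rw [commutatorElement_eq_one_iff_commute.2 (hAc _ hx _ hy)]; exact one_mem _
      · rw [Set.mem_singleton_iff.1 hy]; exact ⟨⟨_, hx⟩, rfl⟩
      · rw [Set.mem_singleton_iff.1 hx, ← commutatorElement_inv]; exact inv_mem ⟨⟨_, hy⟩, rfl⟩
      · rw [Set.mem_singleton_iff.1 hx, Set.mem_singleton_iff.1 hy, commutatorElement_self]; exact one_mem _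
    intro x hx y hy
    have htop : closure ((Subtype.val : ↥K → Γ) ⁻¹' gens) = ⊤ := closure_closure_coe_preimage
    have key : ∀ y0 : ↥K, (∀ x : ↥K, (x : Γ) ∈ gens → Commute (π x) (π y0)) →
        ∀ x : ↥K, Commute (π x) (π y0) := by
      intro y0 h x
      have : (⊤ : Subgroup ↥K) ≤ (centralizer {π y0}).comap π := by
        rw [← htop, closure_le]
        exact fun z hz => mem_centralizer_singleton_iff.2 (h z hz)
      exact mem_centralizer_singleton_iff.1 (this (mem_top x))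
    have h := key ⟨y, hy⟩ (fun x' hx' => (key x' (fun z hz => hgc z x' hz hx') ⟨y, hy⟩).symm) ⟨x, hx⟩
    have h' := commutatorElement_eq_one_iff_commute.2 h
    rwa [← map_commutatorElement, ← MonoidHom.mem_ker, QuotientGroup.ker_mk', mem_subgroupOf] at h'
  rw [eq_bot_iff]
  rintro z ⟨hz, hzc⟩
  have hzD : z ∈ D := (commutator_le.2 fun x hx y hy => hquot x (hHgen hx) y (hHgen hy)) hzc
  obtain ⟨⟨a, ha⟩, rfl⟩ := hzD
  have hcm : Commute (σ a) (σ ŵ) := by
    refine commutatorElement_eq_one_iff_commute.1 ?_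
    rw [← map_commutatorElement]; exact hz
  rw [mem_bot]
  exact commutatorElement_eq_one_iff_commute.2
    (commute_lift_of_involutions hr hr2 hs hc hA (hinv _ ha hcm))

omit [Finite Γ] in
/-- A kernel generated by `p`-elements does not contribute to the `r`-multiplier. -/
theorem noMult_of_ker {G L : Type u} [Group G] [Group L] {p r : ℕ} (hp : p.Prime)
    (hr : r.Prime) (hne : r ≠ p) (π : G →* L) (hπ : Function.Surjective π)
    (hgen : closure (pElts p ↥π.ker) = ⊤) (hK : NoMult r ↥π.ker) (hL : NoMult r L) : NoMult r G := by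
  intro Γ _ _ σ hs hc hA
  haveI := Fact.mk hp
  haveI := Fact.mk hr
  let T : Set Γ := {t | t ∈ pElts p Γ ∧ σ t ∈ π.ker}
  let N := closure T
  haveI : N.Normal := by
    refine ⟨fun n hn g => ?_⟩
    refine (closure_le (N.comap (MulAut.conj g).toMonoidHom)).2 (fun t ht => subset_closure ?_) hn
    refine ⟨conj_mem_pElts ht.1 g, ?_⟩
    show σ (g * t * g⁻¹) ∈ π.ker
    rw [map_mul, map_mul, map_inv]
    exact (MonoidHom.normal_ker π).conj_mem _ ht.2 _
  have hint : σ.ker ⊓ N = ⊥ :=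
    ker_inf_closure_pElts hp hr hne hA (ker_inf_commutator_comap hs hc hA hK)
      (fun t ht => ht.1) fun t ht => ht.2
  have hmap : N.map σ = π.ker := by
    refine le_antisymm (map_le_iff_le_comap.2 ((closure_le _).2 fun t ht => ht.2)) fun g hg => ?_
    have : (⊤ : Subgroup ↥π.ker) ≤ (N.map σ).comap π.ker.subtype := by
      rw [← hgen, closure_le]
      rintro ⟨x, hx⟩ ⟨k, hk⟩
      obtain ⟨t, ht, rfl⟩ := exists_pElt_lift hp hr hne hs hA (g := x) ⟨k, congrArg Subtype.val hk⟩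
      exact ⟨t, subset_closure ⟨ht, hx⟩, rfl⟩
    exact this (mem_top ⟨g, hg⟩)
  exact ker_inf_commutator_of_quotient hs hc hA hπ hL hmap hint

end CfsgLib.SchurClassical
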