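import Mathlib
import Cfsg.Agent.Classical.Unitary.Center
import Cfsg.Agent.Classical.Unitary.Order
import Cfsg.Agent.Classical.Unitary.Action
import Cfsg.Agent.SchurClassical.Monomial

/-!
The monomial subgroup carries the `3`-part of the multiplier of `SU_3(q)`, `3 ∣ q + 1`, and of `SU_4(2)`.
-/

set_option autoImplicit false

namespace CfsgLib.SchurClassical.Un

open Matrix CfsgLib.Unitary

universe u

variable {F : Type u} [Field F] [Fintype F] {n q : ℕ}

/-- The norm one units. -/
def circ (F : Type u) [Field F] (q : ℕ) : Subgroup Fˣ := (powMonoidHom (q + 1) : Fˣ →* Fˣ).ker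

omit [Fintype F] in
theorem mem_circ {a : Fˣ} : a ∈ circ F q ↔ a ^ (q + 1) = 1 := Iff.rfl

theorem card_circ (hF : Fintype.card F = q ^ 2) : Nat.card ↥(circ F q) = q + 1 := by
  rw [← card_units_pow_eq_one hF (d := q + 1) (dvd_mul_left _ _)]
  exact Nat.card_congr (Equiv.subtypeEquivRight fun a => mem_circ)

/-- The product of the entries. -/
def prodHom (n : ℕ) (F : Type u) [Field F] (q : ℕ) : (Fin n → ↥(circ F q)) →* ↥(circ F q) where
  toFun d := ∏ i, d i
  map_one' := by simp
  map_mul' a b := by simp [Finset.prod_mul_distrib]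

/-- The diagonal parameters. -/
abbrev dPar (n : ℕ) (F : Type u) [Field F] (q : ℕ) : Subgroup (Fin n → ↥(circ F q)) := (prodHom n F q).ker

omit [Fintype F] in
theorem coe_pow_circ (a : ↥(circ F q)) : (((a : Fˣ) : F)) ^ (q + 1) = 1 := by
  rw [← Units.val_pow_eq_pow_val, mem_circ.1 a.2, Units.val_one]

omit [Fintype F] in
theorem prod_coe {d : Fin n → ↥(circ F q)} (h : d ∈ dPar n F q) : (∏ i, ((d i : Fˣ) : F)) = 1 := by
  have h1 : (∏ i, d i) = 1 := h
  have h2 := congrArg (fun a : ↥(circ F q) => ((a : Fˣ) : F)) h1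
  simpa using h2

/-- The diagonal torus. -/
def diagSU (n : ℕ) (F : Type u) [Field F] [Fintype F] (q : ℕ) : ↥(dPar n F q) →* ↥(Cfsg.SU n F q) :=
  MonoidHom.mk' (fun d => monoSU (fun i => ((d.1 i : Fˣ) : F)) (fun i => coe_pow_circ _) 1
    (by rw [prod_coe d.2]; simp)) fun a b => sv_ext fun x => funext fun j => by
      rw [sv_mul]
      show (monoMat _ 1 *ᵥ x) j = (monoMat _ 1 *ᵥ (monoMat _ 1 *ᵥ x)) j
      simp only [monoMat_mulVec]
      simp [mul_assoc]

theorem sv_diagSU (d : ↥(dPar n F q)) (x : Fin n → F) (j : Fin n) :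
    sv (diagSU n F q d) x j = ((d.1 j : Fˣ) : F) * x j := by
  show (monoMat _ 1 *ᵥ x) j = _
  rw [monoMat_mulVec]; simp

theorem diagSU_injective : Function.Injective (diagSU n F q) := fun a b h =>
  Subtype.ext (funext fun i => Subtype.ext (Units.ext (by
    have h1 := congrFun (congrArg (fun g => sv g (fun _ => (1 : F))) h) i
    simpa [sv_diagSU] using h1)))

/-- The permutation of the parameters. -/
def permPar (π : Equiv.Perm (Fin n)) (d : ↥(dPar n F q)) : ↥(dPar n F q) :=
  ⟨d.1 ∘ π, by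
    show (∏ i, d.1 (π i)) = 1
    rw [Equiv.prod_comp π]
    exact d.2⟩

theorem neg_one_circ (hF : Fintype.card F = q ^ 2) (c : Fin n) (i : Fin n) :
    (Function.update (fun _ : Fin n => (1 : F)) c (-1)) i ^ (q + 1) = 1 :=
  update_one_pow c (neg_one_pow_succ hF) i

/-- A transposition of coordinates with a sign elsewhere. -/
def swapSU (hF : Fintype.card F = q ^ 2) {a b : Fin n} (hab : a ≠ b) (c : Fin n) : ↥(Cfsg.SU n F q) :=
  monoSU (Function.update (fun _ => (1 : F)) c (-1)) (neg_one_circ hF c) (Equiv.swap a b) (by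
    rw [Finset.prod_update_of_mem (Finset.mem_univ c), Equiv.Perm.sign_swap hab]
    simp)

theorem sv_swapSU (hF : Fintype.card F = q ^ 2) {a b : Fin n} (hab : a ≠ b) (c : Fin n) (x : Fin n → F)
    (j : Fin n) : sv (swapSU hF hab c) x j =
      Function.update (fun _ => (1 : F)) c (-1) j * x (Equiv.swap a b j) := by
  show (monoMat _ (Equiv.swap a b) *ᵥ x) j = _
  rw [monoMat_mulVec]

theorem swapSU_conj (hF : Fintype.card F = q ^ 2) {a b : Fin n} (hab : a ≠ b) (c : Fin n) (d : ↥(dPar n F q)) :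
    swapSU hF hab c * diagSU n F q d * (swapSU hF hab c)⁻¹ = diagSU n F q (permPar (Equiv.swap a b) d) := by
  rw [mul_inv_eq_iff_eq_mul]
  refine sv_ext fun x => funext fun j => ?_
  simp only [sv_mul, sv_diagSU, sv_swapSU, permPar, Function.comp_apply]
  ring

theorem swapSU_mul_self (hF : Fintype.card F = q ^ 2) {a b : Fin n} (hab : a ≠ b) {c : Fin n} (hca : c ≠ a)
    (hcb : c ≠ b) : swapSU hF hab c * swapSU hF hab c = 1 := by
  refine sv_ext fun x => funext fun j => ?_
  rw [sv_mul, sv_swapSU, sv_swapSU, sv_one, Equiv.swap_apply_self, ← mul_assoc]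
  by_cases h : j = c
  · subst h
    rw [Equiv.swap_apply_of_ne_of_ne hca hcb, Function.update_self]
    ring
  · have h' : Equiv.swap a b j ≠ c := fun e => h (by
      rw [← Equiv.swap_apply_self a b j, e, Equiv.swap_apply_of_ne_of_ne hca hcb])
    rw [Function.update_of_ne h, Function.update_of_ne h', one_mul, one_mul]

open scoped _root_.Classical in
/-- The parameter with `t` at `i` and `t⁻¹` at `j`. -/
noncomputable def twoPar {i j : Fin n} (hij : i ≠ j) (t : ↥(circ F q)) : ↥(dPar n F q) :=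
  ⟨Pi.mulSingle i t * Pi.mulSingle j t⁻¹, by
    show (∏ k, (Pi.mulSingle i t * Pi.mulSingle j t⁻¹ : Fin n → ↥(circ F q)) k) = 1
    simp only [Pi.mul_apply, Finset.prod_mul_distrib, Finset.prod_pi_mulSingle' (M := ↥(circ F q)),
      Finset.mem_univ, if_true, mul_inv_cancel]⟩

omit [Fintype F] in
theorem twoPar_apply {i j : Fin n} (hij : i ≠ j) (t : ↥(circ F q)) (k : Fin n) :
    (twoPar hij t).1 k = if k = i then t else if k = j then t⁻¹ else 1 := by
  classical
  show (Pi.mulSingle i t : Fin n → ↥(circ F q)) k * (Pi.mulSingle j t⁻¹ : Fin n → ↥(circ F q)) k = _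
  rcases eq_or_ne k i with rfl | h1
  · simp [hij]
  rcases eq_or_ne k j with rfl | h2
  · simp [h1]
  simp [h1, h2]

section Index

variable (hF : Fintype.card F = q ^ 2)

include hF in
theorem card_diag (hn : 1 ≤ n) : Nat.card ↥(diagSU n F q).range = (q + 1) ^ (n - 1) := by
  classical
  obtain ⟨m, rfl⟩ : ∃ m, n = m + 1 := ⟨n - 1, by omega⟩
  rw [← Nat.card_congr (MonoidHom.ofInjective diagSU_injective).toEquiv, Nat.add_sub_cancel]
  have hsurj : Function.Surjective (prodHom (m + 1) F q) := fun a => ⟨Pi.mulSingle 0 a, by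
    show (∏ k, (Pi.mulSingle (0 : Fin (m + 1)) a : Fin (m + 1) → ↥(circ F q)) k) = a
    simp⟩
  have h := (dPar (m + 1) F q).card_mul_index
  rw [Subgroup.index_ker, MonoidHom.range_eq_top.2 hsurj, Subgroup.card_top, Nat.card_pi,
    Finset.prod_const, Finset.card_univ, Fintype.card_fin, card_circ hF, pow_succ] at h
  exact Nat.eq_of_mul_eq_mul_right (Nat.succ_pos q) h

include hF in
/-- The reduction to the monomial subgroup. -/
theorem noMult_three_of_monomial {r : ℕ} (hr3 : r = 3) (hn : 3 ≤ n) {t : ↥(circ F q)}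
    (idx : Finset (Fin n × Fin n)) (hidx : ∀ p ∈ idx, p.1 ≠ p.2)
    (hgen : ∀ d : ↥(dPar n F q), d ∈ Subgroup.closure
      {e | ∃ p, ∃ hp : p ∈ idx, e = twoPar (hidx p hp) t})
    (hfus : ∀ p, ∀ hp : p ∈ idx, ∀ u, ∀ hu : u ∈ idx, p = u ∨ ∃ a b : Fin n, a ≠ b ∧
      ((permPar (Equiv.swap a b) (twoPar (hidx p hp) t) = (twoPar (hidx u hu) t)⁻¹ ∧
        permPar (Equiv.swap a b) (twoPar (hidx u hu) t) = (twoPar (hidx p hp) t)⁻¹) ∨
      (permPar (Equiv.swap a b) (twoPar (hidx p hp) t) = (twoPar (hidx p hp) t)⁻¹ ∧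
        permPar (Equiv.swap a b) (twoPar (hidx u hu) t) = twoPar (hidx u hu) t)))
    (hcard : ∀ H : Subgroup ↥(Cfsg.SU n F q), 3 * (q + 1) ^ (n - 1) ∣ Nat.card ↥H → ¬ 3 ∣ H.index) :
    NoMult r ↥(Cfsg.SU n F q) := by
  classical
  subst hr3
  intro Γ _ _ σ hs hc hA
  let i0 : Fin n := ⟨0, by omega⟩
  let i1 : Fin n := ⟨1, by omega⟩
  let i2 : Fin n := ⟨2, by omega⟩
  have h01 : i0 ≠ i1 := by simp [i0, i1]
  have h12 : i1 ≠ i2 := by simp [i1, i2]
  have h02 : i0 ≠ i2 := by simp [i0, i2]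
  set t1 := swapSU hF h01 i2
  set t2 := swapSU hF h12 i0
  set w := t1 * t2
  set π : Equiv.Perm (Fin n) := Equiv.swap i1 i2 * Equiv.swap i0 i1
  have hwc : ∀ d, w * diagSU n F q d * w⁻¹ = diagSU n F q (permPar π d) := fun d => by
    rw [show w * diagSU n F q d * w⁻¹ = t1 * (t2 * diagSU n F q d * t2⁻¹) * t1⁻¹ by simp only [w]; group]
    rw [show t2 * diagSU n F q d * t2⁻¹ = diagSU n F q (permPar (Equiv.swap i1 i2) d) from swapSU_conj hF h12 i0 d]
    rw [show t1 * diagSU n F q (permPar (Equiv.swap i1 i2) d) * t1⁻¹ = _ from swapSU_conj hF h01 i2 _]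
    rfl
  set S : Set ↥(Cfsg.SU n F q) := {g | ∃ p, ∃ hp : p ∈ idx, g = diagSU n F q (twoPar (hidx p hp) t)}
  have hT : Subgroup.closure S = (diagSU n F q).range := by
    refine le_antisymm ((Subgroup.closure_le _).2 ?_) ?_
    · rintro _ ⟨p, hp, rfl⟩; exact ⟨_, rfl⟩
    · rintro _ ⟨d, rfl⟩
      refine (Subgroup.closure_le ((Subgroup.closure S).comap (diagSU n F q))).2 ?_ (hgen d)
      rintro _ ⟨p, hp, rfl⟩
      exact Subgroup.subset_closure ⟨p, hp, rfl⟩
  have key := ker_inf_commutator_monomial Nat.prime_three (by norm_num) hs hc hA (S := S) (w := w)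
    (by
      rintro _ ⟨p, hp, rfl⟩ _ ⟨u, hu, rfl⟩
      exact (Commute.all (twoPar (hidx p hp) t) (twoPar (hidx u hu) t)).map (diagSU n F q))
    (by
      rintro _ ⟨p, hp, rfl⟩ _ ⟨u, hu, rfl⟩
      rcases hfus p hp u hu with rfl | ⟨a, b, hab, h⟩
      · exact Or.inl rfl
      refine Or.inr ⟨swapSU hF hab i0, ?_⟩
      simp only [swapSU_conj hF hab]
      rcases h with ⟨h1, h2⟩ | ⟨h1, h2⟩
      · exact Or.inl ⟨by rw [h1, map_inv], by rw [h2, map_inv]⟩
      · exact Or.inr ⟨by rw [h1, map_inv], by rw [h2]⟩)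
    (fun x hx => by
      rw [hT] at hx ⊢
      obtain ⟨d, rfl⟩ := hx
      exact ⟨_, (hwc d).symm⟩)
    (fun x hx hxw => by
      rw [hT] at hx
      obtain ⟨d, rfl⟩ := hx
      have e : permPar π d = d := diagSU_injective (by rw [← hwc, ← hxw.eq, mul_inv_cancel_right])
      have e' : ∀ j, d.1 (π j) = d.1 j := fun j => congrFun (congrArg Subtype.val e) j
      have p0 : π i0 = i2 := by simp [π]
      have p2 : π i2 = i1 := by
        simp [π, Equiv.swap_apply_of_ne_of_ne h02.symm h12.symm]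
      have e02 : d.1 i2 = d.1 i0 := by rw [← p0]; exact e' i0
      have e12 : d.1 i1 = d.1 i2 := by rw [← p2]; exact e' i2
      have hsw : ∀ {a b : Fin n}, d.1 a = d.1 b → permPar (Equiv.swap a b) d = d := fun {a b} h =>
        Subtype.ext (funext fun j => by
          show d.1 (Equiv.swap a b j) = d.1 j
          rcases eq_or_ne j a with rfl | ha
          · rw [Equiv.swap_apply_left, h]
          rcases eq_or_ne j b with rfl | hb
          · rw [Equiv.swap_apply_right, h]
          rw [Equiv.swap_apply_of_ne_of_ne ha hb])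
      have hc1 : Commute t1 (diagSU n F q d) := by
        have h := swapSU_conj hF h01 i2 d
        rw [hsw (e12.trans e02).symm] at h
        exact mul_inv_eq_iff_eq_mul.1 h
      have hc2 : Commute t2 (diagSU n F q d) := by
        have h := swapSU_conj hF h12 i0 d
        rw [hsw e12] at h
        exact mul_inv_eq_iff_eq_mul.1 h
      exact mul_mem (Subgroup.subset_closure ⟨swapSU_mul_self hF h01 h02.symm h12.symm, hc1⟩)
        (Subgroup.subset_closure ⟨swapSU_mul_self hF h12 h01 h02, hc2⟩))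
  set H := Subgroup.closure (S ∪ {w})
  refine ker_inf_commutator_of_index Nat.prime_three hs hc hA H (hcard H ?_) key
  have hTH : (diagSU n F q).range ≤ H := hT ▸ Subgroup.closure_mono Set.subset_union_left
  set T' := (diagSU n F q).range.subgroupOf H
  haveI : T'.Normal := (Subgroup.normal_subgroupOf_iff_le_normalizer hTH).2 ((Subgroup.closure_le _).2 fun g hg => by
    rcases hg with hg | hg
    · exact Subgroup.le_normalizer (hT ▸ Subgroup.subset_closure hg)
    · obtain rfl : g = w := hg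
      refine Subgroup.mem_normalizer_fintype fun x hx => ?_
      obtain ⟨d, rfl⟩ := hx
      exact ⟨_, (hwc d).symm⟩)
  have hwH : w ∈ H := Subgroup.subset_closure (Or.inr rfl)
  have hw3 : w ^ 3 = 1 := by
    refine sv_ext fun x => funext fun j => ?_
    simp only [pow_succ, pow_zero, one_mul, w, sv_mul, t1, t2, sv_swapSU, sv_one]
    have hj : j = i0 ∨ j = i1 ∨ j = i2 ∨ (j ≠ i0 ∧ j ≠ i1 ∧ j ≠ i2) := by tauto
    rcases hj with rfl | rfl | rfl | ⟨a, b, c⟩
    all_goals
      simp [Equiv.swap_apply_of_ne_of_ne, h01, h01.symm, h12, h12.symm, h02, h02.symm, *]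
  have hwT : (⟨w, hwH⟩ : ↥H) ∉ T' := by
    rintro ⟨d, hd⟩
    have h1 := congrFun (congrArg (fun g => sv g (Pi.single i2 (1 : F))) hd) i0
    simp [sv_diagSU, w, t1, t2, sv_mul, sv_swapSU, Equiv.swap_apply_of_ne_of_ne, h01, h01.symm, h12,
      h12.symm, h02, h02.symm] at h1
  have h3 : 3 ∣ T'.index := by
    rw [Subgroup.index_eq_card]
    have ho : orderOf ((⟨w, hwH⟩ : ↥H) : ↥H ⧸ T') = 3 := by
      haveI := Fact.mk Nat.prime_three
      refine orderOf_eq_prime ?_ fun e => hwT ((QuotientGroup.eq_one_iff _).1 e)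
      rw [← QuotientGroup.mk_pow, show (⟨w, hwH⟩ : ↥H) ^ 3 = 1 from Subtype.ext hw3, QuotientGroup.mk_one]
    rw [← ho]; exact orderOf_dvd_natCard _
  have hcT : Nat.card ↥T' = (q + 1) ^ (n - 1) := by
    rw [Nat.card_congr (Subgroup.subgroupOfEquivOfLe hTH).toEquiv, card_diag hF (by omega)]
  rw [← T'.card_mul_index, hcT, mul_comm]
  exact Nat.mul_dvd_mul_left _ h3

include hF in
theorem exists_gen : ∃ t : ↥(circ F q), ∀ a : ↥(circ F q), a ∈ Subgroup.zpowers t := IsCyclic.exists_generator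

include hF in
theorem twoPar_mem {t a : ↥(circ F q)} (ha : a ∈ Subgroup.zpowers t) {i j : Fin n} (hij : i ≠ j)
    {S : Subgroup ↥(dPar n F q)} (h : twoPar hij t ∈ S) : twoPar hij a ∈ S := by
  obtain ⟨k, rfl⟩ := Subgroup.mem_zpowers_iff.1 ha
  have : twoPar hij (t ^ k) = twoPar hij t ^ k := Subtype.ext (funext fun l => by
    rw [Subgroup.coe_zpow, Pi.pow_apply, twoPar_apply, twoPar_apply]
    split_ifs <;> simp)
  rw [this]; exact S.zpow_mem h k

end Index

theorem noMult_su_three_three (hF : Fintype.card F = q ^ 2) (h3 : 3 ∣ q + 1) : NoMult 3 ↥(Cfsg.SU 3 F q) := by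
  classical
  obtain ⟨t, ht⟩ := exists_gen (F := F) hF
  refine noMult_three_of_monomial hF rfl le_rfl (t := t) {(0, 1), (1, 2)} (by simp) ?_ ?_ ?_
  · intro d
    have hd : d.1 0 * d.1 1 * d.1 2 = 1 := by
      have h : (∏ i, d.1 i) = 1 := d.2
      rwa [Fin.prod_univ_three] at h
    have e : d = twoPar (show (0 : Fin 3) ≠ 1 by decide) (d.1 0) *
        twoPar (show (1 : Fin 3) ≠ 2 by decide) (d.1 0 * d.1 1) := Subtype.ext (funext fun k => by
      rw [Subgroup.coe_mul, Pi.mul_apply, twoPar_apply, twoPar_apply]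
      fin_cases k
      · simp
      · simp
      · simpa using eq_inv_of_mul_eq_one_right hd)
    rw [e]
    exact mul_mem (twoPar_mem hF (ht _) _ (Subgroup.subset_closure ⟨(0, 1), by simp, rfl⟩))
      (twoPar_mem hF (ht _) _ (Subgroup.subset_closure ⟨(1, 2), by simp, rfl⟩))
  · intro p hp u hu
    simp only [Finset.mem_insert, Finset.mem_singleton] at hp hu
    rcases hp with rfl | rfl <;> rcases hu with rfl | rfl
    all_goals first
      | exact Or.inl rfl
      | (refine Or.inr ⟨0, 2, by decide, Or.inl ⟨?_, ?_⟩⟩ <;>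
          refine Subtype.ext (funext fun k => ?_) <;>
          simp only [permPar, Function.comp_apply, Subgroup.coe_inv, Pi.inv_apply, twoPar_apply] <;>
          fin_cases k <;> simp [Equiv.swap_apply_def])
  · intro H hH h3i
    obtain ⟨k, hk⟩ := h3
    have hq := two_le_q hF
    have hG := card_SU hF 3 (by norm_num)
    simp only [Finset.prod_range_succ, Finset.prod_range_zero] at hG
    norm_num at hG
    have hd : 3 * (q + 1) ^ 2 * H.index ∣ Nat.card ↥(Cfsg.SU 3 F q) := by
      rw [← H.card_mul_index]; exact Nat.mul_dvd_mul_right hH _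
    obtain ⟨c, hc⟩ := dvd_trans (Nat.mul_dvd_mul_left (3 * (q + 1) ^ 2) h3i) hd
    rw [← Nat.card_eq_fintype_card] at *
    have h1 : 1 ≤ q ^ 2 := Nat.one_le_pow _ _ (by omega)
    rw [hc] at hG
    zify [h1] at hG hk
    have e : (q : ℤ) = 3 * k - 1 := by linarith
    rw [e] at hG
    have hk0 : (k : ℤ) ≠ 0 := by intro e0; rw [e0] at e; omega
    have h9 : (3 * (c : ℤ)) = (3 * (k : ℤ) - 1) ^ 3 * (3 * k - 2) * (3 * (k : ℤ) ^ 2 - 3 * k + 1) := by
      refine mul_left_cancel₀ (show (81 * (k : ℤ) ^ 3) ≠ 0 by positivity) ?_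
      linear_combination hG
    have hm : ((3 * (c : ℤ)) : ZMod 3) = (((3 * (k : ℤ) - 1) ^ 3 * (3 * k - 2) * (3 * (k : ℤ) ^ 2 - 3 * k + 1) : ℤ) : ZMod 3) := by
      rw [← h9]; push_cast; rfl
    push_cast at hm
    rw [show (3 : ZMod 3) = 0 from rfl] at hm
    simp only [zero_mul, zero_sub, zero_add] at hm
    norm_num at hm
    exact absurd hm (by decide)

theorem noMult_su_four_two_three (hF : Fintype.card F = q ^ 2) (hq : q = 2) : NoMult 3 ↥(Cfsg.SU 4 F q) := by
  classical
  obtain ⟨t, ht⟩ := exists_gen (F := F) hF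
  refine noMult_three_of_monomial hF rfl (by norm_num) (t := t) {(0, 1), (1, 2), (2, 3)} (by simp) ?_ ?_ ?_
  · intro d
    have hd : d.1 0 * d.1 1 * d.1 2 * d.1 3 = 1 := by
      have h : (∏ i, d.1 i) = 1 := d.2
      rwa [Fin.prod_univ_four] at h
    have e : d = twoPar (show (0 : Fin 4) ≠ 1 by decide) (d.1 0) *
        twoPar (show (1 : Fin 4) ≠ 2 by decide) (d.1 0 * d.1 1) *
        twoPar (show (2 : Fin 4) ≠ 3 by decide) (d.1 0 * d.1 1 * d.1 2) := Subtype.ext (funext fun k => by
      rw [Subgroup.coe_mul, Subgroup.coe_mul, Pi.mul_apply, Pi.mul_apply, twoPar_apply, twoPar_apply, twoPar_apply]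
      fin_cases k
      · simp
      · simp
      · simp [mul_assoc]
      · simpa using eq_inv_of_mul_eq_one_right hd)
    rw [e]
    exact mul_mem (mul_mem (twoPar_mem hF (ht _) _ (Subgroup.subset_closure ⟨(0, 1), by simp, rfl⟩))
      (twoPar_mem hF (ht _) _ (Subgroup.subset_closure ⟨(1, 2), by simp, rfl⟩)))
      (twoPar_mem hF (ht _) _ (Subgroup.subset_closure ⟨(2, 3), by simp, rfl⟩))
  · intro p hp u hu
    simp only [Finset.mem_insert, Finset.mem_singleton] at hp hu
    rcases hp with rfl | rfl | rfl <;> rcases hu with rfl | rfl | rfl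
    all_goals first
      | exact Or.inl rfl
      | (refine Or.inr ⟨0, 2, by decide, Or.inl ⟨?_, ?_⟩⟩ <;>
          refine Subtype.ext (funext fun k => ?_) <;>
          simp only [permPar, Function.comp_apply, Subgroup.coe_inv, Pi.inv_apply, twoPar_apply] <;>
          fin_cases k <;> simp [Equiv.swap_apply_def] <;> done)
      | (refine Or.inr ⟨1, 3, by decide, Or.inl ⟨?_, ?_⟩⟩ <;>
          refine Subtype.ext (funext fun k => ?_) <;>
          simp only [permPar, Function.comp_apply, Subgroup.coe_inv, Pi.inv_apply, twoPar_apply] <;>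
          fin_cases k <;> simp [Equiv.swap_apply_def] <;> done)
      | (refine Or.inr ⟨0, 1, by decide, Or.inr ⟨?_, ?_⟩⟩ <;>
          refine Subtype.ext (funext fun k => ?_) <;>
          simp only [permPar, Function.comp_apply, Subgroup.coe_inv, Pi.inv_apply, twoPar_apply] <;>
          fin_cases k <;> simp [Equiv.swap_apply_def] <;> done)
      | (refine Or.inr ⟨2, 3, by decide, Or.inr ⟨?_, ?_⟩⟩ <;>
          refine Subtype.ext (funext fun k => ?_) <;>
          simp only [permPar, Function.comp_apply, Subgroup.coe_inv, Pi.inv_apply, twoPar_apply] <;>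
          fin_cases k <;> simp [Equiv.swap_apply_def] <;> done)
  · intro H hH h3i
    subst hq
    have hG := card_SU hF 4 (by norm_num)
    simp only [Finset.prod_range_succ, Finset.prod_range_zero] at hG
    have hd : Nat.card ↥(Cfsg.SU 4 F 2) = 25920 := by
      have e : (3 : ℕ) * Nat.card ↥(Cfsg.SU 4 F 2) = 77760 := by
        rw [show (3 : ℕ) = 2 + 1 from rfl, hG]
        norm_num [Nat.even_iff]
      omega
    have h243 : 3 * (2 + 1) ^ (4 - 1) * 3 ∣ 25920 := by
      rw [← hd, ← H.card_mul_index]; exact Nat.mul_dvd_mul hH h3i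
    norm_num at h243

end CfsgLib.SchurClassical.Un
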