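import Mathlib
import Cfsg.Agent.Classical.Unitary.SUTwo
import Cfsg.Agent.SchurClassical.SympCross
import Cfsg.Agent.SchurClassical.UnitGeom
import Cfsg.Agent.SchurClassical.UnitMono

/-!
The base groups `SU_2(q)`, `SU_3(q)`, `SU_4(2)` and the `r`-part of the multiplier of every `SU_n(q)`
for `r` different from the characteristic.
-/

set_option autoImplicit false

namespace CfsgLib.SchurClassical.Un

open Matrix CfsgLib.Unitary

universe u

variable {F : Type u} [Field F] [Fintype F] {n q : ℕ} (hF : Fintype.card F = q ^ 2)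
  (p : ℕ) [Fact p.Prime] [CharP F p] {r : ℕ}

include hF in
theorem noMult_su_two (hr : r.Prime) (hne : r ≠ p) : NoMult r ↥(Cfsg.SU 2 F q) := by
  classical
  let K : Subfield F := (conjHom hF).eqLocusField (RingHom.id F)
  haveI : Fintype K := Fintype.ofFinite K
  have hK : Fintype.card K = q := by
    rw [← Nat.card_eq_fintype_card]
    exact (Nat.card_congr (Equiv.subtypeEquivRight (p := fun x : F => x ∈ K) (q := fun x : F => x ^ q = x)
      fun x => Iff.rfl)).trans (card_fixed hF)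
  haveI : CharP K p := (RingHom.charP_iff (algebraMap K F) (algebraMap K F).injective p).2 inferInstance
  obtain ⟨e⟩ := CfsgLib.UnitaryTwo.su_two_equiv_sl_two (K := K) hF hK
  exact noMult_congr e.symm (noMult_congr Sp.sp2Equiv
    (Sp.noMult_sp2 (F := K) (Fact.out : p.Prime) hr hne))

include hF in
theorem card_su_two : Nat.card ↥(Cfsg.SU 2 F q) = q * (q ^ 2 - 1) := by
  have h := card_SU hF 2 (by norm_num)
  simp [Finset.prod_range_succ, -Nat.card_eq_fintype_card] at h
  refine Nat.eq_of_mul_eq_mul_left (Nat.succ_pos q) ?_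
  rw [Nat.succ_eq_add_one, h]
  ring

include hF in
theorem card_su_three : Nat.card ↥(Cfsg.SU 3 F q) = q ^ 3 * (q ^ 2 - 1) * (q ^ 3 + 1) := by
  have h := card_SU hF 3 (by norm_num)
  simp [Finset.prod_range_succ, Nat.even_iff, -Nat.card_eq_fintype_card] at h
  refine Nat.eq_of_mul_eq_mul_left (Nat.succ_pos q) ?_
  rw [Nat.succ_eq_add_one, h]
  ring

local notation "e₃" => (Pi.single (2 : Fin 3) (1 : F) : Fin 3 → F)

omit [Fintype F] in
theorem single_two_ne : e₃ ≠ 0 := fun h => by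
  have := congrFun h 2
  simp at this

variable (F q) in
/-- The stabiliser of the line of the last coordinate vector. -/
def lineStab : Subgroup ↥(Cfsg.SU 3 F q) where
  carrier := {g | ∃ l : Fˣ, sv g e₃ = (l : F) • e₃}
  one_mem' := ⟨1, by rw [sv_one, Units.val_one, one_smul]⟩
  mul_mem' := by
    rintro a b ⟨l, hl⟩ ⟨l', hl'⟩
    exact ⟨l' * l, by rw [sv_mul, hl', sv_smul, hl, smul_smul, Units.val_mul]⟩
  inv_mem' := by
    rintro a ⟨l, hl⟩
    refine ⟨l⁻¹, ?_⟩
    have h := congrArg (sv a⁻¹) hl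
    rw [sv_inv_sv, sv_smul] at h
    conv_rhs => rw [h, smul_smul, Units.inv_mul, one_smul]

/-- The eigenvalue. -/
noncomputable def lineChar : ↥(lineStab F q) →* Fˣ :=
  MonoidHom.mk' (fun g => g.2.choose) fun a b => Units.ext (by
    have ha : sv a.1 e₃ = ((a.2.choose : Fˣ) : F) • e₃ := a.2.choose_spec
    have hb : sv b.1 e₃ = ((b.2.choose : Fˣ) : F) • e₃ := b.2.choose_spec
    have hab : sv (a * b).1 e₃ = (((a * b).2.choose : Fˣ) : F) • e₃ := (a * b).2.choose_spec
    have hab' : sv a.1 (sv b.1 e₃) = (((a * b).2.choose : Fˣ) : F) • e₃ := (sv_mul a.1 b.1 e₃).symm.trans hab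
    rw [hb, sv_smul, ha, smul_smul] at hab'
    have h := congrFun hab' 2
    simp at h
    rw [Units.val_mul]
    linear_combination -h)

theorem lineChar_spec (g : ↥(lineStab F q)) : sv g.1 e₃ = (lineChar g : F) • e₃ := g.2.choose_spec

include hF in
theorem lineChar_range : (lineChar (F := F) (q := q)).range = circ F q := by
  refine le_antisymm ?_ ?_
  · rintro _ ⟨g, rfl⟩
    refine Units.ext ?_
    have h := sv_herm g.1 e₃ e₃
    rw [lineChar_spec, herm_smul_left, herm_smul_right, herm_single_single hF, if_pos rfl, mul_one] at h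
    rw [powMonoidHom_apply, Units.val_pow_eq_pow_val, Units.val_one, pow_succ']
    exact h
  · intro a ha
    let a' : ↥(circ F q) := ⟨a, ha⟩
    let d : ↥(dPar 3 F q) := twoPar (show (2 : Fin 3) ≠ 0 by decide) a'
    have hd : sv (diagSU 3 F q d) e₃ = (a : F) • e₃ := funext fun j => by
      rw [sv_diagSU]
      fin_cases j <;> simp [d, twoPar_apply, a']
    refine ⟨⟨_, a, hd⟩, Units.ext (smul_left_injective F (single_two_ne (F := F)) ?_)⟩
    show (lineChar (⟨_, a, hd⟩ : ↥(lineStab F q)) : F) • e₃ = (a : F) • e₃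
    rw [← lineChar_spec, hd]

/-- The matrix of the embedding of `SU_2`. -/
def upMat (M : Matrix (Fin 2) (Fin 2) F) : Matrix (Fin 3) (Fin 3) F :=
  !![M 0 0, M 0 1, 0; M 1 0, M 1 1, 0; 0, 0, 1]

omit [Fintype F] in
theorem upMat_mulVec (M : Matrix (Fin 2) (Fin 2) F) (x : Fin 3 → F) :
    upMat M *ᵥ x = ![(M *ᵥ ![x 0, x 1]) 0, (M *ᵥ ![x 0, x 1]) 1, x 2] := by
  funext i
  fin_cases i <;> simp [upMat, Matrix.mulVec, dotProduct, Fin.sum_univ_three, Fin.sum_univ_two]

omit [Fintype F] in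
theorem herm_three (a b c a' b' c' : F) :
    Cfsg.hermForm 3 F q ![a, b, c] ![a', b', c'] =
      Cfsg.hermForm 2 F q ![a, b] ![a', b'] + c * c' ^ q := by
  simp [Cfsg.hermForm, Fin.sum_univ_three, Fin.sum_univ_two]

omit [Fintype F] in
theorem vec_two_eq (v : Fin 2 → F) : ![v 0, v 1] = v := by
  funext i; fin_cases i <;> rfl

/-- The embedding of `SU_2`. -/
def upHom : ↥(Cfsg.SU 2 F q) →* ↥(Cfsg.SU 3 F q) :=
  MonoidHom.mk' (fun g =>
    ⟨⟨upMat ((g : Matrix.SpecialLinearGroup (Fin 2) F) : Matrix (Fin 2) (Fin 2) F), by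
      have h : ((g : Matrix.SpecialLinearGroup (Fin 2) F) : Matrix (Fin 2) (Fin 2) F).det = 1 := g.1.2
      rw [Matrix.det_fin_two] at h
      rw [Matrix.det_fin_three]
      simp [upMat]
      linear_combination h⟩, mem_SU.2 fun x y => by
      have hx : x = ![x 0, x 1, x 2] := by funext i; fin_cases i <;> rfl
      have hy : y = ![y 0, y 1, y 2] := by funext i; fin_cases i <;> rfl
      show Cfsg.hermForm 3 F q (upMat _ *ᵥ x) (upMat _ *ᵥ y) = _
      rw [upMat_mulVec, upMat_mulVec, herm_three, vec_two_eq, vec_two_eq]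
      rw [show ∀ u v, Cfsg.hermForm 2 F q (((g : Matrix.SpecialLinearGroup (Fin 2) F) : Matrix (Fin 2) (Fin 2) F) *ᵥ u)
        (((g : Matrix.SpecialLinearGroup (Fin 2) F) : Matrix (Fin 2) (Fin 2) F) *ᵥ v) = Cfsg.hermForm 2 F q u v from g.2]
      conv_rhs => rw [hx, hy, herm_three]⟩) fun a b => sv_ext fun x => by
      rw [sv_mul]
      show upMat _ *ᵥ x = upMat _ *ᵥ (upMat _ *ᵥ x)
      rw [upMat_mulVec, upMat_mulVec, upMat_mulVec]
      simp only [Matrix.cons_val_zero, Matrix.cons_val_one, Matrix.cons_val]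
      rw [vec_two_eq, Matrix.mulVec_mulVec]
      rfl

omit [Fintype F] in
theorem upHom_injective : Function.Injective (upHom (F := F) (q := q)) := fun a b h => sv_ext fun v => by
  have h1 : sv (upHom a) ![v 0, v 1, 0] = sv (upHom b) ![v 0, v 1, 0] := by rw [h]
  change upMat _ *ᵥ _ = upMat _ *ᵥ _ at h1
  rw [upMat_mulVec, upMat_mulVec] at h1
  simp only [Matrix.cons_val_zero, Matrix.cons_val_one] at h1
  rw [vec_two_eq] at h1
  funext i
  fin_cases i
  · exact congrFun h1 0
  · exact congrFun h1 1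

omit [Fintype F] in
theorem upHom_fix (a : ↥(Cfsg.SU 2 F q)) : sv (upHom a) e₃ = e₃ := by
  show upMat _ *ᵥ _ = _
  rw [upMat_mulVec]
  funext i
  fin_cases i <;> simp [Matrix.mulVec, dotProduct, Fin.sum_univ_two]

include hF in
theorem mem_range_upHom {g : ↥(Cfsg.SU 3 F q)} (hg : sv g e₃ = e₃) : g ∈ (upHom (F := F) (q := q)).range := by
  set M := ((g : Matrix.SpecialLinearGroup (Fin 3) F) : Matrix (Fin 3) (Fin 3) F) with hM
  have hcol : ∀ i, M i 2 = e₃ i := fun i => by
    rw [← congrFun hg i]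
    show M i 2 = (M *ᵥ e₃) i
    rw [Matrix.mulVec_single_one]; rfl
  have hrow : ∀ j, M 2 j = e₃ j := fun j => by
    have h := sv_herm g (Pi.single j (1 : F)) e₃
    rw [hg, herm_single_right _ _ (by have := two_le_q hF; omega),
      herm_single_right _ _ (by have := two_le_q hF; omega)] at h
    rw [show M 2 j = sv g (Pi.single j 1) 2 by
      show _ = (M *ᵥ Pi.single j 1) 2
      rw [Matrix.mulVec_single_one]; rfl, h]
    by_cases hj : j = 2
    · subst hj; simp
    · simp [hj, Ne.symm hj]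
  set A : Matrix (Fin 2) (Fin 2) F := !![M 0 0, M 0 1; M 1 0, M 1 1]
  have hMA : M = upMat A := by
    ext i j
    fin_cases i <;> fin_cases j <;> simp [upMat, A, hcol, hrow]
  have hdet : A.det = 1 := by
    have h : M.det = 1 := g.1.2
    rw [hMA, Matrix.det_fin_three] at h
    simp [upMat] at h
    rw [Matrix.det_fin_two]
    linear_combination h
  have hpres : ∀ x y : Fin 2 → F, Cfsg.hermForm 2 F q (A *ᵥ x) (A *ᵥ y) = Cfsg.hermForm 2 F q x y := by
    intro x y
    have h : Cfsg.hermForm 3 F q (M *ᵥ ![x 0, x 1, 0]) (M *ᵥ ![y 0, y 1, 0]) =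
        Cfsg.hermForm 3 F q ![x 0, x 1, 0] ![y 0, y 1, 0] := sv_herm g _ _
    rw [hMA, upMat_mulVec, upMat_mulVec] at h
    simp only [Matrix.cons_val_zero, Matrix.cons_val_one] at h
    rw [herm_three, herm_three, vec_two_eq, vec_two_eq] at h
    simpa [vec_two_eq] using h
  exact ⟨⟨⟨A, hdet⟩, mem_SU.2 hpres⟩, Subtype.ext (Subtype.ext hMA.symm)⟩

/-- The kernel of the eigenvalue is `SU_2`. -/
noncomputable def kerLineEquiv : ↥(Cfsg.SU 2 F q) ≃* ↥(lineChar (F := F) (q := q)).ker := by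
  let f : ↥(Cfsg.SU 2 F q) →* ↥(lineStab F q) :=
    upHom.codRestrict _ fun a => ⟨1, by rw [upHom_fix, Units.val_one, one_smul]⟩
  refine MulEquiv.ofBijective (f.codRestrict _ fun a => ?_) ⟨fun a b h => ?_, fun g => ?_⟩
  · refine Units.ext (smul_left_injective F (single_two_ne (F := F)) ?_)
    show (lineChar (f a) : F) • e₃ = ((1 : Fˣ) : F) • e₃
    rw [← lineChar_spec, Units.val_one, one_smul]
    exact upHom_fix a
  · exact upHom_injective (congrArg (fun x : ↥(lineChar (F := F) (q := q)).ker => x.1.1) h)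
  · obtain ⟨a, ha⟩ := mem_range_upHom hF (g := g.1.1) (by
      rw [lineChar_spec, show lineChar g.1 = 1 from g.2, Units.val_one, one_smul])
    exact ⟨a, Subtype.ext (Subtype.ext ha)⟩

include hF in
theorem noMult_lineStab (hr : r.Prime) (hne : r ≠ p) : NoMult r ↥(lineStab F q) := by
  set π := (lineChar (F := F) (q := q)).rangeRestrict
  have hk : π.ker = (lineChar (F := F) (q := q)).ker := MonoidHom.ker_rangeRestrict _
  have e : ↥(Cfsg.SU 2 F q) ≃* ↥π.ker := (kerLineEquiv hF).trans (MulEquiv.subgroupCongr hk.symm)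
  refine noMult_of_ker (Fact.out : p.Prime) hr hne π (MonoidHom.rangeRestrict_surjective _) ?_
    (noMult_congr e (noMult_su_two hF p hr hne)) noMult_of_isCyclic
  have h := congrArg (Subgroup.map e.toMonoidHom) (closure_pElts_SU hF p 2)
  rw [MonoidHom.map_closure, Subgroup.map_top_of_surjective _ e.surjective] at h
  refine eq_top_iff.2 (h.ge.trans (Subgroup.closure_mono ?_))
  rintro _ ⟨a, ha, rfl⟩
  exact map_mem_pElts p e.toMonoidHom ha

include hF in
theorem index_lineStab : (lineStab F q).index = q ^ 2 * (q ^ 2 - q + 1) := by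
  have h := (lineStab F q).card_mul_index
  have h2 := (lineChar (F := F) (q := q)).ker.card_mul_index
  rw [Subgroup.index_ker, lineChar_range hF, card_circ hF, ← Nat.card_congr (kerLineEquiv hF).toEquiv,
    card_su_two hF] at h2
  rw [← h2, card_su_three hF] at h
  have hq := two_le_q hF
  have h1 : 1 ≤ q ^ 2 := Nat.one_le_pow _ _ (by omega)
  have h3 : q ≤ q ^ 2 := Nat.le_self_pow two_ne_zero q
  have h4 : 0 < q ^ 2 - 1 := by
    have := Nat.pow_le_pow_left hq 2
    omega
  refine Nat.eq_of_mul_eq_mul_left (show 0 < q * (q ^ 2 - 1) * (q + 1) by positivity) ?_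
  rw [h]
  zify [h1, h3]
  ring

omit [Fintype F] in
theorem zmod_three_root : ∀ x : ZMod 3, x ^ 2 - x + 1 = 0 → x + 1 = 0 := by decide

omit [Fintype F] in
theorem pow_cast_eq {x : ZMod r} (hx : x ^ 2 - x + 1 = 0) :
    x ^ 6 = 1 ∧ ((3 : ZMod r) ≠ 0 → x ^ 2 ≠ 1 ∧ x ^ 4 ≠ 1) := by
  refine ⟨by linear_combination (x ^ 4 + x ^ 3 - x - 1) * hx, fun h3 => ⟨fun h => h3 ?_, fun h => h3 ?_⟩⟩
  · have e : x = 2 := by linear_combination h - hx
    rw [e] at hx
    linear_combination hx
  · have e : x = -1 := by linear_combination (x ^ 2 + x) * hx - h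
    rw [e] at hx
    linear_combination hx

include hF in
/-- An element of order `r ∣ q² - q + 1`, `r ≠ 3`, has no invariant subspaces. -/
theorem invariant_trivial [Fact r.Prime] (h3 : r ≠ 3) (hd : r ∣ q ^ 2 - q + 1) {z : ↥(Cfsg.SU 3 F q)}
    (hz : z ^ r = 1) (hz1 : z ≠ 1) {W : Submodule F (Fin 3 → F)} (hW : ∀ x ∈ W, sv z x ∈ W) :
    W = ⊥ ∨ W = ⊤ := by
  classical
  have hr : r.Prime := Fact.out
  set x : ZMod r := (q : ZMod r)
  have hle : q ≤ q ^ 2 := Nat.le_self_pow two_ne_zero q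
  have hx : x ^ 2 - x + 1 = 0 := by
    have h := (ZMod.natCast_eq_zero_iff _ r).2 hd
    rwa [Nat.cast_add, Nat.cast_sub hle, Nat.cast_pow, Nat.cast_one] at h
  have h30 : (3 : ZMod r) ≠ 0 := fun h => h3 ((Nat.prime_dvd_prime_iff_eq hr Nat.prime_three).1
    ((ZMod.natCast_eq_zero_iff 3 r).1 (by exact_mod_cast h)))
  obtain ⟨hx6, hx'⟩ := pow_cast_eq hx
  obtain ⟨hx2, hx4⟩ := hx' h30
  let L : (Fin 3 → F) →ₗ[F] (Fin 3 → F) :=
    Matrix.toLin' ((z : Matrix.SpecialLinearGroup (Fin 3) F) : Matrix (Fin 3) (Fin 3) F)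
  have hL : ∀ v, L v = sv z v := fun v => Matrix.toLin'_apply _ _
  set Fx : Submodule F (Fin 3 → F) := LinearMap.eqLocus L LinearMap.id
  have hFx : ∀ v, v ∈ Fx ↔ sv z v = v := fun v => by rw [← hL]; rfl
  -- counting fixed points on an invariant subspace
  have key : ∀ U : Submodule F (Fin 3 → F), (∀ v ∈ U, sv z v ∈ U) →
      Module.finrank F ↥(U ⊓ Fx) = Module.finrank F U ∨
        (Module.finrank F ↥(U ⊓ Fx) = 0 ∧ Module.finrank F U = 3) := by
    intro U hU
    haveI : Fintype U := Fintype.ofFinite U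
    have hit : ∀ (k : ℕ) (v : U), sv (z ^ k) v.1 ∈ U := by
      intro k; induction k with
      | zero => intro v; rw [pow_zero, sv_one]; exact v.2
      | succ k ih => intro v; rw [pow_succ', sv_mul]; exact hU _ (ih v)
    have hinv : ∀ v ∈ U, sv z⁻¹ v ∈ U := fun v hv => by
      rw [show z⁻¹ = z ^ (r - 1) from inv_eq_of_mul_eq_one_right (by
        rw [← pow_succ', Nat.sub_add_cancel hr.one_le, hz])]
      exact hit _ ⟨v, hv⟩
    let e : Equiv.Perm U :=
      ⟨fun v => ⟨sv z v.1, hU _ v.2⟩, fun v => ⟨sv z⁻¹ v.1, hinv _ v.2⟩,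
        fun v => Subtype.ext (sv_inv_sv z v.1), fun v => Subtype.ext (sv_sv_inv z v.1)⟩
    have he : ∀ (k : ℕ) (v : U), ((e ^ k) v).1 = sv (z ^ k) v.1 := by
      intro k; induction k with
      | zero => intro v; simp
      | succ k ih =>
        intro v
        rw [pow_succ', Equiv.Perm.mul_apply, pow_succ' z, sv_mul, ← ih v]
        rfl
    have hmod : Nat.card U ≡ Nat.card ↥(U ⊓ Fx) [MOD r] := by
      have hp : e ^ r ^ 1 = 1 := Equiv.ext fun v => Subtype.ext (by rw [pow_one, he, hz, sv_one]; rfl)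
      let φ : Equiv.Perm U →* Function.End U := ⟨⟨fun g => (⇑g : U → U), rfl⟩, fun _ _ => rfl⟩
      have hp' : φ e ^ r ^ 1 = 1 := by rw [← map_pow, hp, map_one]
      have h := Equiv.Perm.card_fixedPoints_modEq (f := φ e) hp'
      rw [← Nat.card_eq_fintype_card, ← Nat.card_eq_fintype_card] at h
      refine h.trans ?_
      refine Nat.ModEq.trans (congrArg (· % r) (Nat.card_congr (show ↥(Function.fixedPoints (⇑e)) ≃ ↥(U ⊓ Fx) from
        { toFun := fun v => ⟨v.1.1, v.1.2, (hFx _).2 (congrArg Subtype.val (show e v.1 = v.1 from v.2))⟩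
          invFun := fun v => ⟨⟨v.1, v.2.1⟩, Subtype.ext ((hFx _).1 v.2.2)⟩
          left_inv := fun v => rfl
          right_inv := fun v => rfl }))) (Nat.ModEq.refl _)
    set k := Module.finrank F U
    set j := Module.finrank F ↥(U ⊓ Fx)
    have hjk : j ≤ k := Submodule.finrank_mono inf_le_left
    have hk3 : k ≤ 3 := (Submodule.finrank_le U).trans (le_of_eq (by simp))
    have hcast : ∀ V : Submodule F (Fin 3 → F), ((Nat.card V : ℕ) : ZMod r) = (x ^ 2) ^ Module.finrank F V := by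
      intro V
      rw [Module.natCard_eq_pow_finrank (K := F), Nat.card_eq_fintype_card, hF]
      push_cast; rfl
    have h := (ZMod.natCast_eq_natCast_iff _ _ _).2 hmod
    rw [hcast, hcast] at h
    change (x ^ 2) ^ k = (x ^ 2) ^ j at h
    rw [show k = j + (k - j) by omega, pow_add] at h
    have hx0 : x ^ 2 ≠ 0 := fun e0 => by
      have : x ^ 6 = 0 := by rw [show x ^ 6 = (x ^ 2) ^ 3 by ring, e0]; ring
      rw [hx6] at this; exact one_ne_zero this
    have h1 : (x ^ 2) ^ (k - j) = 1 := mul_left_cancel₀ (pow_ne_zero j hx0) (by rw [mul_one]; exact h)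
    rcases (show k - j = 0 ∨ k - j = 1 ∨ k - j = 2 ∨ k - j = 3 by omega) with e | e | e | e
    · left; omega
    · rw [e, pow_one] at h1; exact absurd h1 hx2
    · rw [e] at h1; exact absurd (by rw [← h1]; ring) hx4
    · right; omega
  have hFx0 : Fx = ⊥ := by
    rcases key ⊤ (fun _ _ => Submodule.mem_top) with h | h
    · exfalso
      rw [top_inf_eq] at h
      have hT : Fx = ⊤ := Submodule.eq_top_of_finrank_eq (h.trans (finrank_top F (Fin 3 → F)))
      exact hz1 (sv_ext fun v => by rw [sv_one]; exact (hFx v).1 (hT ▸ Submodule.mem_top))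
    · rw [top_inf_eq] at h
      exact Submodule.finrank_eq_zero.1 h.1
  rcases key W hW with h | h
  · left
    rw [hFx0, inf_bot_eq, finrank_bot] at h
    exact Submodule.finrank_eq_zero.1 h.symm
  · right
    exact Submodule.eq_top_of_finrank_eq (h.2.trans (by simp))

include hF in
theorem isCyclic_sylow_three [Fact r.Prime] (h3 : r ≠ 3) (hd : r ∣ q ^ 2 - q + 1)
    (R : Sylow r ↥(Cfsg.SU 3 F q)) : IsCyclic ↥R := by
  classical
  rcases subsingleton_or_nontrivial ↥R with h | h
  · exact isCyclic_of_subsingleton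
  haveI := R.2.center_nontrivial
  have hdc : r ∣ Nat.card ↥(Subgroup.center ↥R) := by
    obtain ⟨k, hk⟩ := IsPGroup.iff_card.1 (R.2.to_subgroup (Subgroup.center ↥R))
    have hk0 : k ≠ 0 := fun e => by
      rw [e, pow_zero] at hk
      exact (Finite.one_lt_card_iff_nontrivial.2 inferInstance).ne' hk
    exact (dvd_pow_self r hk0).trans (dvd_of_eq hk.symm)
  obtain ⟨⟨⟨z, hzR⟩, hzc⟩, ho⟩ := exists_prime_orderOf_dvd_card' r hdc
  have hzo : orderOf z = r := by
    rw [← ho]
    exact (Subgroup.orderOf_coe (⟨z, hzR⟩ : ↥(R : Subgroup ↥(Cfsg.SU 3 F q)))).trans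
      (Subgroup.orderOf_coe (⟨⟨z, hzR⟩, hzc⟩ : ↥(Subgroup.center ↥R)))
  have hz : z ^ r = 1 := by rw [← hzo, pow_orderOf_eq_one]
  have hz1 : z ≠ 1 := fun e => by
    rw [e, orderOf_one] at hzo; exact (Fact.out : r.Prime).one_lt.ne hzo
  set Z := ((z : Matrix.SpecialLinearGroup (Fin 3) F) : Matrix (Fin 3) (Fin 3) F)
  set C := Subalgebra.centralizer F ({Z} : Set (Matrix (Fin 3) (Fin 3) F))
  have hC : ∀ {X}, X ∈ C → ∀ v, Z *ᵥ (X *ᵥ v) = X *ᵥ (Z *ᵥ v) := fun {X} hX v => by
    rw [Matrix.mulVec_mulVec, Matrix.mulVec_mulVec, hX Z rfl]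
  have hirr : ∀ W : Submodule F (Fin 3 → F), (∀ v ∈ W, Z *ᵥ v ∈ W) → W = ⊥ ∨ W = ⊤ := fun W hW =>
    invariant_trivial hF h3 hd hz hz1 hW
  set v0 : Fin 3 → F := Pi.single 0 1
  have hv0 : v0 ≠ 0 := fun e => by simpa [v0] using congrFun e 0
  have hinj : ∀ X ∈ C, ∀ Y ∈ C, X *ᵥ v0 = Y *ᵥ v0 → X = Y := by
    intro X hX Y hY h
    have hE := hirr (LinearMap.eqLocus (Matrix.toLin' X) (Matrix.toLin' Y)) fun v hv => by
      simp only [LinearMap.mem_eqLocus, Matrix.toLin'_apply] at hv ⊢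
      rw [← hC hX, ← hC hY, hv]
    rcases hE with hE | hE
    · exact absurd ((Submodule.mem_bot F).1 (hE ▸ (show v0 ∈ LinearMap.eqLocus (Matrix.toLin' X) (Matrix.toLin' Y) by
        simpa [LinearMap.mem_eqLocus] using h))) hv0
    · refine Matrix.toLin'.injective (LinearMap.ext fun v => ?_)
      have : v ∈ LinearMap.eqLocus (Matrix.toLin' X) (Matrix.toLin' Y) := hE ▸ Submodule.mem_top
      exact this
  let ev : Matrix (Fin 3) (Fin 3) F →ₗ[F] (Fin 3 → F) :=
    { toFun := fun X => X *ᵥ v0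
      map_add' := fun X Y => Matrix.add_mulVec X Y v0
      map_smul' := fun c X => Matrix.smul_mulVec c X v0 }
  set P := Algebra.adjoin F ({Z} : Set (Matrix (Fin 3) (Fin 3) F))
  have hPC : P ≤ C := Algebra.adjoin_le fun W hW => by
    obtain rfl : W = Z := hW
    intro Y hY
    rw [Set.mem_singleton_iff.1 hY]
  have hsurj : (Subalgebra.toSubmodule P).map ev = ⊤ := by
    refine (hirr _ ?_).resolve_left fun e => hv0 ((Submodule.mem_bot F).1 (e ▸
      ⟨1, P.one_mem, Matrix.one_mulVec v0⟩))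
    rintro _ ⟨X, hX, rfl⟩
    exact ⟨Z * X, P.mul_mem (Algebra.self_mem_adjoin_singleton F Z) hX, (Matrix.mulVec_mulVec v0 Z X).symm⟩
  have hCP : ∀ X ∈ C, X ∈ P := fun X hX => by
    obtain ⟨Y, hY, e⟩ : X *ᵥ v0 ∈ (Subalgebra.toSubmodule P).map ev := hsurj ▸ Submodule.mem_top
    rw [hinj X hX Y (hPC hY) e.symm]
    exact hY
  have hcomm : ∀ X ∈ C, ∀ Y ∈ C, X * Y = Y * X := fun X hX Y hY => by
    have hle : P ≤ Subalgebra.centralizer F ({X} : Set (Matrix (Fin 3) (Fin 3) F)) :=
      Algebra.adjoin_le fun W hW => by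
        obtain rfl : W = Z := hW
        intro X' hX'
        obtain rfl : X' = X := hX'
        exact (hX Z rfl).symm
    exact hle (hCP Y hY) X rfl
  letI : CommRing ↥C :=
    { (inferInstance : Ring ↥C) with mul_comm := fun a b => Subtype.ext (hcomm _ a.2 _ b.2) }
  haveI : NoZeroDivisors ↥C := ⟨fun {a b} hab => by
    by_contra hcon
    push Not at hcon
    have hE := hirr (LinearMap.ker (Matrix.toLin' a.1)) fun v hv => by
      rw [LinearMap.mem_ker, Matrix.toLin'_apply] at hv ⊢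
      rw [← hC a.2, hv, Matrix.mulVec_zero]
    rcases hE with hE | hE
    · refine hcon.2 (Subtype.ext (Matrix.toLin'.injective (LinearMap.ext fun v => ?_)))
      have h1 : a.1 * b.1 = 0 := congrArg Subtype.val hab
      have : b.1 *ᵥ v ∈ LinearMap.ker (Matrix.toLin' a.1) := by
        rw [LinearMap.mem_ker, Matrix.toLin'_apply, Matrix.mulVec_mulVec, h1, Matrix.zero_mulVec]
      rw [hE, Submodule.mem_bot] at this
      simpa using this
    · refine hcon.1 (Subtype.ext (Matrix.toLin'.injective (LinearMap.ext fun v => ?_)))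
      have : v ∈ LinearMap.ker (Matrix.toLin' a.1) := hE ▸ Submodule.mem_top
      simpa using this⟩
  haveI : Nontrivial ↥C := ⟨⟨0, 1, fun e => zero_ne_one (congrArg Subtype.val e)⟩⟩
  haveI : IsDomain ↥C := NoZeroDivisors.to_isDomain _
  have hRC : ∀ g : ↥R, (((g : ↥(Cfsg.SU 3 F q)) : Matrix.SpecialLinearGroup (Fin 3) F) :
      Matrix (Fin 3) (Fin 3) F) ∈ C := fun g X hX => by
    obtain rfl : X = Z := hX
    exact congrArg (fun w : ↥R => ((w.1 : Matrix.SpecialLinearGroup (Fin 3) F) : Matrix (Fin 3) (Fin 3) F))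
      (Subgroup.mem_center_iff.1 hzc g).symm
  refine isCyclic_of_subgroup_isDomain
    (⟨⟨fun g => (⟨_, hRC g⟩ : ↥C), Subtype.ext rfl⟩, fun a b => Subtype.ext rfl⟩ : ↥R →* ↥C) fun a b h => ?_
  have h' := congrArg Subtype.val h
  exact Subtype.ext (Subtype.ext (Subtype.ext h'))

include hF in
theorem not_dvd_q (hr : r.Prime) (hne : r ≠ p) : ¬ r ∣ q := fun h => by
  obtain ⟨k, -, hqk⟩ := CfsgLib.AutPSU.exists_pow_eq hF p
  rw [hqk] at h
  exact hne ((Nat.prime_dvd_prime_iff_eq hr Fact.out).1 (hr.dvd_of_dvd_pow h))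

include hF in
theorem noMult_su_three (hr : r.Prime) (hne : r ≠ p) : NoMult r ↥(Cfsg.SU 3 F q) := by
  haveI := Fact.mk hr
  by_cases hd : r ∣ q ^ 2 - q + 1
  · by_cases h3 : r = 3
    · subst h3
      refine noMult_su_three_three hF ?_
      have hle : q ≤ q ^ 2 := Nat.le_self_pow two_ne_zero q
      rw [← ZMod.natCast_eq_zero_iff, Nat.cast_add, Nat.cast_sub hle] at hd
      push_cast at hd
      rw [← ZMod.natCast_eq_zero_iff]
      push_cast
      exact zmod_three_root _ hd
    · obtain ⟨R⟩ : Nonempty (Sylow r ↥(Cfsg.SU 3 F q)) := inferInstance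
      haveI := isCyclic_sylow_three hF h3 hd R
      exact noMult_of_index hr R R.not_dvd_index noMult_of_isCyclic
  · refine noMult_of_index hr (lineStab F q) ?_ (noMult_lineStab hF p hr hne)
    rw [index_lineStab hF]
    intro h
    rcases hr.dvd_mul.1 h with h | h
    exacts [not_dvd_q hF p hr hne (hr.dvd_of_dvd_pow h), hd h]

include hF in
theorem noMult_su_four_two (hq : q = 2) (hr : r.Prime) (hne : r ≠ p) : NoMult r ↥(Cfsg.SU 4 F q) := by
  haveI := Fact.mk hr
  obtain rfl : p = 2 := by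
    obtain ⟨k, hk, hqk⟩ := CfsgLib.AutPSU.exists_pow_eq hF p
    rw [hq] at hqk
    exact (Nat.prime_dvd_prime_iff_eq Fact.out Nat.prime_two).1 (hqk ▸ dvd_pow_self p (by omega))
  by_cases h3 : r = 3
  · subst h3; exact noMult_su_four_two_three hF hq
  have hG : Nat.card ↥(Cfsg.SU 4 F q) = 25920 := by
    subst hq
    have h := card_SU hF 4 (by norm_num)
    simp only [Finset.prod_range_succ, Finset.prod_range_zero] at h
    norm_num [Nat.even_iff, -Nat.card_eq_fintype_card] at h
    omega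
  by_cases hd : r ∣ Nat.card ↥(Cfsg.SU 4 F q)
  · obtain ⟨g, hg⟩ := exists_prime_orderOf_dvd_card' r hd
    have hcard : Nat.card ↥(Subgroup.zpowers g) = r := by rw [Nat.card_zpowers, hg]
    refine noMult_of_index hr (Subgroup.zpowers g) (fun hi => ?_) noMult_of_isCyclic
    have h2 : r * r ∣ 25920 := by
      rw [← hG, ← (Subgroup.zpowers g).card_mul_index, hcard]
      exact Nat.mul_dvd_mul_left r hi
    have hle : r * r ≤ 25920 := Nat.le_of_dvd (by norm_num) h2
    have hr2 : r ≠ 2 := hne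
    have : r < 161 := by
      by_contra hc
      push Not at hc
      nlinarith
    interval_cases r <;> first | omega | norm_num at hr
  · refine noMult_of_index hr ⊥ ?_ noMult_of_isCyclic
    rwa [Subgroup.index_bot]

include hF in
/-- No `r`-part in the multiplier of `SU_n(q)` away from the characteristic. -/
theorem noMult_su_cross (hr : r.Prime) (hne : r ≠ p) : ∀ n : ℕ, NoMult r ↥(Cfsg.SU n F q) := by
  intro n
  induction n using Nat.strong_induction_on with
  | _ n ih =>
    by_cases h1 : n ≤ 1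
    · haveI := subsingleton_SU_le_one (F := F) (q := q) h1
      exact noMult_of_isCyclic
    by_cases h2 : n = 2
    · subst h2; exact noMult_su_two hF p hr hne
    by_cases h3 : n = 3
    · subst h3; exact noMult_su_three hF p hr hne
    have hq := two_le_q hF
    by_cases h4 : n = 4 ∧ q = 2
    · obtain ⟨rfl, h⟩ := h4; exact noMult_su_four_two hF p h hr hne
    obtain ⟨m, rfl⟩ : ∃ m, n = m + 2 := ⟨n - 2, by omega⟩
    exact noMult_su_step hF p hr hne (by omega) (by omega) (ih m (by omega))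

end CfsgLib.SchurClassical.Un
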